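import Mathlib
import Cfsg.Agent.Helper13.TIDefs

set_option autoImplicit false

namespace Cfsg.Agent.Helper58.TI5955

open Module Polynomial
open Cfsg.Agent.Helper42.SpForm Cfsg.Agent.Helper42.SpGroup Cfsg.Agent.Helper42.SpModels
open Cfsg.Agent.Helper13.TIsp Cfsg.Agent.Helper90.BG

variable {F : Type*} [Field F] {V : Type*} [AddCommGroup V] [Module F V] [FiniteDimensional F V]

/-- COMPL: relative invariant complements (semisimplicity). -/
theorem ti_compl (T : Module.End F V) (N : ℕ) (hN : (N : F) ≠ 0) (hTN : T ^ N = 1)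
    (A P : Submodule F V) (hAP : A ≤ P) (hA : A.map T ≤ A) (hP : P.map T ≤ P) :
    ∃ U : Submodule F V, U ≤ P ∧ U.map T ≤ U ∧ A ⊓ U = ⊥ ∧ A ⊔ U = P := by
  have hss : Module.End.IsSemisimple T := by
    apply Module.End.isSemisimple_of_squarefree_aeval_eq_zero (p := X ^ N - C (1 : F))
    · exact (Polynomial.separable_X_pow_sub_C (1 : F) hN one_ne_zero).squarefree
    · simp [hTN]
  rw [Module.End.isSemisimple_iff] at hss
  obtain ⟨W, hW, hc⟩ := hss A (by
    rw [Module.End.mem_invtSubmodule]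
    exact Submodule.map_le_iff_le_comap.mp hA)
  rw [Module.End.mem_invtSubmodule] at hW
  have hWT : W.map T ≤ W := Submodule.map_le_iff_le_comap.mpr hW
  refine ⟨W ⊓ P, inf_le_right, ?_, ?_, ?_⟩
  · rintro _ ⟨w, hw, rfl⟩
    exact ⟨hWT ⟨w, hw.1, rfl⟩, hP ⟨w, hw.2, rfl⟩⟩
  · rw [← inf_assoc, hc.inf_eq_bot, bot_inf_eq]
  · rw [← sup_inf_assoc_of_le W hAP, hc.sup_eq_top, top_inf_eq]

end Cfsg.Agent.Helper58.TI5955
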