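import Mathlib
import Cfsg.Prelude.Def_GeometricClasses
import Cfsg.Prelude.Def_Classical

set_option autoImplicit false

/-!
# Totally singular subspaces fixed by isometries: definitions (helper58, for S5973 / S5987)

`InvTS Q x k`: the matrix `x` leaves invariant some totally singular `k`-dimensional subspace of
the quadratic form `Q`.  `TypeDefect Q δ`: `δ = 0` for plus type, `δ = 1` for minus type
(so that the Witt index of a nondegenerate `2d`-dimensional space is `d - δ`).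
-/

namespace Cfsg.Agent.Helper58.TS

variable {ι : Type} [Fintype ι] [DecidableEq ι] {F : Type*} [Field F]

/-- `x` fixes a totally singular subspace of dimension `k` (for the quadratic form `Q`). -/
def InvTS (Q : (ι → F) → F) (x : Matrix ι ι F) (k : ℕ) : Prop :=
  ∃ W : Submodule F (ι → F), Module.finrank F ↥W = k ∧ (∀ w ∈ W, Q w = 0) ∧
    W.map (Matrix.toLin' x) ≤ W

/-- the type of the whole space: `δ = 0` plus type, `δ = 1` minus type. -/
def TypeDefect (Q : (ι → F) → F) (δ : ℕ) : Prop :=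
  (δ = 0 ∧ Cfsg.Geo.IsPlusTypeOn Q ⊤) ∨ (δ = 1 ∧ ¬ Cfsg.Geo.IsPlusTypeOn Q ⊤)

theorem TypeDefect.le_one {Q : (ι → F) → F} {δ : ℕ} (h : TypeDefect Q δ) : δ ≤ 1 := by
  rcases h with ⟨h, -⟩ | ⟨h, -⟩ <;> omega

theorem typeDefect_plus {Q : (ι → F) → F} (h : Cfsg.Geo.IsPlusTypeOn Q ⊤) : TypeDefect Q 0 :=
  Or.inl ⟨rfl, h⟩

theorem typeDefect_minus {Q : (ι → F) → F} (h : ¬ Cfsg.Geo.IsPlusTypeOn Q ⊤) : TypeDefect Q 1 :=
  Or.inr ⟨rfl, h⟩

end Cfsg.Agent.Helper58.TS
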