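import Mathlib
import Cfsg.Agent.Helper13.TIDefs

set_option autoImplicit false

namespace Cfsg.Agent.Helper58.TI5955

open Module Polynomial
open Cfsg.Agent.Helper42.SpForm Cfsg.Agent.Helper42.SpGroup Cfsg.Agent.Helper42.SpModels
open Cfsg.Agent.Helper13.TIsp Cfsg.Agent.Helper90.BG

variable (F : Type*) [Field F] [Fintype F]

/-- BLKE: the unitary block (all characteristics, char 2 included). -/
theorem blk_even (p : ℕ) [Fact p.Prime] [CharP F p] (e : ℕ) [NeZero (2 * e)] (he : 1 ≤ e)
    (r : ℕ) [Fact r.Prime] (hr2 : 2 < r) (hr : r ∣ Fintype.card F ^ e + 1) :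
    ∃ (σ : FiniteField.Extension F p (2 * e) ≃ₐ[F] FiniteField.Extension F p (2 * e))
      (c ω : FiniteField.Extension F p (2 * e)),
      (∀ x, unitForm F _ σ c x x = 0) ∧ (∀ x, (∀ y, unitForm F _ σ c x y = 0) → x = 0) ∧
      ω ^ r = 1 ∧ ω ≠ 1 ∧ ω * σ ω = 1 := by
  classical
  obtain ⟨σ, c, γ, hσ, hc, hc0, hγ, hord⟩ := exists_unit_data F p e he
  have hq1 : 1 < Fintype.card F := Fintype.one_lt_card
  have hqe : 1 < Fintype.card F ^ e := Nat.one_lt_pow (by omega) hq1
  have hσ1 : σ ≠ 1 := by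
    intro h
    rw [h] at hγ
    have h2 : γ ^ 2 = 1 := by
      rw [pow_two]
      exact hγ
    have h3 := Nat.le_of_dvd (by norm_num) (hord 2 h2)
    omega
  have hσσ : σ * σ = 1 := by
    ext x
    exact hσ x
  have hγ0 : γ ≠ 0 := by
    intro h
    rw [h] at hγ
    simp at hγ
  obtain ⟨u, hu⟩ : ∃ u : (FiniteField.Extension F p (2 * e))ˣ, (u : FiniteField.Extension F p (2 * e)) = γ :=
    ⟨Units.mk0 γ hγ0, rfl⟩
  have hm : 0 < orderOf u := orderOf_pos u
  have hγm : γ ^ orderOf u = 1 := by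
    rw [← hu, ← Units.val_pow_eq_pow_val, pow_orderOf_eq_one, Units.val_one]
  have hrm : r ∣ orderOf u := dvd_trans hr (hord _ hγm)
  have hr1 : 1 < r := by omega
  refine ⟨σ, c, γ ^ (orderOf u / r), ?_, ?_, ?_, ?_, ?_⟩
  · intro x
    rw [unitForm_apply]
    have hy : σ (c * x * σ x) = -(c * x * σ x) := by
      rw [map_mul, map_mul, hσ, hc]
      ring
    have h := trace_eq_sum_automorphisms (K := F) (c * x * σ x)
    have hsum : ∑ τ : FiniteField.Extension F p (2 * e) ≃ₐ[F] FiniteField.Extension F p (2 * e),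
        τ (c * x * σ x) = 0 := by
      apply Finset.sum_involution (fun τ _ => τ * σ)
      · intro τ _
        show τ (c * x * σ x) + (τ * σ) (c * x * σ x) = 0
        rw [AlgEquiv.mul_apply, hy, map_neg, add_neg_cancel]
      · intro τ _ _ h
        apply hσ1
        exact mul_left_cancel (a := τ) (by rw [h, mul_one])
      · intro τ _
        exact Finset.mem_univ _
      · intro τ _
        show τ * σ * σ = τ
        rw [mul_assoc, hσσ, mul_one]
    rw [hsum] at h
    exact (map_eq_zero_iff _ (algebraMap F (FiniteField.Extension F p (2 * e))).injective).mp h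
  · intro x hx
    exact unitForm_nondeg F _ σ c hσ hc0 x hx
  · rw [← pow_mul, Nat.div_mul_cancel hrm, hγm]
  · intro h
    have h1 : u ^ (orderOf u / r) = 1 := by
      apply Units.ext
      rw [Units.val_pow_eq_pow_val, hu, h, Units.val_one]
    have h2 := orderOf_dvd_of_pow_eq_one h1
    have h3 : 0 < orderOf u / r := Nat.div_pos (Nat.le_of_dvd hm hrm) (by omega)
    have h4 := Nat.le_of_dvd h3 h2
    have h5 := Nat.div_lt_self hm hr1
    omega
  · rw [map_pow, ← mul_pow, hγ, one_pow]

end Cfsg.Agent.Helper58.TI5955
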