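import Mathlib
import Cfsg.Agent.Helper13.TIDefs

set_option autoImplicit false

namespace Cfsg.Agent.Helper58.TI5955

open Module Polynomial
open Cfsg.Agent.Helper42.SpForm Cfsg.Agent.Helper42.SpGroup Cfsg.Agent.Helper42.SpModels
open Cfsg.Agent.Helper13.TIsp Cfsg.Agent.Helper90.BG

variable {F : Type*} [Field F] {V : Type*} [AddCommGroup V] [Module F V] [FiniteDimensional F V]
  {V' : Type*} [AddCommGroup V'] [Module F V'] [FiniteDimensional F V']

/-- PULL: transport along an isometry intertwining `T` and `T'`. -/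
theorem ti_pull (B : LinearMap.BilinForm F V) (B' : LinearMap.BilinForm F V') (Φ : V ≃ₗ[F] V')
    (hΦ : ∀ x y, B' (Φ x) (Φ y) = B x y) (T : Module.End F V) (T' : Module.End F V')
    (hT : ∀ v, T' (Φ v) = Φ (T v)) :
    (∀ k : ℕ, T' ^ k = 1 ↔ T ^ k = 1) ∧
    finrank F (LinearMap.ker (T' - 1)) = finrank F (LinearMap.ker (T - 1)) ∧
    ∀ W' : Submodule F V', TI B' W' → W'.map T' ≤ W' →
      ∃ W : Submodule F V, TI B W ∧ W.map T ≤ W ∧ finrank F W = finrank F W' := by
  have hTk : ∀ (k : ℕ) (v : V), (T' ^ k) (Φ v) = Φ ((T ^ k) v) := by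
    intro k
    induction k with
    | zero => intro v; simp
    | succ k ih =>
      intro v
      rw [pow_succ, pow_succ, Module.End.mul_apply, Module.End.mul_apply, hT, ih]
  refine ⟨?_, ?_, ?_⟩
  · intro k
    constructor
    · intro h
      ext v
      apply Φ.injective
      rw [← hTk, h]
      simp
    · intro h
      ext v'
      obtain ⟨v, rfl⟩ := Φ.surjective v'
      rw [hTk, h]
      simp
  · have hker : LinearMap.ker (T' - 1) = (LinearMap.ker (T - 1)).map Φ.toLinearMap := by
      ext v'
      obtain ⟨v, rfl⟩ := Φ.surjective v'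
      simp only [LinearMap.mem_ker, LinearMap.sub_apply, Module.End.one_apply, Submodule.mem_map,
        LinearEquiv.coe_coe]
      constructor
      · intro h
        refine ⟨v, ?_, rfl⟩
        rw [hT, ← map_sub] at h
        exact (LinearEquiv.map_eq_zero_iff Φ).mp h
      · rintro ⟨w, hw, hwv⟩
        have : w = v := Φ.injective hwv
        subst this
        rw [hT, ← map_sub, hw, map_zero]
    rw [hker]
    exact LinearEquiv.finrank_map_eq Φ _
  · intro W' hW' hWT
    refine ⟨W'.comap Φ.toLinearMap, ?_, ?_, ?_⟩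
    · intro u hu v hv
      rw [← hΦ]
      exact hW' _ hu _ hv
    · rintro _ ⟨w, hw, rfl⟩
      show Φ (T w) ∈ W'
      rw [← hT]
      exact hWT ⟨Φ w, hw, rfl⟩
    · have : W'.comap Φ.toLinearMap = W'.map Φ.symm.toLinearMap :=
        Submodule.comap_equiv_eq_map_symm Φ W'
      rw [this]
      exact LinearEquiv.finrank_map_eq Φ.symm _

end Cfsg.Agent.Helper58.TI5955
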