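import Mathlib
import Cfsg.Agent.Helper13.TIDefs

set_option autoImplicit false

namespace Cfsg.Agent.Helper58.TI5955

open Module Polynomial
open Cfsg.Agent.Helper42.SpForm Cfsg.Agent.Helper42.SpGroup Cfsg.Agent.Helper42.SpModels
open Cfsg.Agent.Helper13.TIsp Cfsg.Agent.Helper90.BG

variable {F : Type*} [Field F] {V : Type*} [AddCommGroup V] [Module F V] [FiniteDimensional F V]
  (B : LinearMap.BilinForm F V)

/-- CW: Chevalley–Warning. -/
theorem ti_cw [Fintype F] (T : Module.End F V) (U : Submodule F V) (s : Finset ℕ)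
    (h : 2 * s.card < finrank F U) :
    ∃ v ∈ U, v ≠ 0 ∧ ∀ j ∈ s, B v ((T ^ j) v) = 0 := by
  classical
  obtain ⟨n, hn⟩ : ∃ n, n = finrank F U := ⟨_, rfl⟩
  rw [← hn] at h
  obtain ⟨b⟩ : Nonempty (Basis (Fin n) F U) := by
    rw [hn]
    exact ⟨Module.finBasis F U⟩
  obtain ⟨f, hf⟩ : ∃ f : ℕ → MvPolynomial (Fin n) F, ∀ j, f j =
      ∑ a, ∑ c, MvPolynomial.C (B (b a : V) ((T ^ j) (b c : V))) * MvPolynomial.X a *
        MvPolynomial.X c := ⟨_, fun _ => rfl⟩
  have hdeg : ∀ j, (f j).totalDegree ≤ 2 := by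
    intro j
    rw [hf]
    apply MvPolynomial.totalDegree_finsetSum_le
    intro a _
    apply MvPolynomial.totalDegree_finsetSum_le
    intro c _
    refine le_trans (MvPolynomial.totalDegree_mul _ _) ?_
    have h1 := MvPolynomial.totalDegree_mul
      (MvPolynomial.C (B (b a : V) ((T ^ j) (b c : V))) : MvPolynomial (Fin n) F)
      (MvPolynomial.X a)
    rw [MvPolynomial.totalDegree_C, MvPolynomial.totalDegree_X] at h1
    rw [MvPolynomial.totalDegree_X]
    omega
  have hsum : ∑ j ∈ s, (f j).totalDegree < Fintype.card (Fin n) := by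
    calc ∑ j ∈ s, (f j).totalDegree ≤ ∑ j ∈ s, 2 := Finset.sum_le_sum (fun j _ => hdeg j)
      _ = 2 * s.card := by simp [mul_comm]
      _ < n := h
      _ = Fintype.card (Fin n) := (Fintype.card_fin n).symm
  have hdvd := char_dvd_card_solutions_of_sum_lt (ringChar F) hsum
  have h0 : ∀ j ∈ s, MvPolynomial.eval (0 : Fin n → F) (f j) = 0 := by
    intro j _
    rw [hf]
    simp
  have hp : (ringChar F).Prime := CharP.char_is_prime F (ringChar F)
  have hcard : 1 < Fintype.card {x : Fin n → F // ∀ i ∈ s, MvPolynomial.eval x (f i) = 0} := by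
    have hpos : 0 < Fintype.card {x : Fin n → F // ∀ i ∈ s, MvPolynomial.eval x (f i) = 0} :=
      Fintype.card_pos_iff.mpr ⟨⟨0, h0⟩⟩
    exact lt_of_lt_of_le hp.one_lt (Nat.le_of_dvd hpos hdvd)
  obtain ⟨⟨x, hx⟩, hne⟩ := Fintype.exists_ne_of_one_lt_card hcard ⟨0, h0⟩
  have hx0 : x ≠ 0 := fun h => hne (Subtype.ext h)
  obtain ⟨u, hu⟩ : ∃ u : U, u = b.equivFun.symm x := ⟨_, rfl⟩
  refine ⟨(u : V), u.2, ?_, ?_⟩
  · intro h0'
    apply hx0
    have h1 : u = 0 := Subtype.ext h0'
    rw [hu] at h1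
    exact (LinearEquiv.map_eq_zero_iff b.equivFun.symm).mp h1.symm.symm
  · intro j hj
    have huV : (u : V) = ∑ a, x a • (b a : V) := by
      rw [hu, Basis.equivFun_symm_apply]
      simp
    have hxj := hx j hj
    rw [hf] at hxj
    simp only [map_sum, map_mul, MvPolynomial.eval_C, MvPolynomial.eval_X] at hxj
    rw [huV]
    simp only [map_sum, map_smul, LinearMap.sum_apply, LinearMap.smul_apply, smul_eq_mul]
    rw [← hxj]
    simp_rw [Finset.mul_sum]
    rw [Finset.sum_comm]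
    apply Finset.sum_congr rfl
    intro a _
    apply Finset.sum_congr rfl
    intro c _
    ring

end Cfsg.Agent.Helper58.TI5955
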