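import Mathlib
import Cfsg.Agent.Helper13.TIDefs

set_option autoImplicit false

namespace Cfsg.Agent.Helper58.TI5955

open Module Polynomial
open Cfsg.Agent.Helper42.SpForm Cfsg.Agent.Helper42.SpGroup Cfsg.Agent.Helper42.SpModels
open Cfsg.Agent.Helper13.TIsp Cfsg.Agent.Helper90.BG

/-- CNTAR -/
theorem cnt_ar (p f q d m N : ℕ) (hp : p.Prime) (hf : 1 ≤ f) (hq : q = p ^ f) (hm : 1 ≤ m)
    (hmd : m ≤ d)
    (h : N * ∏ j ∈ Finset.range m, (q ^ m - q ^ j) = ∏ j ∈ Finset.range m, (q ^ (2 * d - j) - q ^ j)) :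
    ¬ p ∣ N ∧ ∀ r : ℕ, r.Prime → r ∣ N → ∃ j, j < m ∧ r ∣ q ^ (2 * (d - j)) - 1 := by
  have hq0 : 0 < q := by rw [hq]; exact pow_pos hp.pos f
  have hpq : p ∣ q := by rw [hq]; exact dvd_pow_self p (by omega)
  have e1 : ∏ j ∈ Finset.range m, (q ^ m - q ^ j) =
      (∏ j ∈ Finset.range m, q ^ j) * ∏ j ∈ Finset.range m, (q ^ (m - j) - 1) := by
    rw [← Finset.prod_mul_distrib]
    apply Finset.prod_congr rfl
    intro j hj
    rw [Finset.mem_range] at hj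
    rw [Nat.mul_sub, mul_one, ← pow_add]
    congr 2
    omega
  have e2 : ∏ j ∈ Finset.range m, (q ^ (2 * d - j) - q ^ j) =
      (∏ j ∈ Finset.range m, q ^ j) * ∏ j ∈ Finset.range m, (q ^ (2 * (d - j)) - 1) := by
    rw [← Finset.prod_mul_distrib]
    apply Finset.prod_congr rfl
    intro j hj
    rw [Finset.mem_range] at hj
    rw [Nat.mul_sub, mul_one, ← pow_add]
    congr 2
    omega
  have hA : 0 < ∏ j ∈ Finset.range m, q ^ j := Finset.prod_pos fun j _ => pow_pos hq0 j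
  have h' : N * ∏ j ∈ Finset.range m, (q ^ (m - j) - 1) =
      ∏ j ∈ Finset.range m, (q ^ (2 * (d - j)) - 1) := by
    rw [e1, e2] at h
    have h2 : (∏ j ∈ Finset.range m, q ^ j) * (N * ∏ j ∈ Finset.range m, (q ^ (m - j) - 1)) =
        (∏ j ∈ Finset.range m, q ^ j) * ∏ j ∈ Finset.range m, (q ^ (2 * (d - j)) - 1) := by
      rw [← h]; ring
    exact Nat.eq_of_mul_eq_mul_left hA h2
  have hfac : ∀ e : ℕ, 1 ≤ e → ¬ p ∣ q ^ e - 1 := by
    intro e he hdvd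
    have h1 : p ∣ q ^ e := dvd_trans hpq (dvd_pow_self q (by omega))
    have h2 : 1 ≤ q ^ e := Nat.one_le_pow _ _ hq0
    have h3 : p ∣ q ^ e - (q ^ e - 1) := Nat.dvd_sub h1 hdvd
    have h4 : q ^ e - (q ^ e - 1) = 1 := by omega
    rw [h4] at h3
    exact hp.one_lt.ne' (Nat.dvd_one.mp h3)
  have hpN : ¬ p ∣ N := by
    intro hdvd
    have h1 : p ∣ ∏ j ∈ Finset.range m, (q ^ (2 * (d - j)) - 1) := by
      rw [← h']
      exact dvd_mul_of_dvd_left hdvd _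
    rw [hp.prime.dvd_finset_prod_iff] at h1
    obtain ⟨j, hj, hdj⟩ := h1
    rw [Finset.mem_range] at hj
    exact hfac (2 * (d - j)) (by omega) hdj
  refine ⟨hpN, ?_⟩
  intro r hr hrN
  have h1 : r ∣ ∏ j ∈ Finset.range m, (q ^ (2 * (d - j)) - 1) := by
    rw [← h']
    exact dvd_mul_of_dvd_left hrN _
  rw [hr.prime.dvd_finset_prod_iff] at h1
  obtain ⟨j, hj, hdj⟩ := h1
  exact ⟨j, Finset.mem_range.mp hj, hdj⟩

end Cfsg.Agent.Helper58.TI5955
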