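import Mathlib
import Cfsg.Agent.Helper13.TIDefs2
import Cfsg.Agent.Helper59.TJRADDICH
import Cfsg.Agent.Helper39.TJANN
import Cfsg.Agent.Helper39.TJCYCDIM
import Cfsg.Agent.Helper39.TJPOLAR
import Cfsg.Agent.Helper60.TJDUALANN

set_option autoImplicit false

/-!
# CALL S5961 (helper13), PIECE AEA: `atom_even_hyp`.
-/

namespace Cfsg.Agent.Helper58.TI5961

open Module Polynomial
open Cfsg.Agent.Helper42.SpForm Cfsg.Agent.Helper42.SpGroup Cfsg.Agent.Helper42.SpModels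
open Cfsg.Agent.Helper13.TIsp Cfsg.Agent.Helper90.BG
open Cfsg.Agent.Helper11.TI5955 Cfsg.Agent.Helper58.TI5955 Cfsg.Agent.Helper59.TI5955
open Cfsg.Agent.Helper51.TI5955 Cfsg.Agent.Helper70.TI5955
open Cfsg.Agent.Helper59.TI5961 Cfsg.Agent.Helper39.TI5961 Cfsg.Agent.Helper60.TI5961

section geom2

variable {F : Type*} [Field F] {V : Type*} [AddCommGroup V] [Module F V] [FiniteDimensional F V]
  (B : LinearMap.BilinForm F V)

/-- AEA (uses RADDICH, ANN, DUALANN, CYCDIM, POLAR, `ti_orth`, `ti_compl`, `chain_exists`, `cyc_dvd`,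
`ti_dvd_plus`): by contradiction every invariant `i`-space in `E₂` is t.i.; `E₂ = U₁ ⊕ U₂`; a monic
`g` of degree `i` kills `U₁`, hence `U₂` (DUALANN with `k = i/2`), hence `E₂`; every cyclic subspace has
dimension `i`, so is t.i.; POLAR gives `E₂ ≤ ker (T - 1)`. -/
theorem atom_even_hyp [Fintype F] (halt : ∀ v, B v v = 0) (T : Module.End F V)
    (hT : Preserves B T) (r : ℕ) [Fact r.Prime] (hr2 : 2 < r) (hrF : (r : F) ≠ 0)
    (hTr : T ^ r = 1) (heven : Even (orderOf ((Fintype.card F : ℕ) : ZMod r)))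
    (E₂ : Submodule F V) (hET : E₂.map T ≤ E₂) (hE : NondegOn B E₂)
    (hEk : E₂ ⊓ LinearMap.ker (T - 1) = ⊥)
    (hEdim : finrank F E₂ = 2 * orderOf ((Fintype.card F : ℕ) : ZMod r)) :
    ∃ E : Submodule F V, E ≤ E₂ ∧ E.map T ≤ E ∧ NondegOn B E ∧
      finrank F E = orderOf ((Fintype.card F : ℕ) : ZMod r) := by
  classical
  obtain ⟨i, hi⟩ : ∃ i, i = orderOf ((Fintype.card F : ℕ) : ZMod r) := ⟨_, rfl⟩
  rw [← hi] at heven hEdim ⊢
  by_contra hcon
  have hd : ∀ g : F[X], Irreducible g → g ∣ ∑ j ∈ Finset.range r, (X : F[X]) ^ j →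
      g.natDegree = i := fun g hg hdvd => by
    rw [hi]
    exact Cfsg.Agent.Helper46.bgl_irr_factor_degree r hrF g hg hdvd
  have hq : 0 < Fintype.card F := Fintype.card_pos
  have hnr : ¬ r ∣ Fintype.card F := by
    haveI : Fact (ringChar F).Prime := ⟨CharP.char_is_prime F (ringChar F)⟩
    have hrp : r ≠ ringChar F := by
      intro h
      apply hrF
      rw [h]
      exact CharP.cast_eq_zero F (ringChar F)
    exact (ti_char_facts (ringChar F) r hrp).2
  have hipos : 0 < i := by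
    rw [hi]
    exact (ord_pos r (Fintype.card F) hnr).1
  obtain ⟨e, he⟩ := heven
  have he1 : 1 ≤ e := by omega
  have hrdvd : r ∣ Fintype.card F ^ e + 1 :=
    ti_dvd_plus r (Fintype.card F) e hq he1 (by rw [← hi]; omega)
  have hQ : T ^ (Fintype.card F ^ e) * T = 1 := by
    obtain ⟨m, hm⟩ := hrdvd
    rw [← pow_succ, hm, pow_mul, hTr, one_pow]
  have hkill : ∀ v ∈ E₂, aeval T (∑ j ∈ Finset.range r, (X : F[X]) ^ j) v ∈
      (⊥ : Submodule F V) := by
    intro v hv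
    have h2 : aeval T (∑ j ∈ Finset.range r, (X : F[X]) ^ j) v ∈
        E₂ ⊓ LinearMap.ker (T - 1) := by
      refine ⟨aeval_mem T E₂ hET _ hv, ?_⟩
      rw [SetLike.mem_coe, LinearMap.mem_ker, ← Module.End.mul_apply,
        sub_one_mul_aeval_phi T r hTr, LinearMap.zero_apply]
    rw [hEk] at h2
    exact h2
  have hile : i ≤ finrank F E₂ := by omega
  obtain ⟨U₁, -, hU₁E, hU₁T, hU₁fr⟩ := chain_exists T ⊥ E₂ bot_le (by simp) hET
    (∑ j ∈ Finset.range r, (X : F[X]) ^ j) (phi_ne_zero r hrF) hkill i hd 1 (by simpa using hile)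
  rw [finrank_bot, zero_add, mul_one] at hU₁fr
  have hsubk : ∀ U : Submodule F V, U ≤ E₂ → U ⊓ LinearMap.ker (T - 1) = ⊥ := by
    intro U hU
    rw [eq_bot_iff]
    exact (inf_le_inf_right _ hU).trans (le_of_eq hEk)
  have hdich : ∀ U : Submodule F V, U ≤ E₂ → U.map T ≤ U → finrank F U = i → TI B U := by
    intro U hU hUT hUfr
    rcases rad_dich B halt T hT r hrF hTr U hUT (hsubk U hU) (by rw [hUfr, hi]) with hnd | hti
    · exact absurd ⟨U, hU, hUT, hnd, hUfr⟩ hcon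
    · exact hti
  have hti := hdich U₁ hU₁E hU₁T hU₁fr
  obtain ⟨g, hgm, hgdeg, hgU₁⟩ := ann_poly T U₁ hU₁T
  obtain ⟨P₁, hP₁, hP₁dim⟩ := ti_orth B halt E₂ U₁ hE hU₁E
  have hU₁P₁ : U₁ ≤ P₁ := fun v hv => (hP₁ v).mpr ⟨hU₁E hv, fun w hw => hti v hv w hw⟩
  have hP₁eq : U₁ = P₁ := Submodule.eq_of_le_of_finrank_eq hU₁P₁ (by omega)
  obtain ⟨U₂, hU₂E, hU₂T, hU₁U₂, hsup⟩ := ti_compl T r hrF hTr U₁ E₂ hU₁E hU₁T hET
  have hpair : ∀ w ∈ U₂, (∀ u ∈ U₁, B w u = 0) → w = 0 := by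
    intro w hw h
    have h3 : w ∈ U₁ ⊓ U₂ := ⟨by rw [hP₁eq]; exact (hP₁ w).mpr ⟨hU₂E hw, h⟩, hw⟩
    rw [hU₁U₂] at h3
    exact (Submodule.mem_bot F).mp h3
  have hgU₂ := dual_ann B T hT r hrF hTr e hQ U₁ U₂ hU₂T hpair g hgU₁
  have hgE : ∀ v ∈ E₂, aeval T g v = 0 := by
    intro v hv
    rw [← hsup] at hv
    obtain ⟨u₁, hu₁, u₂, hu₂, rfl⟩ := Submodule.mem_sup.mp hv
    rw [map_add, hgU₁ u₁ hu₁, hgU₂ u₂ hu₂, add_zero]
  have hcyc : ∀ v ∈ E₂, B v (T v) = 0 := by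
    intro v hv
    by_cases hv0 : v = 0
    · rw [hv0]
      simp
    have hZE : Submodule.span F (Set.range fun j : ℕ => (T ^ j) v) ≤ E₂ := by
      rw [Submodule.span_le]
      rintro _ ⟨j, rfl⟩
      exact ti_pow_mem T E₂ hET j v hv
    have hZT : (Submodule.span F (Set.range fun j : ℕ => (T ^ j) v)).map T ≤
        Submodule.span F (Set.range fun j : ℕ => (T ^ j) v) := by
      rw [Submodule.map_span, Submodule.span_le]
      rintro _ ⟨_, ⟨j, rfl⟩, rfl⟩
      apply Submodule.subset_span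
      refine ⟨j + 1, ?_⟩
      show (T ^ (j + 1)) v = T ((T ^ j) v)
      rw [pow_succ', Module.End.mul_apply]
    have hvZ : v ∈ Submodule.span F (Set.range fun j : ℕ => (T ^ j) v) :=
      Submodule.subset_span ⟨0, by simp⟩
    have hTvZ : T v ∈ Submodule.span F (Set.range fun j : ℕ => (T ^ j) v) :=
      Submodule.subset_span ⟨1, by simp⟩
    have hle : finrank F (Submodule.span F (Set.range fun j : ℕ => (T ^ j) v)) ≤ i := by
      have h5 := cyc_dim_le T g hgm v (hgE v hv)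
      rw [hgdeg, hU₁fr] at h5
      exact h5
    have hdvd := cyc_dvd T r i hrF hTr hd _ hZT
    rw [hsubk _ hZE, finrank_bot, Nat.sub_zero] at hdvd
    have hpos : 0 < finrank F (Submodule.span F (Set.range fun j : ℕ => (T ^ j) v)) := by
      rw [Nat.pos_iff_ne_zero]
      intro h0
      have h6 := Submodule.finrank_eq_zero.mp h0
      rw [h6] at hvZ
      exact hv0 ((Submodule.mem_bot F).mp hvZ)
    have hfr : finrank F (Submodule.span F (Set.range fun j : ℕ => (T ^ j) v)) = i :=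
      le_antisymm hle (Nat.le_of_dvd hpos hdvd)
    exact hdich _ hZE hZT hfr v hvZ (T v) hTvZ
  have hodd : Odd r := (Fact.out : r.Prime).odd_of_ne_two (by omega)
  have hfix := polar_fixed B halt T hT r hodd hTr E₂ hET hE hcyc
  have hbot : E₂ = ⊥ := by
    rw [eq_bot_iff, ← hEk]
    exact le_inf le_rfl hfix
  rw [hbot, finrank_bot] at hEdim
  omega

end geom2

end Cfsg.Agent.Helper58.TI5961
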