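import Mathlib
import Cfsg.Agent.Helper13.TIDefs2

set_option autoImplicit false

/-!
# CALL S5961 (helper13), PIECE TRANS: `Sp` is transitive on orthogonal decompositions.
-/

namespace Cfsg.Agent.Helper58.TI5961

open Module Polynomial
open Cfsg.Agent.Helper42.SpForm Cfsg.Agent.Helper42.SpGroup Cfsg.Agent.Helper42.SpModels
open Cfsg.Agent.Helper13.TIsp Cfsg.Agent.Helper90.BG
open Cfsg.Agent.Helper11.TI5955 Cfsg.Agent.Helper58.TI5955 Cfsg.Agent.Helper59.TI5955
open Cfsg.Agent.Helper51.TI5955 Cfsg.Agent.Helper70.TI5955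

section sp

variable {F : Type*} [Field F]

/-- symplectic coordinates on a nondegenerate subspace of even dimension `2 n` -/
theorem sp_trans_coord {d n : ℕ} (E : Submodule F (Fin d ⊕ Fin d → F))
    (hfr : finrank F E = 2 * n) (hE : NondegOn (stdForm d) E) :
    ∃ v : Basis (Fin n ⊕ Fin n) F E, ∀ k k',
      stdForm d (v k : Fin d ⊕ Fin d → F) (v k' : Fin d ⊕ Fin d → F) =
        stdForm n (Pi.single k (1 : F)) (Pi.single k' (1 : F)) := by
  classical
  obtain ⟨Φ, hΦ⟩ := exists_equiv_std n E ((stdForm d).restrict E) (fun v => stdForm_self d v.1)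
    (fun v hv => Subtype.ext (hE v.1 v.2 (fun w hw => hv ⟨w, hw⟩))) hfr
  refine ⟨(Pi.basisFun F (Fin n ⊕ Fin n)).map Φ.symm, fun k k' => ?_⟩
  rw [Basis.map_apply, Basis.map_apply, Pi.basisFun_apply, Pi.basisFun_apply]
  have h := hΦ (Φ.symm (Pi.single k 1)) (Φ.symm (Pi.single k' 1))
  rw [LinearEquiv.apply_symm_apply, LinearEquiv.apply_symm_apply] at h
  exact h.symm

/-- TRANS: `Sp` is transitive on orthogonal decompositions (`exists_equiv_std` on each `D j` with the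
restricted form, glue along the direct sums, `ofEnd`). -/
theorem sp_trans {d t a : ℕ} (D D' : Fin t → Submodule F (Fin d ⊕ Fin d → F))
    (hD : SpDec d a D) (hD' : SpDec d a D') :
    ∃ g : Matrix.symplecticGroup (Fin d) F, ∀ j, (D j).map (toEnd g) = D' j := by
  classical
  obtain ⟨hM, hnd, horth⟩ := hD
  obtain ⟨hM', hnd', horth'⟩ := hD'
  have hBs : ∀ u v : Fin d ⊕ Fin d → F, stdForm d u v = Cfsg.sympForm d F u v :=
    Cfsg.Agent.Helper30.bgSp_stdForm_eq d
  have hND : ∀ j, NondegOn (stdForm d) (D j) := by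
    intro j v hv h
    by_contra hv0
    obtain ⟨w, hw, hne⟩ := hnd j v hv hv0
    exact hne (by rw [← hBs]; exact h w hw)
  have hND' : ∀ j, NondegOn (stdForm d) (D' j) := by
    intro j v hv h
    by_contra hv0
    obtain ⟨w, hw, hne⟩ := hnd' j v hv hv0
    exact hne (by rw [← hBs]; exact h w hw)
  have ht : 0 < t := by have := hM.two_le; omega
  obtain ⟨n, hn⟩ : ∃ n, a = 2 * n := by
    have h1 := (ti_lag (stdForm d) (stdForm_self d) (D ⟨0, ht⟩) (hND ⟨0, ht⟩)).1
    rw [hM.finrank_eq] at h1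
    obtain ⟨n, hn⟩ := h1
    exact ⟨n, by omega⟩
  choose v hv using fun j => sp_trans_coord (D j) (by rw [hM.finrank_eq, hn]) (hND j)
  choose v' hv' using fun j => sp_trans_coord (D' j) (by rw [hM'.finrank_eq, hn]) (hND' j)
  have hI := DirectSum.isInternal_submodule_of_iSupIndep_of_iSup_eq_top hM.indep hM.iSup_eq_top
  have hI' := DirectSum.isInternal_submodule_of_iSupIndep_of_iSup_eq_top hM'.indep
    hM'.iSup_eq_top
  obtain ⟨b, hb⟩ : ∃ b : Basis (Σ _ : Fin t, Fin n ⊕ Fin n) F (Fin d ⊕ Fin d → F),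
      ∀ x : (Σ _ : Fin t, Fin n ⊕ Fin n), b x = (v x.1 x.2 : Fin d ⊕ Fin d → F) :=
    ⟨hI.collectedBasis v, fun x => by rw [hI.collectedBasis_coe]⟩
  obtain ⟨b', hb'⟩ : ∃ b' : Basis (Σ _ : Fin t, Fin n ⊕ Fin n) F (Fin d ⊕ Fin d → F),
      ∀ x : (Σ _ : Fin t, Fin n ⊕ Fin n), b' x = (v' x.1 x.2 : Fin d ⊕ Fin d → F) :=
    ⟨hI'.collectedBasis v', fun x => by rw [hI'.collectedBasis_coe]⟩
  obtain ⟨e, he⟩ : ∃ e : (Fin d ⊕ Fin d → F) ≃ₗ[F] (Fin d ⊕ Fin d → F), ∀ x, e (b x) = b' x :=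
    ⟨b.equiv b' (Equiv.refl _), fun x => by rw [Basis.equiv_apply, Equiv.refl_apply]⟩
  have hpres : Preserves (stdForm d) (e : (Fin d ⊕ Fin d → F) →ₗ[F] (Fin d ⊕ Fin d → F)) := by
    have hcomp : (stdForm d).comp (e : (Fin d ⊕ Fin d → F) →ₗ[F] (Fin d ⊕ Fin d → F))
        (e : (Fin d ⊕ Fin d → F) →ₗ[F] (Fin d ⊕ Fin d → F)) = stdForm d := by
      apply LinearMap.BilinForm.ext_basis b
      rintro ⟨j, k⟩ ⟨j', k'⟩
      rw [LinearMap.BilinForm.comp_apply]
      show stdForm d (e (b ⟨j, k⟩)) (e (b ⟨j', k'⟩)) = stdForm d (b ⟨j, k⟩) (b ⟨j', k'⟩)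
      rw [he, he, hb', hb', hb, hb]
      by_cases hjj : j = j'
      · subst hjj
        rw [hv, hv']
      · rw [hBs, hBs, horth j j' hjj _ (v j k).2 _ (v j' k').2,
          horth' j j' hjj _ (v' j k).2 _ (v' j' k').2]
    intro x y
    have h := congrArg (fun Bf : LinearMap.BilinForm F (Fin d ⊕ Fin d → F) => Bf x y) hcomp
    simpa [LinearMap.BilinForm.comp_apply] using h
  refine ⟨ofEnd _ hpres, fun j => ?_⟩
  rw [toEnd_ofEnd]
  apply Submodule.eq_of_le_of_finrank_eq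
  · rw [Submodule.map_le_iff_le_comap]
    have hspan : D j = Submodule.span F
        (Set.range fun k => ((v j k : D j) : Fin d ⊕ Fin d → F)) := by
      have h1 := (v j).span_eq
      have h2 := congrArg (Submodule.map (D j).subtype) h1
      rw [Submodule.map_subtype_top, Submodule.map_span, ← Set.range_comp] at h2
      exact h2.symm
    rw [hspan, Submodule.span_le]
    rintro _ ⟨k, rfl⟩
    show e (v j k : Fin d ⊕ Fin d → F) ∈ D' j
    rw [← hb ⟨j, k⟩, he, hb']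
    exact (v' j k).2
  · rw [LinearEquiv.finrank_map_eq, hM.finrank_eq, hM'.finrank_eq]

end sp

end Cfsg.Agent.Helper58.TI5961
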