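import Mathlib
import Cfsg.Agent.Helper13.TKDefs

set_option autoImplicit false

/-!
# CALL S5956 (helper13), PIECE TRANSFIX: Witt for nondegenerate subspaces of a nondegenerate `K`,
fixing `K^⊥` pointwise.
-/

namespace Cfsg.Agent.Helper58.TI5956

open Module Polynomial
open Cfsg.Agent.Helper42.SpForm Cfsg.Agent.Helper42.SpGroup Cfsg.Agent.Helper42.SpModels
open Cfsg.Agent.Helper13.TIsp Cfsg.Agent.Helper90.BG
open Cfsg.Agent.Helper11.TI5955 Cfsg.Agent.Helper58.TI5955 Cfsg.Agent.Helper59.TI5955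
open Cfsg.Agent.Helper51.TI5955 Cfsg.Agent.Helper70.TI5955
open Cfsg.Agent.Helper39.TI5961 Cfsg.Agent.Helper58.TI5961 Cfsg.Agent.Helper59.TI5961
open Cfsg.Agent.Helper60.TI5961 Cfsg.Agent.Helper31.TI5961 Cfsg.Agent.Helper19.TI5961

section xf

variable {F : Type*} [Field F]

/-- an isometry between nondegenerate subspaces of the same dimension -/
theorem sp_fix_iso (d : ℕ) (E E' : Submodule F (Fin d ⊕ Fin d → F))
    (hE : NondegOn (stdForm d) E) (hE' : NondegOn (stdForm d) E')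
    (hdim : finrank F E = finrank F E') :
    ∃ φ : E ≃ₗ[F] E', ∀ x y : E,
      stdForm d (φ x : Fin d ⊕ Fin d → F) (φ y : Fin d ⊕ Fin d → F) =
        stdForm d (x : Fin d ⊕ Fin d → F) (y : Fin d ⊕ Fin d → F) := by
  classical
  obtain ⟨n, hn⟩ := (ti_lag (stdForm d) (stdForm_self d) E hE).1
  have hfr : finrank F E = 2 * n := by omega
  have hfr' : finrank F E' = 2 * n := by omega
  obtain ⟨Φ, hΦ⟩ := exists_equiv_std n E ((stdForm d).restrict E) (fun v => stdForm_self d v.1)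
    (fun v hv => Subtype.ext (hE v.1 v.2 (fun w hw => hv ⟨w, hw⟩))) hfr
  obtain ⟨Φ', hΦ'⟩ := exists_equiv_std n E' ((stdForm d).restrict E')
    (fun v => stdForm_self d v.1)
    (fun v hv => Subtype.ext (hE' v.1 v.2 (fun w hw => hv ⟨w, hw⟩))) hfr'
  refine ⟨Φ.trans Φ'.symm, fun x y => ?_⟩
  have h1 := hΦ' ((Φ.trans Φ'.symm) x) ((Φ.trans Φ'.symm) y)
  rw [LinearEquiv.trans_apply, LinearEquiv.trans_apply, LinearEquiv.apply_symm_apply,
    LinearEquiv.apply_symm_apply, hΦ x y] at h1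
  exact h1.symm

/-- TRANSFIX (case d): Witt for nondegenerate subspaces of a nondegenerate `K`, fixing `K^⊥`
pointwise. -/
theorem sp_trans_fix (d : ℕ) (K W W' : Submodule F (Fin d ⊕ Fin d → F))
    (hK : NondegOn (stdForm d) K) (hW : NondegOn (stdForm d) W) (hW' : NondegOn (stdForm d) W')
    (hWK : W ≤ K) (hW'K : W' ≤ K) (hdim : finrank F W = finrank F W') :
    ∃ g : Matrix.symplecticGroup (Fin d) F, W.map (toEnd g) = W' ∧
      ∀ v, (∀ u ∈ K, stdForm d u v = 0) → toEnd g v = v := by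
  classical
  have halt : ∀ v : Fin d ⊕ Fin d → F, stdForm d v v = 0 := stdForm_self d
  have hskew : ∀ u v : Fin d ⊕ Fin d → F, stdForm d u v = - stdForm d v u := by
    intro u v
    have h := halt (u + v)
    simp only [map_add, LinearMap.add_apply, halt, zero_add, add_zero] at h
    exact eq_neg_of_add_eq_zero_left (by rw [add_comm]; exact h)
  have hT1 : Preserves (stdForm d) (1 : Module.End F (Fin d ⊕ Fin d → F)) := fun x y => rfl
  have hmap1 : ∀ M : Submodule F (Fin d ⊕ Fin d → F),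
      M.map (1 : Module.End F (Fin d ⊕ Fin d → F)) ≤ M := by
    rintro M _ ⟨v, hv, rfl⟩
    exact hv
  obtain ⟨P, hPK, -, hPnd, hWP, hWPs, hWPo, hPWo, hPdim⟩ :=
    nd_perp (stdForm d) halt 1 hT1 1 one_pos (pow_one 1) K W hK hW hWK (hmap1 K) (hmap1 W)
  obtain ⟨P', hP'K, -, hP'nd, hWP', hWPs', hWPo', hPWo', hPdim'⟩ :=
    nd_perp (stdForm d) halt 1 hT1 1 one_pos (pow_one 1) K W' hK hW' hW'K (hmap1 K) (hmap1 W')
  obtain ⟨Q, -, -, hQnd, hKQ, hKQs, hKQo, hQKo, hQdim⟩ :=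
    nd_perp (stdForm d) halt 1 hT1 1 one_pos (pow_one 1) ⊤ K (std_nondegOn_top d) hK le_top
      (hmap1 ⊤) (hmap1 K)
  obtain ⟨φ₁, hφ₁⟩ := sp_fix_iso d W W' hW hW' hdim
  obtain ⟨φ₂, hφ₂⟩ := sp_fix_iso d P P' hPnd hP'nd (by omega)
  -- the two parametrisations
  obtain ⟨E, hE⟩ : ∃ E : (W × P × Q) →ₗ[F] (Fin d ⊕ Fin d → F), ∀ x,
      E x = (x.1 : Fin d ⊕ Fin d → F) + ((x.2.1 : Fin d ⊕ Fin d → F) + (x.2.2 : Fin d ⊕ Fin d → F)) :=
    ⟨LinearMap.coprod W.subtype (LinearMap.coprod P.subtype Q.subtype), fun x => by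
      simp [LinearMap.coprod_apply]⟩
  obtain ⟨T, hTx⟩ : ∃ T : (W × P × Q) →ₗ[F] (Fin d ⊕ Fin d → F), ∀ x,
      T x = (φ₁ x.1 : Fin d ⊕ Fin d → F) + ((φ₂ x.2.1 : Fin d ⊕ Fin d → F) +
        (x.2.2 : Fin d ⊕ Fin d → F)) :=
    ⟨LinearMap.coprod (W'.subtype ∘ₗ (φ₁ : W →ₗ[F] W'))
      (LinearMap.coprod (P'.subtype ∘ₗ (φ₂ : P →ₗ[F] P')) Q.subtype), fun x => by
      simp [LinearMap.coprod_apply]⟩
  have hinj : Function.Injective E := by
    rw [← LinearMap.ker_eq_bot, eq_bot_iff]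
    rintro ⟨w, p, q⟩ hx
    rw [LinearMap.mem_ker, hE] at hx
    simp only at hx
    have hpK : (p : Fin d ⊕ Fin d → F) ∈ K := hPK p.2
    have hwK : (w : Fin d ⊕ Fin d → F) ∈ K := hWK w.2
    have hq0 : (q : Fin d ⊕ Fin d → F) = 0 := by
      have hqK : (q : Fin d ⊕ Fin d → F) ∈ K := by
        have : (q : Fin d ⊕ Fin d → F) = -((w : Fin d ⊕ Fin d → F) + (p : Fin d ⊕ Fin d → F)) := by
          rw [← add_assoc] at hx
          exact eq_neg_of_add_eq_zero_right hx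
        rw [this]
        exact K.neg_mem (K.add_mem hwK hpK)
      have : (q : Fin d ⊕ Fin d → F) ∈ K ⊓ Q := ⟨hqK, q.2⟩
      rw [hKQ] at this
      exact (Submodule.mem_bot F).mp this
    rw [hq0, add_zero] at hx
    have hp0 : (p : Fin d ⊕ Fin d → F) = 0 := by
      have hpW : (p : Fin d ⊕ Fin d → F) ∈ W := by
        have : (p : Fin d ⊕ Fin d → F) = -(w : Fin d ⊕ Fin d → F) :=
          eq_neg_of_add_eq_zero_right hx
        rw [this]
        exact W.neg_mem w.2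
      have : (p : Fin d ⊕ Fin d → F) ∈ W ⊓ P := ⟨hpW, p.2⟩
      rw [hWP] at this
      exact (Submodule.mem_bot F).mp this
    rw [hp0, add_zero] at hx
    rw [Submodule.mem_bot]
    exact Prod.ext (Subtype.ext hx) (Prod.ext (Subtype.ext hp0) (Subtype.ext hq0))
  have hsurj : Function.Surjective E := by
    intro v
    have hv : v ∈ K ⊔ Q := by rw [hKQs]; exact Submodule.mem_top
    obtain ⟨k, hk, q, hq, rfl⟩ := Submodule.mem_sup.mp hv
    rw [← hWPs] at hk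
    obtain ⟨w, hw, p, hp, rfl⟩ := Submodule.mem_sup.mp hk
    exact ⟨(⟨w, hw⟩, ⟨p, hp⟩, ⟨q, hq⟩), by rw [hE, add_assoc]⟩
  -- orthogonality
  have hPQ : ∀ a ∈ P, ∀ c ∈ Q, stdForm d a c = 0 := fun a ha c hc => hKQo a (hPK ha) c hc
  have hQP : ∀ c ∈ Q, ∀ a ∈ P, stdForm d c a = 0 := fun c hc a ha => hQKo c hc a (hPK ha)
  have hWQ : ∀ a ∈ W, ∀ c ∈ Q, stdForm d a c = 0 := fun a ha c hc => hKQo a (hWK ha) c hc
  have hQW : ∀ c ∈ Q, ∀ a ∈ W, stdForm d c a = 0 := fun c hc a ha => hQKo c hc a (hWK ha)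
  have hPQ' : ∀ a ∈ P', ∀ c ∈ Q, stdForm d a c = 0 := fun a ha c hc => hKQo a (hP'K ha) c hc
  have hQP' : ∀ c ∈ Q, ∀ a ∈ P', stdForm d c a = 0 := fun c hc a ha => hQKo c hc a (hP'K ha)
  have hWQ' : ∀ a ∈ W', ∀ c ∈ Q, stdForm d a c = 0 := fun a ha c hc => hKQo a (hW'K ha) c hc
  have hQW' : ∀ c ∈ Q, ∀ a ∈ W', stdForm d c a = 0 := fun c hc a ha => hQKo c hc a (hW'K ha)
  have hTE : ∀ x y, stdForm d (T x) (T y) = stdForm d (E x) (E y) := by
    rintro ⟨w, p, q⟩ ⟨w', p', q'⟩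
    rw [hTx, hTx, hE, hE]
    simp only [map_add, LinearMap.add_apply]
    rw [hφ₁, hφ₂, hWPo' _ (φ₁ w).2 _ (φ₂ p').2, hWQ' _ (φ₁ w).2 _ q'.2,
      hPWo' _ (φ₂ p).2 _ (φ₁ w').2, hPQ' _ (φ₂ p).2 _ q'.2, hQW' _ q.2 _ (φ₁ w').2,
      hQP' _ q.2 _ (φ₂ p').2, hWPo _ w.2 _ p'.2, hWQ _ w.2 _ q'.2, hPWo _ p.2 _ w'.2,
      hPQ _ p.2 _ q'.2, hQW _ q.2 _ w'.2, hQP _ q.2 _ p'.2]
  obtain ⟨e, he⟩ : ∃ e : Module.End F (Fin d ⊕ Fin d → F), ∀ x, e (E x) = T x :=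
    ⟨T ∘ₗ ((LinearEquiv.ofBijective E ⟨hinj, hsurj⟩).symm :
        (Fin d ⊕ Fin d → F) →ₗ[F] (W × P × Q)), fun x => by
      rw [LinearMap.comp_apply]
      congr 1
      exact (LinearEquiv.ofBijective E ⟨hinj, hsurj⟩).symm_apply_apply x⟩
  have hpres : Preserves (stdForm d) e := by
    intro u v
    obtain ⟨x, rfl⟩ := hsurj u
    obtain ⟨y, rfl⟩ := hsurj v
    rw [he, he, hTE]
  have heW : ∀ w : W, e (w : Fin d ⊕ Fin d → F) = (φ₁ w : Fin d ⊕ Fin d → F) := by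
    intro w
    have h1 : E (w, 0, 0) = (w : Fin d ⊕ Fin d → F) := by rw [hE]; simp
    have h2 := he (w, 0, 0)
    rw [h1, hTx] at h2
    simpa using h2
  have heQ : ∀ q ∈ Q, e q = q := by
    intro q hq
    have h1 : E (0, 0, ⟨q, hq⟩) = q := by rw [hE]; simp
    have h2 := he (0, 0, ⟨q, hq⟩)
    rw [h1, hTx] at h2
    simpa using h2
  refine ⟨ofEnd _ hpres, ?_, ?_⟩
  · rw [toEnd_ofEnd]
    apply le_antisymm
    · rintro _ ⟨w, hw, rfl⟩
      have := heW ⟨w, hw⟩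
      simp only at this
      rw [this]
      exact (φ₁ ⟨w, hw⟩).2
    · intro w' hw'
      refine ⟨(φ₁.symm ⟨w', hw'⟩ : W), (φ₁.symm ⟨w', hw'⟩).2, ?_⟩
      rw [heW, LinearEquiv.apply_symm_apply]
  · intro v hv
    rw [toEnd_ofEnd]
    apply heQ
    have hv' : v ∈ K ⊔ Q := by rw [hKQs]; exact Submodule.mem_top
    obtain ⟨k, hk, q, hq, rfl⟩ := Submodule.mem_sup.mp hv'
    have hk0 : k = 0 := by
      apply hK k hk
      intro u hu
      have h1 := hv u hu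
      rw [map_add, hKQo u hu q hq, add_zero] at h1
      rw [hskew, h1, neg_zero]
    rw [hk0, zero_add]
    exact hq

end xf

end Cfsg.Agent.Helper58.TI5956
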