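import Mathlib
import Cfsg.Agent.Helper21.SPDefs

set_option autoImplicit false

namespace Cfsg.Agent.Helper58.SPD4L

open Cfsg.Agent.Helper83 Cfsg.Agent.Helper21.SP

theorem d4l {K : Type*} [Field K] {k : ℕ} {Γ : Type*} [Group Γ]
    {x : Fin (k + 3) → Fin (k + 3) → K → Γ}
    {π : Γ →* Matrix.SpecialLinearGroup (Fin (k + 3)) K}
    (hπ : ∀ i j, i ≠ j → ∀ t, π (x i j t) = tv i j t) (hq : QF x π) (hm : D4MP K k) :
    D4P x := by
  have h01 : (0 : Fin (k + 3)) ≠ 1 := by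
    intro h
    have := congrArg Fin.val h
    simp at this
  have h12 : (1 : Fin (k + 3)) ≠ 2 := by
    intro h
    have := congrArg Fin.val h
    simp at this
    rw [Nat.mod_eq_of_lt (by omega)] at this
    omega
  have h02 : (0 : Fin (k + 3)) ≠ 2 := by
    intro h
    have := congrArg Fin.val h
    simp at this
    rw [Nat.mod_eq_of_lt (by omega)] at this
    omega
  have hx01 : ∀ s, x 0 1 s ∈ Qg x := fun s =>
    Subgroup.subset_closure ⟨0, 1, s, h01, h01.symm, rfl⟩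
  have hx12 : ∀ s, x 1 2 s ∈ Qg x := fun s =>
    Subgroup.subset_closure ⟨1, 2, s, h12, h02.symm, rfl⟩
  have hx21 : ∀ s, x 2 1 s ∈ Qg x := fun s =>
    Subgroup.subset_closure ⟨2, 1, s, h12.symm, h01.symm, rfl⟩
  have hW : ∀ t, stW (x 1 2) (x 2 1) t ∈ Qg x := by
    intro t
    unfold stW
    exact mul_mem (mul_mem (hx12 _) (hx21 _)) (hx12 _)
  have hH : ∀ t, stH (x 1 2) (x 2 1) t ∈ Qg x := by
    intro t
    unfold stH
    exact mul_mem (hW _) (inv_mem (hW _))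
  have hπW : ∀ t, π (stW (x 1 2) (x 2 1) t) = stW (tv 1 2) (tv 2 1) t := by
    intro t
    simp only [stW, map_mul, hπ _ _ h12, hπ _ _ h12.symm]
  have hπH : ∀ t, π (stH (x 1 2) (x 2 1) t) = stH (tv 1 2) (tv 2 1) t := by
    intro t
    simp only [stH, map_mul, map_inv, hπW]
  have hQ0le : Q0g x ≤ Qg x := by
    apply Subgroup.closure_mono
    rintro g ⟨i, j, t, hij, hj0, _, rfl⟩
    exact ⟨i, j, t, hij, hj0, rfl⟩
  -- equality from equal images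
  have key : ∀ q ∈ Qg x, ∀ q' ∈ Qg x, π q' = π q → q = q' := by
    intro q hq1 q' hq2 he
    have h1 : q⁻¹ * q' ∈ Qg x := mul_mem (inv_mem hq1) hq2
    have h2 : π (q⁻¹ * q') = 1 := by
      rw [map_mul, map_inv, he, inv_mul_cancel]
    have h3 := hq.qinj _ h1 h2
    exact (inv_mul_eq_one.mp h3)
  intro q hq1
  have hcol := hq.qcol q hq1
  rcases hm (π q) hcol with ⟨s, d, hd, M₀, hM0, hM1, hM⟩ | ⟨d, hd, M₀, M₀', hM0, hM1, hM0', hM1', hM⟩
  · left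
    obtain ⟨q₀, hq₀, hπq₀⟩ := hq.qsurj M₀ hM0
    have hq₀' : q₀ ∈ Q0g x := hq.q0 q₀ hq₀ (by rw [hπq₀]; exact hM1)
    refine ⟨s, d, hd, q₀, hq₀', ?_⟩
    apply key q hq1
    · exact mul_mem (mul_mem (hx01 _) (hH _)) hq₀
    · rw [map_mul, map_mul, hπ _ _ h01, hπH, hπq₀, hM]
  · right
    obtain ⟨q₀, hq₀, hπq₀⟩ := hq.qsurj M₀ hM0
    have hq₀' : q₀ ∈ Q0g x := hq.q0 q₀ hq₀ (by rw [hπq₀]; exact hM1)
    obtain ⟨q₁, hq₁, hπq₁⟩ := hq.qsurj M₀' hM0'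
    have hq₁' : q₁ ∈ Q0g x := hq.q0 q₁ hq₁ (by rw [hπq₁]; exact hM1')
    refine ⟨d, hd, q₀, hq₀', q₁, hq₁', ?_⟩
    apply key q hq1
    · exact mul_mem (mul_mem (mul_mem hq₀ (hW _)) (hH _)) hq₁
    · rw [map_mul, map_mul, map_mul, hπW, hπH, hπq₀, hπq₁, hM]

end Cfsg.Agent.Helper58.SPD4L
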