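import Mathlib
import Cfsg.Agent.Helper21.SPDefs

set_option autoImplicit false

namespace Cfsg.Agent.Helper58.SPPG

open Cfsg.Agent.Helper83 Cfsg.Agent.Helper21.SP

private theorem xP_of {K : Type*} [Field K] (n : ℕ) (i j : Fin n) (h : i ≠ j) (t : K) :
    xP n K i j t = PresentedGroup.mk (rels n K) (FreeGroup.of (⟨(i, j), h⟩, t)) := by
  unfold xP
  rw [dif_pos h]
  rfl

theorem xP_stN {K : Type*} [Field K] (n : ℕ) : StN (xP n K) := by
  refine ⟨?_, ?_, ?_⟩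
  · intro i j hij t u
    rw [xP_of n i j hij, xP_of n i j hij, xP_of n i j hij, ← map_mul]
    apply PresentedGroup.mk_eq_mk_of_mul_inv_mem
    left; left
    exact ⟨⟨(i, j), hij⟩, t, u, rfl⟩
  · intro i j k l hij hkl hil hjk t u
    rw [xP_of n i j hij, xP_of n k l hkl, ← map_mul, ← map_mul]
    apply PresentedGroup.mk_eq_mk_of_mul_inv_mem
    left; right
    refine ⟨⟨(i, j), hij⟩, ⟨(k, l), hkl⟩, t, u, hil, hjk, ?_⟩
    simp [mul_assoc]
  · intro i j l hij hjl hil t u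
    rw [xP_of n i j hij, xP_of n j l hjl, xP_of n i l hil, ← map_inv, ← map_inv, ← map_mul,
      ← map_mul, ← map_mul]
    apply PresentedGroup.mk_eq_mk_of_mul_inv_mem
    right
    exact ⟨⟨(i, j), hij⟩, ⟨(j, l), hjl⟩, hil, t, u, rfl, rfl⟩

theorem xP_gen {K : Type*} [Field K] (n : ℕ) :
    Subgroup.closure {g | ∃ i j t, i ≠ j ∧ g = xP n K i j t} = ⊤ := by
  rw [eq_top_iff, ← PresentedGroup.closure_range_of (rels n K)]
  apply Subgroup.closure_mono
  rintro g ⟨⟨⟨⟨i, j⟩, h⟩, t⟩, rfl⟩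
  refine ⟨i, j, t, h, ?_⟩
  rw [xP_of n i j h]
  rfl

theorem xP_lift {K : Type*} [Field K] (n : ℕ) {G : Type*} [Group G]
    (y : Fin n → Fin n → K → G) (hy : StN y) :
    ∃ f : PresentedGroup (rels n K) →* G, ∀ i j, i ≠ j → ∀ t, f (xP n K i j t) = y i j t := by
  have hrel : ∀ r ∈ rels n K, FreeGroup.lift
      (fun a : {ij : Fin n × Fin n // ij.1 ≠ ij.2} × K => y a.1.1.1 a.1.1.2 a.2) r = 1 := by
    intro r hr
    rcases hr with (⟨a, t, u, rfl⟩ | ⟨a, b, t, u, h1, h2, rfl⟩) | ⟨a, b, h, t, u, h1, rfl⟩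
    · simp only [map_mul, map_inv, FreeGroup.lift_apply_of]
      rw [hy.add _ _ a.2, mul_inv_cancel]
    · simp only [map_mul, map_inv, FreeGroup.lift_apply_of]
      rw [hy.comm _ _ _ _ a.2 b.2 h1 h2]
      group
    · simp only [map_mul, map_inv, FreeGroup.lift_apply_of]
      obtain ⟨⟨i, j⟩, hij⟩ := a
      obtain ⟨⟨j', l⟩, hjl⟩ := b
      dsimp only at h1 h hij hjl ⊢
      subst h1
      rw [hy.rel i j l hij hjl h, mul_inv_cancel]
  refine ⟨PresentedGroup.toGroup hrel, ?_⟩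
  intro i j hij t
  rw [xP_of n i j hij]
  exact PresentedGroup.toGroup.of hrel

end Cfsg.Agent.Helper58.SPPG
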