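import Mathlib
import Cfsg.Agent.Helper21.SPDefs

set_option autoImplicit false

namespace Cfsg.Agent.Helper58.SPQ0

open Cfsg.Agent.Helper83 Cfsg.Agent.Helper21.SP

theorem q_zero {K : Type*} [Field K] {k : ℕ} {Γ : Type*} [Group Γ]
    {x : Fin (k + 3) → Fin (k + 3) → K → Γ}
    {π : Γ →* Matrix.SpecialLinearGroup (Fin (k + 3)) K}
    {ψ : Matrix.SpecialLinearGroup (Fin (k + 2)) K →* Γ}
    (hc : Ctx x π ψ) (hl : Lay3 x π ψ)
    (hform : ∀ q ∈ Qg x, ∃ (r : Fin (k + 2) → K)
      (g : Matrix.SpecialLinearGroup (Fin (k + 2)) K), q = alpha x r * ψ g)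
    (hgen : ∀ g : Matrix.SpecialLinearGroup (Fin (k + 2)) K, ColE g 0 →
      g ∈ Subgroup.closure {h : Matrix.SpecialLinearGroup (Fin (k + 2)) K |
        ∃ (i j : Fin (k + 2)) (t : K), i ≠ j ∧ j ≠ 0 ∧ h = tv i j t}) :
    ∀ q ∈ Qg x, ColE (π q) 1 → q ∈ Q0g x := by
  intro q hq hcol
  obtain ⟨r, g, rfl⟩ := hform q hq
  have e1 : (1 : Fin (k + 3)) = Fin.succ 0 := Fin.succ_zero_eq_one.symm
  have hmat : ((π (alpha x r * ψ g) : Matrix.SpecialLinearGroup (Fin (k + 3)) K) :
      Matrix (Fin (k + 3)) (Fin (k + 3)) K) =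
      amat r * emb (g : Matrix (Fin (k + 2)) (Fin (k + 2)) K) := by
    rw [map_mul, Matrix.SpecialLinearGroup.coe_mul, hl.pi_al, hl.beta]
  have hcol1 : ∀ a, (amat r * emb (g : Matrix (Fin (k + 2)) (Fin (k + 2)) K)) a (Fin.succ 0)
      = if a = Fin.succ 0 then 1 else 0 := by
    intro a
    rw [← hmat, ← e1]
    exact hcol a
  -- column 0 of g
  have hg0 : ColE g 0 := by
    intro a'
    have h := hcol1 (Fin.succ a')
    rw [Matrix.mul_apply, Fin.sum_univ_succ] at h
    simp only [amat, emb, Fin.cases_succ, Fin.cases_zero, Fin.succ_inj] at h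
    have h2 : (∑ c : Fin (k + 2), (if a' = c then (1 : K) else 0) *
        (g : Matrix (Fin (k + 2)) (Fin (k + 2)) K) c 0) =
        (g : Matrix (Fin (k + 2)) (Fin (k + 2)) K) a' 0 := by
      simp
    rw [h2, mul_zero, zero_add] at h
    exact h
  -- r 0 = 0
  have hr0 : r 0 = 0 := by
    have h := hcol1 0
    rw [Matrix.mul_apply, Fin.sum_univ_succ] at h
    simp only [amat, emb, Fin.cases_succ, Fin.cases_zero] at h
    have h2 : (∑ c : Fin (k + 2), r c * (g : Matrix (Fin (k + 2)) (Fin (k + 2)) K) c 0) = r 0 := by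
      have : ∀ c : Fin (k + 2), r c * (g : Matrix (Fin (k + 2)) (Fin (k + 2)) K) c 0 =
          if c = 0 then r 0 else 0 := by
        intro c
        rw [hg0 c]
        split_ifs with hc0
        · rw [hc0, mul_one]
        · rw [mul_zero]
      simp [this]
    rw [h2, mul_zero, zero_add, if_neg (Fin.succ_ne_zero 0).symm] at h
    exact h
  have h01 : (0 : Fin (k + 3)) ≠ 1 := by
    rw [e1]
    exact (Fin.succ_ne_zero 0).symm
  have hx0 : x 0 1 0 = 1 := by
    have h := hc.base.st.add 0 1 h01 0 0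
    rw [add_zero] at h
    exact mul_eq_left.mp h
  have hal : alpha x r ∈ Q0g x := by
    unfold alpha
    apply Subgroup.list_prod_mem
    intro y hy
    rw [List.mem_map] at hy
    obtain ⟨j, _, rfl⟩ := hy
    by_cases hj : j = 0
    · subst hj
      rw [hr0, ← e1, hx0]
      exact one_mem _
    · apply Subgroup.subset_closure
      refine ⟨0, Fin.succ j, r j, (Fin.succ_ne_zero j).symm, Fin.succ_ne_zero j, ?_, rfl⟩
      rw [e1]
      intro h
      exact hj (Fin.succ_injective _ h)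
  have hψ : ψ g ∈ Q0g x := by
    have hle : Subgroup.closure {h : Matrix.SpecialLinearGroup (Fin (k + 2)) K |
        ∃ (i j : Fin (k + 2)) (t : K), i ≠ j ∧ j ≠ 0 ∧ h = tv i j t} ≤ (Q0g x).comap ψ := by
      rw [Subgroup.closure_le]
      rintro h ⟨i, j, t, hij, hj, rfl⟩
      show ψ (tv i j t) ∈ Q0g x
      rw [hc.hψ i j hij t]
      apply Subgroup.subset_closure
      refine ⟨Fin.succ i, Fin.succ j, t, ?_, Fin.succ_ne_zero j, ?_, rfl⟩
      · intro h
        exact hij (Fin.succ_injective _ h)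
      · rw [e1]
        intro h
        exact hj (Fin.succ_injective _ h)
    exact hle (hgen g hg0)
  exact mul_mem hal hψ

end Cfsg.Agent.Helper58.SPQ0
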