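import Mathlib
import Cfsg.Agent.Helper21.SPDefs

set_option autoImplicit false

namespace Cfsg.Agent.Helper58.SPSLST

open Cfsg.Agent.Helper83 Cfsg.Agent.Helper21.SP
open scoped commutatorElement

theorem tv_stN {K : Type*} [Field K] (n : ℕ) :
    StN (tv : Fin n → Fin n → K → Matrix.SpecialLinearGroup (Fin n) K) := by
  refine ⟨?_, ?_, ?_⟩
  · intro i j hij t u
    simp only [tv, dif_pos hij]
    exact (Matrix.SpecialLinearGroup.transvection_add hij t u).symm
  · intro i j k l hij hkl hil hjk t u
    simp only [tv, dif_pos hij, dif_pos hkl]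
    apply Subtype.ext
    simp only [Matrix.SpecialLinearGroup.coe_mul, Matrix.SpecialLinearGroup.transvection_coe]
    simp only [mul_add, add_mul, mul_one, one_mul,
      Matrix.single_mul_single_of_ne _ _ _ _ hjk,
      Matrix.single_mul_single_of_ne _ _ _ _ hil.symm, add_zero]
    abel
  · intro i j l hij hjl hil t u
    simp only [tv, dif_pos hij, dif_pos hjl, dif_pos hil]
    have h := Cfsg.Agent.Helper5.transvection_commutator hij hjl hil t u
    rw [commutatorElement_def] at h
    exact h

end Cfsg.Agent.Helper58.SPSLST
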