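import Mathlib
import Cfsg.Agent.Helper71.SODefs
import Cfsg.Agent.Helper96.T5Defs
import Cfsg.Agent.Helper33.T5CNT

/-!
# Tools for CALL S5843 (helper71): the symmetric form `bl S`, the root elements `ruw S u w`
(local forms of piece RT), the alternating form `Om S` on `F^2 ⊗ F^n`, contractions.
-/

set_option autoImplicit false
set_option linter.unusedVariables false

namespace Cfsg.Agent.Helper58.SOT

open Matrix Cfsg.Agent.Helper71.T4 Cfsg.Agent.Helper71.SO Cfsg.Agent.Helper96.T5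
open scoped Kronecker

variable {F : Type*} [Field F] {n : ℕ}

theorem bl_eq_bf (S : Matrix (Fin n) (Fin n) F) (x y : Fin n → F) : bl S x y = bf S x y := rfl

theorem bl_add_left (S : Matrix (Fin n) (Fin n) F) (x x' y : Fin n → F) :
    bl S (x + x') y = bl S x y + bl S x' y := bf_add_left S x x' y

theorem bl_add_right (S : Matrix (Fin n) (Fin n) F) (x y y' : Fin n → F) :
    bl S x (y + y') = bl S x y + bl S x y' := bf_add_right S x y y'

theorem bl_sub_left (S : Matrix (Fin n) (Fin n) F) (x x' y : Fin n → F) :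
    bl S (x - x') y = bl S x y - bl S x' y := bf_sub_left S x x' y

theorem bl_sub_right (S : Matrix (Fin n) (Fin n) F) (x y y' : Fin n → F) :
    bl S x (y - y') = bl S x y - bl S x y' := bf_sub_right S x y y'

theorem bl_smul_left (S : Matrix (Fin n) (Fin n) F) (c : F) (x y : Fin n → F) :
    bl S (c • x) y = c * bl S x y := bf_smul_left S c x y

theorem bl_smul_right (S : Matrix (Fin n) (Fin n) F) (c : F) (x y : Fin n → F) :
    bl S x (c • y) = c * bl S x y := bf_smul_right S c x y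

theorem bl_neg_left (S : Matrix (Fin n) (Fin n) F) (x y : Fin n → F) :
    bl S (-x) y = - bl S x y := bf_neg_left S x y

theorem bl_neg_right (S : Matrix (Fin n) (Fin n) F) (x y : Fin n → F) :
    bl S x (-y) = - bl S x y := bf_neg_right S x y

theorem bl_zero_left (S : Matrix (Fin n) (Fin n) F) (y : Fin n → F) : bl S 0 y = 0 :=
  bf_zero_left S y

theorem bl_zero_right (S : Matrix (Fin n) (Fin n) F) (x : Fin n → F) : bl S x 0 = 0 :=
  bf_zero_right S x

/-- the form of a symmetric matrix is symmetric -/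
theorem bl_comm (S : Matrix (Fin n) (Fin n) F) (hS : Sᵀ = S) (x y : Fin n → F) :
    bl S x y = bl S y x := by
  unfold bl
  rw [Matrix.dotProduct_mulVec, ← Matrix.mulVec_transpose, hS, dotProduct_comm]

/-- `bl S (A x) y = xᵀ (Aᵀ S) y` and matrices are determined by their forms -/
theorem mat_eq_of_bl (A B : Matrix (Fin n) (Fin n) F)
    (h : ∀ x y : Fin n → F, x ⬝ᵥ A *ᵥ y = x ⬝ᵥ B *ᵥ y) : A = B := by
  ext i j
  have := h (Pi.single i 1) (Pi.single j 1)
  simpa using this

theorem Nuw_mulVec (S : Matrix (Fin n) (Fin n) F) (u w x : Fin n → F) :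
    Nuw S u w *ᵥ x = bl S x w • u - bl S x u • w := by
  have h : Nuw S u w = dm S u w := rfl
  rw [h, dm_mulVec]
  rfl

/-- local form of `ruw_mulVec` (piece RT) -/
theorem ruw_mulVec' (S : Matrix (Fin n) (Fin n) F) (hS : Sᵀ = S)
    (u w x : Fin n → F) (huu : bl S u u = 0) (huw : bl S u w = 0) :
    ruw S u w *ᵥ x = x + (bl S x w - 2⁻¹ * bl S w w * bl S x u) • u - bl S x u • w := by
  have hwu : bl S w u = 0 := by rw [bl_comm S hS, huw]
  rw [ruw, Matrix.add_mulVec, Matrix.add_mulVec, Matrix.one_mulVec, Matrix.smul_mulVec,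
    ← Matrix.mulVec_mulVec, Nuw_mulVec S u w x, Matrix.mulVec_sub, Matrix.mulVec_smul,
    Matrix.mulVec_smul, Nuw_mulVec, Nuw_mulVec, huu, huw, hwu]
  ext i
  simp only [Pi.add_apply, Pi.sub_apply, Pi.smul_apply, smul_eq_mul, Pi.zero_apply]
  ring

theorem ruw_fix (S : Matrix (Fin n) (Fin n) F) (hS : Sᵀ = S)
    (u w : Fin n → F) (huu : bl S u u = 0) (huw : bl S u w = 0) : ruw S u w *ᵥ u = u := by
  rw [ruw_mulVec' S hS u w u huu huw, huu, huw]
  simp

/-- local form of `ruw_isom` (piece RT) -/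
theorem ruw_isom' (h2 : (2 : F) ≠ 0) (S : Matrix (Fin n) (Fin n) F) (hS : Sᵀ = S)
    (u w : Fin n → F) (huu : bl S u u = 0) (huw : bl S u w = 0) :
    (ruw S u w)ᵀ * S * ruw S u w = S := by
  have hwu : bl S w u = 0 := by rw [bl_comm S hS, huw]
  apply mat_eq_of_bl
  intro x y
  have e : x ⬝ᵥ ((ruw S u w)ᵀ * S * ruw S u w) *ᵥ y = bl S (ruw S u w *ᵥ x) (ruw S u w *ᵥ y) := by
    unfold bl
    rw [Matrix.mul_assoc, ← Matrix.mulVec_mulVec, Matrix.dotProduct_mulVec,
      Matrix.vecMul_transpose, ← Matrix.mulVec_mulVec]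
  rw [e, ruw_mulVec' S hS u w x huu huw, ruw_mulVec' S hS u w y huu huw]
  simp only [bl_add_left, bl_add_right, bl_sub_left, bl_sub_right, bl_smul_left, bl_smul_right,
    huu, huw, hwu]
  have h1 : bl S u y = bl S y u := bl_comm S hS u y
  have h2' : bl S w y = bl S y w := bl_comm S hS w y
  rw [h1, h2']
  unfold bl
  field_simp
  ring

/-- local form of `root_inM` (piece RT) -/
theorem root_inM' (h2 : (2 : F) ≠ 0) (S : Matrix (Fin n) (Fin n) F) (hS : Sᵀ = S)
    (M : Subgroup (GL (Fin 2 × Fin n) F)) (hH : HasH S M)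
    (u w : Fin n → F) (huu : bl S u u = 0) (huw : bl S u w = 0) :
    InM M ((1 : Matrix (Fin 2) (Fin 2) F) ⊗ₖ ruw S u w) := by
  apply hH 1 (ruw S u w) 1
  · rw [ruw_isom' h2 S hS u w huu huw, one_smul]
  · simp

/-- `Om S` on pure tensors -/
theorem om_pt (S : Matrix (Fin n) (Fin n) F) (a a' : Fin 2 → F) (b b' : Fin n → F) :
    bf (Om S) (pt a b) (pt a' b') = bf (J2 F) a a' * bl S b b' :=
  bf_kron_pt (J2 F) S a a' b b'

/-- symplectic matrices preserve `Om S` -/
theorem om_isom (S : Matrix (Fin n) (Fin n) F) (g : Matrix (Fin 2 × Fin n) (Fin 2 × Fin n) F)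
    (hg : IsSpM S g) (x y : Fin 2 × Fin n → F) :
    bf (Om S) (g *ᵥ x) (g *ᵥ y) = bf (Om S) x y := by
  unfold IsSpM at hg
  have e : x ⬝ᵥ (gᵀ * Om S * g) *ᵥ y = bf (Om S) (g *ᵥ x) (g *ᵥ y) := by
    unfold bf
    rw [Matrix.mul_assoc, ← Matrix.mulVec_mulVec, Matrix.dotProduct_mulVec,
      Matrix.vecMul_transpose, ← Matrix.mulVec_mulVec]
  rw [← e, hg]
  rfl

/-- `J2` is non-degenerate -/
theorem j2_nondeg (c : Fin 2 → F) (h : ∀ b : Fin 2 → F, bf (J2 F) c b = 0) : c = 0 := by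
  have h0 := h ![0, 1]
  have h1 := h ![1, 0]
  simp [bf, J2, dotProduct, Matrix.mulVec, Fin.sum_univ_two] at h0 h1
  ext i
  fin_cases i
  · simpa using h0
  · simpa using h1

/-- the contraction against `u` vanishes iff the vector is `Om`-orthogonal to `F^2 ⊗ u` -/
theorem cnt_zero_of_perp (S : Matrix (Fin n) (Fin n) F) (u : Fin n → F)
    (v : Fin 2 × Fin n → F) (h : ∀ b : Fin 2 → F, bf (Om S) v (pt b u) = 0) :
    cnt S u v = 0 := by
  apply j2_nondeg
  intro b
  rw [← Cfsg.Agent.Helper33.T5CNT.bf_kron_pt_cnt (J2 F) S u b v]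
  exact h b

/-- the action of `1 ⊗ B` row by row -/
theorem one_kron_mulVec (B : Matrix (Fin n) (Fin n) F) (v : Fin 2 × Fin n → F)
    (i : Fin 2) (l : Fin n) :
    (((1 : Matrix (Fin 2) (Fin 2) F) ⊗ₖ B) *ᵥ v) (i, l) = (B *ᵥ fun l' => v (i, l')) l := by
  simp only [Matrix.mulVec, dotProduct, Fintype.sum_prod_type, Matrix.kroneckerMap_apply,
    Matrix.one_apply]
  rw [Finset.sum_eq_single i]
  · simp
  · intro j _ hj
    simp [Ne.symm hj]
  · intro h; exact absurd (Finset.mem_univ _) h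

/-- a root element moves `F^2 ⊗ u^⊥` by elements of `F^2 ⊗ u` -/
theorem tau_mulVec_of_cnt (S : Matrix (Fin n) (Fin n) F) (hS : Sᵀ = S)
    (u w : Fin n → F) (huu : bl S u u = 0) (huw : bl S u w = 0)
    (v : Fin 2 × Fin n → F) (hv : cnt S u v = 0) :
    ((1 : Matrix (Fin 2) (Fin 2) F) ⊗ₖ ruw S u w) *ᵥ v =
      v + pt (fun i => bl S (fun l => v (i, l)) w) u := by
  ext ⟨i, l⟩
  rw [one_kron_mulVec, ruw_mulVec' S hS u w _ huu huw]
  have h0 : bl S (fun l' => v (i, l')) u = 0 := by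
    have := congrFun hv i
    simp only [cnt, Pi.zero_apply] at this
    rw [← this]
    unfold bl
    simp only [dotProduct]
    exact Finset.sum_congr rfl fun k _ => mul_comm _ _
  rw [h0]
  simp [pt]

/-- `pt · u` is injective for `u ≠ 0` -/
theorem pt_left_inj (u : Fin n → F) (hu : u ≠ 0) (a a' : Fin 2 → F) (h : pt a u = pt a' u) :
    a = a' := by
  obtain ⟨l, hl⟩ : ∃ l, u l ≠ 0 := by
    by_contra h0
    push Not at h0
    exact hu (funext h0)
  ext i
  have := congrFun h (i, l)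
  simp only [pt] at this
  exact mul_right_cancel₀ hl this

end Cfsg.Agent.Helper58.SOT
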