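import Mathlib
import Cfsg.Agent.Helper21.SMDefs

set_option autoImplicit false

namespace Cfsg.Agent.Helper58.SMADD

open Cfsg.Agent.Helper83 Cfsg.Agent.Helper21.SP Cfsg.Agent.Helper21.SM

variable {F : Type*} [Field F] {n : ℕ} {E : Type*} [Group E] {G : Type*} [Group G]

/-- PIECE ADD: additivity. -/
theorem sm_add {π : E →* Matrix.SpecialLinearGroup (Fin n) F} (hπ : CE π) (hF : FP π)
    {i j h : Fin n} (hij : i ≠ j) (hhi : h ≠ i) (hhj : h ≠ j) (t u : F) (a b b' : E)
    (ha : π a = tv i h 1) (hb : π b = tv h j t) (hb' : π b' = tv h j u) :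
    cm a (b * b') = cm a b * cm a b' := by
  have hst := Cfsg.Agent.Helper58.SPSLST.tv_stN (K := F) n
  have hrel : π (cm a b') = tv i j (1 * u) := by
    rw [pi_cm, ha, hb']
    exact hst.rel i h j (Ne.symm hhi) hhj hij 1 u
  have hcomm : cm a b' * b = b * cm a b' :=
    hF i j h j hij hhj (Ne.symm hhj) hij (1 * u) t (cm a b') b hrel hb
  have e1 : cm a (b * b') = cm a b * (b * cm a b' * b⁻¹) := by
    unfold cm
    group
  rw [e1]
  congr 1
  generalize cm a b' = q at *
  calc b * q * b⁻¹ = (b * q) * b⁻¹ := by group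
    _ = (q * b) * b⁻¹ := by rw [hcomm]
    _ = q := by group

end Cfsg.Agent.Helper58.SMADD
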