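import Mathlib
import Cfsg.Agent.Helper21.SMDefs

set_option autoImplicit false

namespace Cfsg.Agent.Helper58.SMIND

open Cfsg.Agent.Helper83 Cfsg.Agent.Helper21.SP Cfsg.Agent.Helper21.SM

variable {F : Type*} [Field F] {n : ℕ} {E : Type*} [Group E] {G : Type*} [Group G]

/-- PIECE IND: independence of the auxiliary index. -/
theorem sm_ind {π : E →* Matrix.SpecialLinearGroup (Fin n) F} (hπ : CE π) (hF : FP π)
    {i j h k : Fin n} (hij : i ≠ j) (hhi : h ≠ i) (hhj : h ≠ j) (hki : k ≠ i) (hkj : k ≠ j)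
    (hhk : h ≠ k) (t : F) (a b a' b' : E) (ha : π a = tv i h 1) (hb : π b = tv h j t)
    (ha' : π a' = tv i k 1) (hb' : π b' = tv k j t) : cm a b = cm a' b' := by
  have hst := Cfsg.Agent.Helper58.SPSLST.tv_stN (K := F) n
  obtain ⟨v, hv⟩ := hπ.surj (tv h k 1)
  have hvw : π (cm v b') = tv h j (1 * t) := by
    rw [pi_cm, hv, hb']
    exact hst.rel h k j hhk hkj hhj 1 t
  have huv : π (cm a v) = tv i k (1 * 1) := by
    rw [pi_cm, ha, hv]
    exact hst.rel i h k (Ne.symm hhi) hhk (Ne.symm hki) 1 1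
  have h1 : a * b' = b' * a := hF i h k j (Ne.symm hhi) hkj hhk hij 1 t a b' ha hb'
  have h2 : cm v b' * b' = b' * cm v b' :=
    hF h j k j hhj hkj (Ne.symm hkj) hhj (1 * t) t (cm v b') b' hvw hb'
  have h3 : cm v b' * cm a v = cm a v * cm v b' :=
    hF h j i k hhj (Ne.symm hki) (Ne.symm hij) hhk (1 * t) (1 * 1) (cm v b') (cm a v) hvw huv
  have hg := gi a v b' h1 h2 h3
  have e1 : cm a (cm v b') = cm a b := by
    apply l0 hπ rfl
    rw [hvw, hb, one_mul]
  have e2 : cm (cm a v) b' = cm a' b' := by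
    apply l0 hπ _ rfl
    rw [huv, ha', one_mul]
  rw [← e1, hg, e2]

end Cfsg.Agent.Helper58.SMIND
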