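import Mathlib
import Cfsg.Agent.Helper21.SMDefs

set_option autoImplicit false

namespace Cfsg.Agent.Helper58.SMMT

open Cfsg.Agent.Helper83 Cfsg.Agent.Helper21.SP Cfsg.Agent.Helper21.SM

variable {F : Type*} [Field F] {n : ℕ} {E : Type*} [Group E] {G : Type*} [Group G]

/-- PIECE MT (Milnor's trick): a fifth index. -/
theorem sm_mt {π : E →* Matrix.SpecialLinearGroup (Fin n) F} (hπ : CE π) {i j k l h : Fin n}
    (hij : i ≠ j) (hkl : k ≠ l) (hjk : j ≠ k) (hil : i ≠ l)
    (hhi : h ≠ i) (hhj : h ≠ j) (hhk : h ≠ k) (hhl : h ≠ l) (t u : F) (a b : E)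
    (ha : π a = tv i j t) (hb : π b = tv k l u) : a * b = b * a := by
  have hst := Cfsg.Agent.Helper58.SPSLST.tv_stN (K := F) n
  obtain ⟨y, hy⟩ := hπ.surj (tv i h 1)
  obtain ⟨y', hy'⟩ := hπ.surj (tv h j t)
  have hrel : cm (tv i h (1 : F)) (tv h j t) = tv i j t := by
    have h1 := hst.rel i h j (Ne.symm hhi) hhj hij 1 t
    rw [one_mul] at h1
    exact h1
  have hc1 : tv k l u * tv i h (1 : F) = tv i h 1 * tv k l u :=
    (hst.comm i h k l (Ne.symm hhi) hkl hil hhk 1 u).symm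
  have hc2 : tv k l u * tv h j t = tv h j t * tv k l u :=
    (hst.comm h j k l hhj hkl hhl hjk t u).symm
  have e1 : b * cm y y' * b⁻¹ = cm (b * y * b⁻¹) (b * y' * b⁻¹) := by
    unfold cm
    group
  have e2 : cm (b * y * b⁻¹) (b * y' * b⁻¹) = cm y y' := by
    apply l0 hπ
    · rw [map_mul, map_mul, map_inv, hb, hy, hc1]
      group
    · rw [map_mul, map_mul, map_inv, hb, hy', hc2]
      group
  have hz : π ((cm y y')⁻¹ * a) = 1 := by
    rw [map_mul, map_inv, pi_cm, hy, hy', hrel, ha, inv_mul_cancel]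
  have hzc := hπ.cent _ hz b
  have e3 : b * cm y y' * b⁻¹ = cm y y' := by rw [e1, e2]
  generalize cm y y' = q at *
  have hbc : b * q = q * b := by
    calc b * q = (b * q * b⁻¹) * b := by group
      _ = q * b := by rw [e3]
  calc a * b = q * ((q⁻¹ * a) * b) := by group
    _ = q * (b * (q⁻¹ * a)) := by rw [hzc]
    _ = (q * b) * (q⁻¹ * a) := by group
    _ = (b * q) * (q⁻¹ * a) := by rw [hbc]
    _ = b * a := by group

end Cfsg.Agent.Helper58.SMMT
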