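import Mathlib
import Cfsg.Agent.Helper21.SMDefs

set_option autoImplicit false

namespace Cfsg.Agent.Helper58.SMR3A

open Cfsg.Agent.Helper83 Cfsg.Agent.Helper21.SP Cfsg.Agent.Helper21.SM

variable {F : Type*} [Field F] {n : ℕ} {E : Type*} [Group E] {G : Type*} [Group G]

/-- PIECE R3A: biadditivity of `(t, u) ↦ cm (lift x_ij(t)) (lift x_jl(u))`. -/
theorem sm_r3a {π : E →* Matrix.SpecialLinearGroup (Fin n) F} (hπ : CE π) (hF : FP π)
    {i j l : Fin n} (hij : i ≠ j) (hil : i ≠ l) (hjl : j ≠ l) :
    (∀ (t t' u : F) (a a' b : E), π a = tv i j t → π a' = tv i j t' → π b = tv j l u →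
      cm (a * a') b = cm a b * cm a' b) ∧
    (∀ (t u u' : F) (a b b' : E), π a = tv i j t → π b = tv j l u → π b' = tv j l u' →
      cm a (b * b') = cm a b * cm a b') := by
  have hst := Cfsg.Agent.Helper58.SPSLST.tv_stN (K := F) n
  have hrel : ∀ (t u : F) (a b : E), π a = tv i j t → π b = tv j l u →
      π (cm a b) = tv i l (t * u) := by
    intro t u a b ha hb
    rw [pi_cm, ha, hb]
    exact hst.rel i j l hij hjl hil t u
  constructor
  · intro t t' u a a' b ha ha' hb
    have h1 := hrel t' u a' b ha' hb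
    have h2 := hrel t u a b ha hb
    have hc1 : cm a' b * a = a * cm a' b :=
      hF i l i j hil hij (Ne.symm hil) hij (t' * u) t (cm a' b) a h1 ha
    have hc2 : cm a' b * cm a b = cm a b * cm a' b :=
      hF i l i l hil hil (Ne.symm hil) hil (t' * u) (t * u) (cm a' b) (cm a b) h1 h2
    have e1 : cm (a * a') b = (a * cm a' b * a⁻¹) * cm a b := by
      unfold cm
      group
    rw [e1]
    generalize cm a' b = q at *
    generalize cm a b = p at *
    calc a * q * a⁻¹ * p = (a * q) * a⁻¹ * p := by group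
      _ = (q * a) * a⁻¹ * p := by rw [hc1]
      _ = q * p := by group
      _ = p * q := hc2
  · intro t u u' a b b' ha hb hb'
    have h1 := hrel t u' a b' ha hb'
    have hc1 : cm a b' * b = b * cm a b' :=
      hF i l j l hil hjl (Ne.symm hjl) hil (t * u') u (cm a b') b h1 hb
    have e1 : cm a (b * b') = cm a b * (b * cm a b' * b⁻¹) := by
      unfold cm
      group
    rw [e1]
    congr 1
    generalize cm a b' = q at *
    calc b * q * b⁻¹ = (b * q) * b⁻¹ := by group
      _ = (q * b) * b⁻¹ := by rw [hc1]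
      _ = q := by group

end Cfsg.Agent.Helper58.SMR3A
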