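import Mathlib
import Cfsg.Agent.Helper21.SMDefs

set_option autoImplicit false

namespace Cfsg.Agent.Helper58.SMR3B

open Cfsg.Agent.Helper83 Cfsg.Agent.Helper21.SP Cfsg.Agent.Helper21.SM

variable {F : Type*} [Field F] {n : ℕ} {E : Type*} [Group E] {G : Type*} [Group G]

theorem r3b_aux1 (p1 p1' p2 p2' : E) (hz : ∀ x, (p1' * p2'⁻¹) * x = x * (p1' * p2'⁻¹)) :
    p1 * p1' * (p2 * p2')⁻¹ = (p1 * p2⁻¹) * (p1' * p2'⁻¹) := by
  calc p1 * p1' * (p2 * p2')⁻¹ = p1 * ((p1' * p2'⁻¹) * p2⁻¹) := by group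
    _ = p1 * (p2⁻¹ * (p1' * p2'⁻¹)) := by rw [hz]
    _ = (p1 * p2⁻¹) * (p1' * p2'⁻¹) := by group

theorem r3b_conj_cm (x p q : E) : x * cm p q * x⁻¹ = cm (x * p * x⁻¹) (x * q * x⁻¹) := by
  unfold cm
  group

/-- an additive map to a group which is invariant under scaling by `α ≠ 1` is trivial -/
theorem r3b_biadd (k : F → E) (hadd : ∀ u u', k (u + u') = k u * k u') (α : F) (hα : α ≠ 1)
    (hinv : ∀ u, k (α * u) = k u) : ∀ u, k u = 1 := by
  have h1 : ∀ u, k ((α - 1) * u) = 1 := by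
    intro u
    have h := hadd ((α - 1) * u) u
    rw [show (α - 1) * u + u = α * u by ring, hinv] at h
    exact (mul_eq_right.mp h.symm)
  intro u
  have hne : α - 1 ≠ 0 := sub_ne_zero.mpr hα
  have h := h1 ((α - 1)⁻¹ * u)
  rwa [← mul_assoc, mul_inv_cancel₀ hne, one_mul] at h

/-- PIECE R3B: the balanced property (`n = 3`), from biadditivity and a torus element. -/
theorem sm_r3b {π : E →* Matrix.SpecialLinearGroup (Fin n) F} (hπ : CE π) (hF : FP π)
    {i j l : Fin n} (hij : i ≠ j) (hil : i ≠ l) (hjl : j ≠ l)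
    (hadd1 : ∀ (t t' u : F) (a a' b : E), π a = tv i j t → π a' = tv i j t' → π b = tv j l u →
      cm (a * a') b = cm a b * cm a' b)
    (hadd2 : ∀ (t u u' : F) (a b b' : E), π a = tv i j t → π b = tv j l u → π b' = tv j l u' →
      cm a (b * b') = cm a b * cm a b')
    (α : F) (hα : α ≠ 1) (g : Matrix.SpecialLinearGroup (Fin n) F)
    (hg1 : ∀ t : F, g * tv i j t * g⁻¹ = tv i j t)
    (hg2 : ∀ u : F, g * tv j l u * g⁻¹ = tv j l (α * u))
    (c t u : F) (a b a' b' : E) (ha : π a = tv i j (c * t)) (hb : π b = tv j l u)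
    (ha' : π a' = tv i j t) (hb' : π b' = tv j l (c * u)) : cm a b = cm a' b' := by
  have hst := Cfsg.Agent.Helper58.SPSLST.tv_stN (K := F) n
  obtain ⟨A, hA⟩ : ∃ A : F → E, ∀ s, π (A s) = tv i j s :=
    ⟨fun s => lft hπ (tv i j s), fun s => pi_lft hπ _⟩
  obtain ⟨B, hB⟩ : ∃ B : F → E, ∀ s, π (B s) = tv j l s :=
    ⟨fun s => lft hπ (tv j l s), fun s => pi_lft hπ _⟩
  obtain ⟨γ, hγ⟩ := hπ.surj g
  have hf1add : ∀ v v', cm (A (c * t)) (B (v + v')) =
      cm (A (c * t)) (B v) * cm (A (c * t)) (B v') := by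
    intro v v'
    rw [← hadd2 (c * t) v v' _ _ _ (hA _) (hB v) (hB v')]
    apply l0 hπ rfl
    rw [map_mul, hB, hB, hB, hst.add j l hjl]
  have hf2add : ∀ v v', cm (A t) (B (c * (v + v'))) =
      cm (A t) (B (c * v)) * cm (A t) (B (c * v')) := by
    intro v v'
    rw [← hadd2 t (c * v) (c * v') _ _ _ (hA _) (hB _) (hB _)]
    apply l0 hπ rfl
    rw [map_mul, hB, hB, hB, hst.add j l hjl, mul_add]
  have hkπ : ∀ v, π (cm (A (c * t)) (B v) * (cm (A t) (B (c * v)))⁻¹) = 1 := by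
    intro v
    rw [map_mul, map_inv, pi_cm, pi_cm, hA, hA, hB, hB]
    have e1 : cm (tv i j (c * t)) (tv j l v) = tv i l (c * t * v) :=
      hst.rel i j l hij hjl hil (c * t) v
    have e2 : cm (tv i j t) (tv j l (c * v)) = tv i l (t * (c * v)) :=
      hst.rel i j l hij hjl hil t (c * v)
    rw [e1, e2, show t * (c * v) = c * t * v by ring, mul_inv_cancel]
  have hkc : ∀ v x, (cm (A (c * t)) (B v) * (cm (A t) (B (c * v)))⁻¹) * x =
      x * (cm (A (c * t)) (B v) * (cm (A t) (B (c * v)))⁻¹) :=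
    fun v x => hπ.cent _ (hkπ v) x
  have hkadd : ∀ v v', cm (A (c * t)) (B (v + v')) * (cm (A t) (B (c * (v + v'))))⁻¹ =
      (cm (A (c * t)) (B v) * (cm (A t) (B (c * v)))⁻¹) *
        (cm (A (c * t)) (B v') * (cm (A t) (B (c * v')))⁻¹) := by
    intro v v'
    rw [hf1add, hf2add]
    exact r3b_aux1 _ _ _ _ (hkc v')
  have hkinv : ∀ v, cm (A (c * t)) (B (α * v)) * (cm (A t) (B (c * (α * v))))⁻¹ =
      cm (A (c * t)) (B v) * (cm (A t) (B (c * v)))⁻¹ := by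
    intro v
    have e1 : γ * cm (A (c * t)) (B v) * γ⁻¹ = cm (A (c * t)) (B (α * v)) := by
      rw [r3b_conj_cm]
      apply l0 hπ
      · rw [map_mul, map_mul, map_inv, hγ, hA, hg1]
      · rw [map_mul, map_mul, map_inv, hγ, hB, hB, hg2]
    have e2 : γ * cm (A t) (B (c * v)) * γ⁻¹ = cm (A t) (B (c * (α * v))) := by
      rw [r3b_conj_cm]
      apply l0 hπ
      · rw [map_mul, map_mul, map_inv, hγ, hA, hg1]
      · rw [map_mul, map_mul, map_inv, hγ, hB, hB, hg2, show α * (c * v) = c * (α * v) by ring]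
    have e3 : γ * (cm (A (c * t)) (B v) * (cm (A t) (B (c * v)))⁻¹) * γ⁻¹ =
        cm (A (c * t)) (B (α * v)) * (cm (A t) (B (c * (α * v))))⁻¹ := by
      rw [← e1, ← e2]
      group
    rw [← e3]
    have h4 := hkc v γ⁻¹
    calc γ * (cm (A (c * t)) (B v) * (cm (A t) (B (c * v)))⁻¹) * γ⁻¹
        = γ * ((cm (A (c * t)) (B v) * (cm (A t) (B (c * v)))⁻¹) * γ⁻¹) := by group
      _ = γ * (γ⁻¹ * (cm (A (c * t)) (B v) * (cm (A t) (B (c * v)))⁻¹)) := by rw [h4]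
      _ = cm (A (c * t)) (B v) * (cm (A t) (B (c * v)))⁻¹ := by group
  have hk1 := r3b_biadd (fun v => cm (A (c * t)) (B v) * (cm (A t) (B (c * v)))⁻¹) hkadd α hα
    hkinv u
  have hk2 : cm (A (c * t)) (B u) = cm (A t) (B (c * u)) := mul_inv_eq_one.mp hk1
  calc cm a b = cm (A (c * t)) (B u) := l0 hπ (by rw [ha, hA]) (by rw [hb, hB])
    _ = cm (A t) (B (c * u)) := hk2
    _ = cm a' b' := l0 hπ (by rw [ha', hA]) (by rw [hb', hB])

end Cfsg.Agent.Helper58.SMR3B
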