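import Mathlib
import Cfsg.Agent.Helper21.SMDefs

set_option autoImplicit false

namespace Cfsg.Agent.Helper58.SMREL4

open Cfsg.Agent.Helper83 Cfsg.Agent.Helper21.SP Cfsg.Agent.Helper21.SM

variable {F : Type*} [Field F] {n : ℕ} {E : Type*} [Group E] {G : Type*} [Group G]

/-- PIECE REL4: the commutator relation, with a fourth index. -/
theorem sm_rel4 {π : E →* Matrix.SpecialLinearGroup (Fin n) F} (hπ : CE π) (hF : FP π)
    {i j l h : Fin n} (hij : i ≠ j) (hil : i ≠ l) (hjl : j ≠ l) (hhi : h ≠ i) (hhj : h ≠ j)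
    (hhl : h ≠ l) (t u : F) (a b w : E) (ha : π a = tv i h 1) (hb : π b = tv h j t)
    (hw : π w = tv j l u) : cm (cm a b) w = cm a (cm b w) := by
  have hst := Cfsg.Agent.Helper58.SPSLST.tv_stN (K := F) n
  have hbw : π (cm b w) = tv h l (t * u) := by
    rw [pi_cm, hb, hw]
    exact hst.rel h j l hhj hjl hhl t u
  have hab : π (cm a b) = tv i j (1 * t) := by
    rw [pi_cm, ha, hb]
    exact hst.rel i h j (Ne.symm hhi) hhj hij 1 t
  have h1 : a * w = w * a := hF i h j l (Ne.symm hhi) hjl hhj hil 1 u a w ha hw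
  have h2 : cm b w * w = w * cm b w :=
    hF h l j l hhl hjl (Ne.symm hjl) hhl (t * u) u (cm b w) w hbw hw
  have h3 : cm b w * cm a b = cm a b * cm b w :=
    hF h l i j hhl hij (Ne.symm hil) hhj (t * u) (1 * t) (cm b w) (cm a b) hbw hab
  exact (gi a b w h1 h2 h3).symm

end Cfsg.Agent.Helper58.SMREL4
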