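import Mathlib
import Cfsg.Agent.Helper96.OHDefs
import Cfsg.Agent.Helper69.ODDefs
import Cfsg.Agent.Helper33.ODDSSUB
import Cfsg.Agent.Helper50.TSR2SPLA

set_option autoImplicit false
set_option linter.unusedSectionVars false
set_option linter.unusedVariables false

/-!
# CALL OD, piece DGOOD2 (helper58): an involutory isometry fixes a nondegenerate `m`-space of
either discriminant class (`2 m < |ι|`).
-/

namespace Cfsg.Agent.Helper58.OD59

open Module Polynomial Cfsg Cfsg.Geo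
open Cfsg.Agent.Helper13.TIu Cfsg.Agent.Helper96.OH Cfsg.Agent.Helper69.OD
open Cfsg.Agent.Helper33.OD59 (ods_sub)
open scoped MatrixGroups

variable {ι : Type} [Fintype ι] [DecidableEq ι] {F : Type*} [Field F] (Q : (ι → F) → F)

/-- DGOOD2 -/
theorem od_good_two [Fintype F] (hQ : IsNondegenerateQuadraticForm Q) (h2 : (2 : F) ≠ 0)
    (M : Matrix ι ι F) (hM : ∀ v, Q (M.mulVec v) = Q v) (hM2 : M * M = 1) (m : ℕ) (hm0 : 0 < m)
    (hmn : 2 * m < Fintype.card ι) (b : Prop) :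
    ∃ W : Submodule F (ι → F), (finrank F W = m ∧ ONd Q W ∧ (ODs Q W ↔ b)) ∧
      W.map (Matrix.toLin' M) ≤ W := by
  obtain ⟨h1, h3, h4, -⟩ := Cfsg.Agent.Helper50.TSR2.r2_split Q hQ h2 M hM hM2
  have key : ∀ (K : Submodule F (ι → F)) (ε : F), ONd Q K → m < finrank F K →
      (∀ w ∈ K, Matrix.toLin' M w = ε • w) →
      ∃ W : Submodule F (ι → F), (finrank F W = m ∧ ONd Q W ∧ (ODs Q W ↔ b)) ∧
        W.map (Matrix.toLin' M) ≤ W := by
    intro K ε hK hdim hKε
    obtain ⟨X, hXK, hnd, hfr, hb⟩ := ods_sub Q hQ h2 K hK m hm0 hdim b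
    refine ⟨X, ⟨hfr, hnd, hb⟩, ?_⟩
    rintro _ ⟨w, hw, rfl⟩
    rw [hKε w (hXK hw)]
    exact X.smul_mem ε hw
  by_cases hbig : m < finrank F (LinearMap.ker (Matrix.toLin' M - 1))
  · refine key _ 1 h1 hbig ?_
    intro w hw
    rw [LinearMap.mem_ker, LinearMap.sub_apply, Module.End.one_apply, sub_eq_zero] at hw
    rw [hw, one_smul]
  · refine key _ (-1) h3 (by omega) ?_
    intro w hw
    rw [LinearMap.mem_ker, LinearMap.add_apply, Module.End.one_apply] at hw
    rw [neg_one_smul]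
    exact eq_neg_of_add_eq_zero_left hw

end Cfsg.Agent.Helper58.OD59
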