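import Mathlib
import Cfsg.Agent.Helper43.C3ODefs
import Cfsg.Agent.Helper45.Spinor
import Cfsg.Agent.Helper45.PSO
import Cfsg.Agent.Helper45.Dickson
import Cfsg.Agent.Helper43.PrimeOrdO2
import Cfsg.Agent.Helper43.PrimeOrdO3
import Cfsg.Agent.Helper14.Forms2
import Cfsg.Agent.Helper3.C3EKJ
import Cfsg.Agent.Helper83.C3ENORM
import Cfsg.Agent.Helper91.C3ECONJ

set_option autoImplicit false

namespace Cfsg.Agent.Helper58

open Matrix Module Polynomial
open Cfsg.Agent.Helper43.C3O
open Cfsg.Agent.Helper43.CycFactors (cycJ)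
open Cfsg.Agent.Helper43.PrimeOrdMat (psi)

universe u

section quad

variable {F : Type u} [Field F] [Fintype F] {ι : Type} [Fintype ι] [DecidableEq ι]

/-- PIECE NONSC (CALL C3O, helper43) -/
theorem c3o_nonsc (Q : QuadraticForm F (ι → F)) (hQ : (QuadraticMap.polarBilin Q).Nondegenerate)
    [Nonempty ι] (g : ↥(Cfsg.isometryGroup F ⇑Q)) (r : ℕ) (hr : Odd r) (hg : g ^ r = 1) (z : F)
    (hz : gm g = z • (1 : Matrix ι ι F)) : g = 1 := by
  obtain ⟨v, hv⟩ := Cfsg.Agent.Helper45.exists_nonsingular Q hQ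
  have h1 : Q ((gm g).mulVec v) = Q v := Cfsg.Agent.Helper45.mv_quad ⇑Q g v
  rw [hz, Matrix.smul_mulVec, Matrix.one_mulVec, QuadraticMap.map_smul, smul_eq_mul] at h1
  have hz2 : z * z = 1 := by
    have : (z * z - 1) * Q v = 0 := by linear_combination h1
    rcases mul_eq_zero.mp this with h | h
    · linear_combination h
    · exact absurd h hv
  have hpow : gm (g ^ r) = (gm g) ^ r := by
    show (((g ^ r : ↥(Cfsg.isometryGroup F ⇑Q)) : Matrix.GeneralLinearGroup ι F) :
      Matrix ι ι F) = _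
    rw [Subgroup.coe_pow, Units.val_pow_eq_pow_val]
  have hzr : z ^ r = 1 := by
    rw [hg, hz, _root_.smul_pow, one_pow] at hpow
    obtain ⟨i⟩ := ‹Nonempty ι›
    have h3 := congrFun (congrFun hpow i) i
    have h4 : gm (1 : ↥(Cfsg.isometryGroup F ⇑Q)) i i = 1 := by
      show ((1 : Matrix.GeneralLinearGroup ι F) : Matrix ι ι F) i i = 1
      rw [Units.val_one, Matrix.one_apply_eq]
    rw [h4, Matrix.smul_apply, Matrix.one_apply_eq, smul_eq_mul, mul_one] at h3
    exact h3.symm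
  obtain ⟨k, rfl⟩ := hr
  have hz1 : z = 1 := by
    rw [pow_succ, pow_mul, pow_two, hz2, one_pow, one_mul] at hzr
    exact hzr
  apply Subtype.ext
  apply Units.ext
  show gm g = 1
  rw [hz, hz1, one_smul]

end quad

end Cfsg.Agent.Helper58
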