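import Mathlib
import Cfsg.Agent.Helper43.C3ODefs
import Cfsg.Agent.Helper45.Spinor
import Cfsg.Agent.Helper45.PSO
import Cfsg.Agent.Helper45.Dickson
import Cfsg.Agent.Helper43.PrimeOrdO2
import Cfsg.Agent.Helper43.PrimeOrdO3
import Cfsg.Agent.Helper14.Forms2
import Cfsg.Agent.Helper3.C3EKJ
import Cfsg.Agent.Helper83.C3ENORM
import Cfsg.Agent.Helper91.C3ECONJ

set_option autoImplicit false

namespace Cfsg.Agent.Helper58

open Matrix Module Polynomial
open Cfsg.Agent.Helper43.C3O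
open Cfsg.Agent.Helper43.CycFactors (cycJ)
open Cfsg.Agent.Helper43.PrimeOrdMat (psi)

universe u

section quad

variable {F : Type u} [Field F] [Fintype F] {ι : Type} [Fintype ι] [DecidableEq ι]

/-- PIECE S1 (CALL C3O, helper43) -/
theorem c3o_s1 (h2 : (2 : F) ≠ 0) (Q : QuadraticForm F (ι → F)) (n : F) (hn : n ≠ 0)
    (J : Matrix ι ι F) (hJ : IsJ Q n J) (e₀ e₁ : ι → F) (h00 : Q e₀ = 0) (h11 : Q e₁ = 0)
    (hb0 : QuadraticMap.polar ⇑Q (J.mulVec e₀) e₀ = 1)
    (hb1 : QuadraticMap.polar ⇑Q (J.mulVec e₁) e₁ = 1)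
    (h01 : QuadraticMap.polar ⇑Q e₀ e₁ = 0)
    (hJ01 : QuadraticMap.polar ⇑Q (J.mulVec e₀) e₁ = 0) :
    ∃ v : ι → F, Q v ≠ 0 ∧ QuadraticMap.polar ⇑Q (J.mulVec v) v = 0 := by
  obtain ⟨hJJ, hsa⟩ := hJ
  have pself : ∀ y : ι → F, QuadraticMap.polar ⇑Q y y = 2 * Q y := fun y => by
    rw [QuadraticMap.polar_self, two_smul, two_mul]
  obtain ⟨x, z, hxz, hne⟩ : ∃ x z : F, x ^ 2 + z ^ 2 = -(2 * n) ∧ x ≠ z := by
    obtain ⟨x, z, h⟩ := Cfsg.Agent.Helper14.exists_sq_add_sq h2 (one_ne_zero (α := F))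
      (one_ne_zero (α := F)) (-(2 * n))
    by_cases hxz : x = z
    · refine ⟨x, -z, by linear_combination h, ?_⟩
      intro h'
      have hx0 : x = 0 := by
        have : (2 : F) * x = 0 := by linear_combination h' + hxz
        exact (mul_eq_zero.mp this).resolve_left h2
      apply hn
      have h3 : (2 : F) * n = 0 := by
        rw [← hxz, hx0] at h
        linear_combination h
      exact (mul_eq_zero.mp h3).resolve_left h2
    · exact ⟨x, z, by linear_combination h, hxz⟩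
  have hJb0 : J.mulVec (J.mulVec e₀) = n • e₀ := by
    rw [Matrix.mulVec_mulVec, hJJ, Matrix.smul_mulVec, Matrix.one_mulVec]
  have hJb1 : J.mulVec (J.mulVec e₁) = n • e₁ := by
    rw [Matrix.mulVec_mulVec, hJJ, Matrix.smul_mulVec, Matrix.one_mulVec]
  have paa : QuadraticMap.polar ⇑Q e₀ e₀ = 0 := by
    rw [pself, h00, mul_zero]
  have pcc : QuadraticMap.polar ⇑Q e₁ e₁ = 0 := by
    rw [pself, h11, mul_zero]
  have pab : QuadraticMap.polar ⇑Q e₀ (J.mulVec e₀) = 1 := by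
    rw [QuadraticMap.polar_comm]
    exact hb0
  have pcd : QuadraticMap.polar ⇑Q e₁ (J.mulVec e₁) = 1 := by
    rw [QuadraticMap.polar_comm]
    exact hb1
  have pca : QuadraticMap.polar ⇑Q e₁ e₀ = 0 := by
    rw [QuadraticMap.polar_comm]
    exact h01
  have pcb : QuadraticMap.polar ⇑Q e₁ (J.mulVec e₀) = 0 := by
    rw [QuadraticMap.polar_comm]
    exact hJ01
  have pad : QuadraticMap.polar ⇑Q e₀ (J.mulVec e₁) = 0 := by
    rw [← hsa]
    exact hJ01
  have pda : QuadraticMap.polar ⇑Q (J.mulVec e₁) e₀ = 0 := by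
    rw [QuadraticMap.polar_comm]
    exact pad
  have pbb : QuadraticMap.polar ⇑Q (J.mulVec e₀) (J.mulVec e₀) = 0 := by
    rw [hsa, hJb0, QuadraticMap.polar_smul_right, paa, smul_zero]
  have pdd : QuadraticMap.polar ⇑Q (J.mulVec e₁) (J.mulVec e₁) = 0 := by
    rw [hsa, hJb1, QuadraticMap.polar_smul_right, pcc, smul_zero]
  have pbd : QuadraticMap.polar ⇑Q (J.mulVec e₀) (J.mulVec e₁) = 0 := by
    rw [hsa, hJb1, QuadraticMap.polar_smul_right, h01, smul_zero]
  have pdb : QuadraticMap.polar ⇑Q (J.mulVec e₁) (J.mulVec e₀) = 0 := by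
    rw [QuadraticMap.polar_comm]
    exact pbd
  have hJv : J.mulVec (x • e₀ + J.mulVec e₀ + z • e₁ - J.mulVec e₁) =
      x • J.mulVec e₀ + n • e₀ + z • J.mulVec e₁ - n • e₁ := by
    rw [Matrix.mulVec_sub, Matrix.mulVec_add, Matrix.mulVec_add, Matrix.mulVec_smul,
      Matrix.mulVec_smul, hJb0, hJb1]
  refine ⟨x • e₀ + J.mulVec e₀ + z • e₁ - J.mulVec e₁, ?_, ?_⟩
  · have h1 : QuadraticMap.polar ⇑Q (x • e₀ + J.mulVec e₀ + z • e₁ - J.mulVec e₁)
        (x • e₀ + J.mulVec e₀ + z • e₁ - J.mulVec e₁) = 2 * (x - z) := by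
      simp only [QuadraticMap.polar_add_left, QuadraticMap.polar_add_right,
        QuadraticMap.polar_sub_left, QuadraticMap.polar_sub_right, QuadraticMap.polar_smul_left,
        QuadraticMap.polar_smul_right, smul_eq_mul, paa, pcc, pab, pcd, pca, pcb, pad, pda, pbb,
        pdd, pbd, pdb, hb0, hb1, h01, hJ01]
      ring
    rw [pself] at h1
    have h3 : Q (x • e₀ + J.mulVec e₀ + z • e₁ - J.mulVec e₁) = x - z :=
      mul_left_cancel₀ h2 h1
    rw [h3]
    exact sub_ne_zero.mpr hne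
  · rw [hJv]
    simp only [QuadraticMap.polar_add_left, QuadraticMap.polar_add_right,
      QuadraticMap.polar_sub_left, QuadraticMap.polar_sub_right, QuadraticMap.polar_smul_left,
      QuadraticMap.polar_smul_right, smul_eq_mul, paa, pcc, pab, pcd, pca, pcb, pad, pda, pbb,
      pdd, pbd, pdb, hb0, hb1, h01, hJ01]
    linear_combination hxz

end quad

end Cfsg.Agent.Helper58
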