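import Mathlib
import Cfsg.Agent.Helper43.C3ODefs
import Cfsg.Agent.Helper45.Spinor
import Cfsg.Agent.Helper45.PSO
import Cfsg.Agent.Helper45.Dickson
import Cfsg.Agent.Helper43.PrimeOrdO2
import Cfsg.Agent.Helper43.PrimeOrdO3
import Cfsg.Agent.Helper14.Forms2
import Cfsg.Agent.Helper3.C3EKJ
import Cfsg.Agent.Helper83.C3ENORM
import Cfsg.Agent.Helper91.C3ECONJ

set_option autoImplicit false

namespace Cfsg.Agent.Helper58

open Matrix Module Polynomial
open Cfsg.Agent.Helper43.C3O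
open Cfsg.Agent.Helper43.CycFactors (cycJ)
open Cfsg.Agent.Helper43.PrimeOrdMat (psi)

universe u

section quad

variable {F : Type u} [Field F] [Fintype F] {ι : Type} [Fintype ι] [DecidableEq ι]

/-- PIECE S2 (CALL C3O, helper43) -/
theorem c3o_s2 (h2 : (2 : F) ≠ 0) (Q : QuadraticForm F (ι → F)) (n : F) (hn : ¬ IsSquare n)
    (J : Matrix ι ι F) (hJ : IsJ Q n J) (ε₀ : F) (hε₀ : ¬ IsSquare ε₀) (v : ι → F)
    (hv : Q v ≠ 0) (hvJ : QuadraticMap.polar ⇑Q (J.mulVec v) v = 0) :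
    ∃ k : ↥(Cfsg.isometryGroup F ⇑Q), gm k * J = J * gm k ∧
      Cfsg.Agent.Helper45.spin ⇑Q 1 k = -1 ∧ Cfsg.Agent.Helper45.spin ⇑Q ε₀ k = -1 := by
  obtain ⟨hJJ, hsa⟩ := hJ
  have pself : ∀ y : ι → F, QuadraticMap.polar ⇑Q y y = 2 * Q y := fun y => by
    rw [QuadraticMap.polar_self, two_smul, two_mul]
  have hn0 : n ≠ 0 := by
    rintro rfl
    exact hn ⟨0, by simp⟩
  have hJJx : ∀ x : ι → F, J.mulVec (J.mulVec x) = n • x := by
    intro x
    rw [Matrix.mulVec_mulVec, hJJ, Matrix.smul_mulVec, Matrix.one_mulVec]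
  have hQJ : Q (J.mulVec v) = n * Q v := by
    have h1 : QuadraticMap.polar ⇑Q (J.mulVec v) (J.mulVec v) = n * QuadraticMap.polar ⇑Q v v := by
      rw [hsa, hJJx, QuadraticMap.polar_smul_right, smul_eq_mul]
    rw [pself, pself] at h1
    apply mul_left_cancel₀ h2
    linear_combination h1
  have hJv : Q (J.mulVec v) ≠ 0 := by
    rw [hQJ]
    exact mul_ne_zero hn0 hv
  have hvJ' : QuadraticMap.polar ⇑Q v (J.mulVec v) = 0 := by
    rw [QuadraticMap.polar_comm]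
    exact hvJ
  refine ⟨Cfsg.Agent.Helper45.reflO Q v hv * Cfsg.Agent.Helper45.reflO Q (J.mulVec v) hJv,
    ?_, ?_, ?_⟩
  · have hk : ∀ y : ι → F,
        (gm (Cfsg.Agent.Helper45.reflO Q v hv *
          Cfsg.Agent.Helper45.reflO Q (J.mulVec v) hJv)).mulVec y =
        y - ((n * Q v)⁻¹ * QuadraticMap.polar ⇑Q (J.mulVec v) y) • J.mulVec v -
          ((Q v)⁻¹ * QuadraticMap.polar ⇑Q v y) • v := by
      intro y
      have h1 := Cfsg.Agent.Helper45.mv_mul ⇑Q (Cfsg.Agent.Helper45.reflO Q v hv)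
        (Cfsg.Agent.Helper45.reflO Q (J.mulVec v) hJv) y
      rw [Cfsg.Agent.Helper45.mv_reflO, Cfsg.Agent.Helper45.mv_reflO, hQJ] at h1
      rw [QuadraticMap.polar_sub_right, QuadraticMap.polar_smul_right, hvJ', smul_zero,
        sub_zero] at h1
      exact h1
    apply Cfsg.Agent.Helper13.mulVec_ext
    intro x
    rw [← Matrix.mulVec_mulVec, ← Matrix.mulVec_mulVec, hk, hk, Matrix.mulVec_sub,
      Matrix.mulVec_sub, Matrix.mulVec_smul, Matrix.mulVec_smul, hJJx, hsa v (J.mulVec x), hJJx,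
      QuadraticMap.polar_smul_right, ← hsa v x, smul_eq_mul]
    match_scalars <;> field_simp
  · rw [map_mul]
    by_cases hsq : IsSquare (Q v)
    · rw [Cfsg.Agent.Helper45.spin_one_reflO_sq Q h2 v hv hsq,
        Cfsg.Agent.Helper45.spin_one_reflO_nsq Q h2 _ hJv
          (by rw [hQJ]; exact Cfsg.Agent.Helper45.not_isSquare_mul hn hsq hv)]
      rfl
    · rw [Cfsg.Agent.Helper45.spin_one_reflO_nsq Q h2 v hv hsq,
        Cfsg.Agent.Helper45.spin_one_reflO_sq Q h2 _ hJv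
          (by rw [hQJ]; exact Cfsg.Agent.Helper45.isSquare_mul_of_not h2 hn hsq)]
      rfl
  · rw [map_mul]
    by_cases hsq : IsSquare (Q v)
    · rw [Cfsg.Agent.Helper45.spin_eps_reflO_sq Q h2 ε₀ hε₀ v hv hsq,
        Cfsg.Agent.Helper45.spin_eps_reflO_nsq Q h2 ε₀ hε₀ _ hJv
          (by rw [hQJ]; exact Cfsg.Agent.Helper45.not_isSquare_mul hn hsq hv)]
      rfl
    · rw [Cfsg.Agent.Helper45.spin_eps_reflO_nsq Q h2 ε₀ hε₀ v hv hsq,
        Cfsg.Agent.Helper45.spin_eps_reflO_sq Q h2 ε₀ hε₀ _ hJv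
          (by rw [hQJ]; exact Cfsg.Agent.Helper45.isSquare_mul_of_not h2 hn hsq)]
      rfl

end quad

end Cfsg.Agent.Helper58
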