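import Mathlib
import Cfsg.Agent.Helper43.C3ODefs
import Cfsg.Agent.Helper45.Spinor
import Cfsg.Agent.Helper45.PSO
import Cfsg.Agent.Helper45.Dickson
import Cfsg.Agent.Helper43.PrimeOrdO2
import Cfsg.Agent.Helper43.PrimeOrdO3
import Cfsg.Agent.Helper14.Forms2
import Cfsg.Agent.Helper3.C3EKJ
import Cfsg.Agent.Helper83.C3ENORM
import Cfsg.Agent.Helper91.C3ECONJ

set_option autoImplicit false

namespace Cfsg.Agent.Helper58

open Matrix Module Polynomial
open Cfsg.Agent.Helper43.C3O
open Cfsg.Agent.Helper43.CycFactors (cycJ)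
open Cfsg.Agent.Helper43.PrimeOrdMat (psi)

universe u

section quad

variable {F : Type u} [Field F] [Fintype F] {ι : Type} [Fintype ι] [DecidableEq ι]

/-- PIECE ZPM (CALL C3O, helper43) -/
theorem c3o_zpm (Q : QuadraticForm F (ι → F)) (hQ : (QuadraticMap.polarBilin Q).Nondegenerate)
    [Nonempty ι] (g : ↥(Cfsg.isometryGroup F ⇑Q)) (z : F)
    (hz : gm g * gm g = z • (1 : Matrix ι ι F)) : z = 1 ∨ z = -1 := by
  obtain ⟨v, hv⟩ := Cfsg.Agent.Helper45.exists_nonsingular Q hQ
  have h1 : Q ((gm g * gm g).mulVec v) = Q v := by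
    rw [← Matrix.mulVec_mulVec]
    exact (Cfsg.Agent.Helper45.mv_quad ⇑Q g _).trans (Cfsg.Agent.Helper45.mv_quad ⇑Q g v)
  rw [hz, Matrix.smul_mulVec, Matrix.one_mulVec, QuadraticMap.map_smul, smul_eq_mul] at h1
  have h3 : (z - 1) * (z + 1) = 0 := by
    have : (z * z - 1) * Q v = 0 := by linear_combination h1
    rcases mul_eq_zero.mp this with h | h
    · linear_combination h
    · exact absurd h hv
  rcases mul_eq_zero.mp h3 with h | h
  · left
    linear_combination h
  · right
    linear_combination h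

end quad

end Cfsg.Agent.Helper58
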