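import Mathlib
import Cfsg.Agent.Helper44.UCDefs
import Cfsg.Agent.S2587
import Cfsg.Agent.S2581
import Cfsg.Agent.Helper44.UnitaryOrder

set_option autoImplicit false

/-!
Piece ORB of CALL S2646 (helper44): orbit counting for the centraliser of an element of `GU_n(q)`.
-/

namespace Cfsg.Agent.Helper58.UCORB

open Matrix Cfsg.Agent.Helper21.JCent Cfsg.Agent.Helper44.UC

section aux

variable {K : Type*} [Field K] [Fintype K] {q n : ℕ}

/-- `hT g * g` is invertible for invertible `g`. -/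
theorem orb_unit (hK : Fintype.card K = q ^ 2) (g : GL (Fin n) K) :
    IsUnit (hT q (g : Matrix (Fin n) (Fin n) K) * (g : Matrix (Fin n) (Fin n) K)).det := by
  have hg : IsUnit (g : Matrix (Fin n) (Fin n) K).det :=
    (Matrix.isUnit_iff_isUnit_det _).1 g.isUnit
  rw [Matrix.det_mul]
  exact (isUnit_det_hT hK _ hg).mul hg

/-- `hT g * g` is hermitian. -/
theorem orb_herm (hK : Fintype.card K = q ^ 2) (g : Matrix (Fin n) (Fin n) K) :
    hT q (hT q g * g) = hT q g * g := by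
  rw [hT_mul hK, hT_hT hK]

/-- conjugating a `GU`-type matrix: the key computation. -/
theorem orb_conj_mem (hK : Fintype.card K = q ^ 2) (c w U H : Matrix (Fin n) (Fin n) K)
    (hcw : c * w = 1) (hH : hT q c * c = H) (hinv : hT q U * H * U = H) :
    hT q (c * U * w) * (c * U * w) = 1 := by
  rw [hT_mul hK, hT_mul hK]
  calc hT q w * (hT q U * hT q c) * (c * U * w)
      = hT q w * (hT q U * (hT q c * c) * U) * w := by simp only [mul_assoc]
    _ = hT q w * H * w := by rw [hH, hinv]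
    _ = hT q w * (hT q c * c) * w := by rw [hH]
    _ = (hT q w * hT q c) * (c * w) := by simp only [mul_assoc]
    _ = 1 := by rw [← hT_mul hK, hcw, hT_one hK, one_mul]

end aux

theorem uc_orb {K : Type*} [Field K] [Fintype K] {q n : ℕ} (hK : Fintype.card K = q ^ 2)
    (u : ↥(Cfsg.GU n K q)) :
    Nat.card {g : GL (Fin n) K // g * (u : GL (Fin n) K) = (u : GL (Fin n) K) * g}
      = Nat.card ↥(Subgroup.centralizer ({u} : Set ↥(Cfsg.GU n K q)))
        * Nat.card ↥(invForms q ((u : GL (Fin n) K) : Matrix (Fin n) (Fin n) K)) := by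
  classical
  obtain ⟨U, hU⟩ : ∃ U : GL (Fin n) K, U = (u : GL (Fin n) K) := ⟨_, rfl⟩
  rw [← hU]
  have hUmem : U ∈ Cfsg.GU n K q := by rw [hU]; exact u.2
  have hu1 : hT q (U : Matrix (Fin n) (Fin n) K) * (U : Matrix (Fin n) (Fin n) K) = 1 :=
    (Cfsg.Agent.Helper43.HermAdj.mem_GU_iff hK U).1 hUmem
  -- the map `g ↦ hT g * g`
  have hψmem : ∀ g : {g : GL (Fin n) K // g * U = U * g},
      hT q ((g.1 : GL (Fin n) K) : Matrix (Fin n) (Fin n) K) *
        ((g.1 : GL (Fin n) K) : Matrix (Fin n) (Fin n) K) ∈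
        invForms q (U : Matrix (Fin n) (Fin n) K) := by
    intro g
    refine ⟨orb_unit hK g.1, orb_herm hK _, ?_⟩
    have hg : ((g.1 : GL (Fin n) K) : Matrix (Fin n) (Fin n) K) * (U : Matrix (Fin n) (Fin n) K)
        = (U : Matrix (Fin n) (Fin n) K) * ((g.1 : GL (Fin n) K) : Matrix (Fin n) (Fin n) K) := by
      have := congrArg (fun x : GL (Fin n) K => (x : Matrix (Fin n) (Fin n) K)) g.2
      simpa using this
    calc hT q (U : Matrix (Fin n) (Fin n) K) *
          (hT q ((g.1 : GL (Fin n) K) : Matrix (Fin n) (Fin n) K) *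
            ((g.1 : GL (Fin n) K) : Matrix (Fin n) (Fin n) K)) * (U : Matrix (Fin n) (Fin n) K)
        = hT q (((g.1 : GL (Fin n) K) : Matrix (Fin n) (Fin n) K) *
            (U : Matrix (Fin n) (Fin n) K)) *
          (((g.1 : GL (Fin n) K) : Matrix (Fin n) (Fin n) K) *
            (U : Matrix (Fin n) (Fin n) K)) := by
          rw [hT_mul hK]; simp only [mul_assoc]
      _ = hT q ((g.1 : GL (Fin n) K) : Matrix (Fin n) (Fin n) K) *
            (hT q (U : Matrix (Fin n) (Fin n) K) * (U : Matrix (Fin n) (Fin n) K)) *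
            ((g.1 : GL (Fin n) K) : Matrix (Fin n) (Fin n) K) := by
          rw [hg, hT_mul hK]; simp only [mul_assoc]
      _ = _ := by rw [hu1, mul_one]
  obtain ⟨ψ, hψ⟩ : ∃ ψ : {g : GL (Fin n) K // g * U = U * g} →
      ↥(invForms q (U : Matrix (Fin n) (Fin n) K)),
      ∀ g, (ψ g : Matrix (Fin n) (Fin n) K) =
        hT q ((g.1 : GL (Fin n) K) : Matrix (Fin n) (Fin n) K) *
          ((g.1 : GL (Fin n) K) : Matrix (Fin n) (Fin n) K) :=
    ⟨fun g => ⟨_, hψmem g⟩, fun g => rfl⟩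
  -- surjectivity
  have hsurj : Function.Surjective ψ := by
    rintro ⟨H, hHu, hHσ, hHinv⟩
    have hHu' : IsUnit H := (Matrix.isUnit_iff_isUnit_det _).2 hHu
    obtain ⟨c, hcu, -, hc2, -⟩ := Cfsg.Agent.Helper43.NormH90.exists_norm_R hK
      (Cfsg.Agent.Helper43.HermAdj.hadj q (n := n) (K := K))
      (Cfsg.Agent.Helper43.HermAdj.hadj_add hK) (Cfsg.Agent.Helper43.HermAdj.hadj_mul hK)
      (Cfsg.Agent.Helper43.HermAdj.hadj_algebraMap hK) H
      (fun f => Cfsg.Agent.Helper43.HermAdj.hadj_hadj hK _) hHu' hHσ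
    obtain ⟨cu, hcu'⟩ := hcu
    have hc2' : hT q (cu : Matrix (Fin n) (Fin n) K) * (cu : Matrix (Fin n) (Fin n) K) = H := by
      rw [hcu']; exact hc2
    -- `u' = c u c⁻¹` lies in `GU`
    have hmem' : cu * U * cu⁻¹ ∈ Cfsg.GU n K q := by
      rw [Cfsg.Agent.Helper43.HermAdj.mem_GU_iff hK]
      have := orb_conj_mem hK (cu : Matrix (Fin n) (Fin n) K)
        ((cu⁻¹ : GL (Fin n) K) : Matrix (Fin n) (Fin n) K) (U : Matrix (Fin n) (Fin n) K) H
        (by rw [← Units.val_mul, mul_inv_cancel, Units.val_one]) hc2' hHinv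
      have h3 : hT q ((cu * U * cu⁻¹ : GL (Fin n) K) : Matrix (Fin n) (Fin n) K) *
          ((cu * U * cu⁻¹ : GL (Fin n) K) : Matrix (Fin n) (Fin n) K) = 1 := by
        rw [Units.val_mul, Units.val_mul]
        exact this
      exact h3
    have hconjGL : IsConj ((⟨cu * U * cu⁻¹, hmem'⟩ : ↥(Cfsg.GU n K q)) : GL (Fin n) K)
        ((⟨U, hUmem⟩ : ↥(Cfsg.GU n K q)) : GL (Fin n) K) :=
      isConj_iff.2 ⟨cu⁻¹, by group⟩
    obtain ⟨k, hk⟩ := isConj_iff.1 ((Cfsg.Agent.S2587.result hK _ _).2 hconjGL)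
    have hk' : (k : GL (Fin n) K) * (cu * U * cu⁻¹) * (k : GL (Fin n) K)⁻¹ = U := by
      have := congrArg (fun x : ↥(Cfsg.GU n K q) => (x : GL (Fin n) K)) hk
      simpa using this
    have hcomm : (k : GL (Fin n) K) * cu * U = U * ((k : GL (Fin n) K) * cu) := by
      calc (k : GL (Fin n) K) * cu * U
          = ((k : GL (Fin n) K) * (cu * U * cu⁻¹) * (k : GL (Fin n) K)⁻¹) *
              ((k : GL (Fin n) K) * cu) := by group
        _ = U * ((k : GL (Fin n) K) * cu) := by rw [hk']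
    have hk1 : hT q ((k : GL (Fin n) K) : Matrix (Fin n) (Fin n) K) *
        ((k : GL (Fin n) K) : Matrix (Fin n) (Fin n) K) = 1 :=
      (Cfsg.Agent.Helper43.HermAdj.mem_GU_iff hK (k : GL (Fin n) K)).1 k.2
    refine ⟨⟨(k : GL (Fin n) K) * cu, hcomm⟩, Subtype.ext ?_⟩
    rw [hψ]
    show hT q (((k : GL (Fin n) K) * cu : GL (Fin n) K) : Matrix (Fin n) (Fin n) K) *
      (((k : GL (Fin n) K) * cu : GL (Fin n) K) : Matrix (Fin n) (Fin n) K) = H
    rw [Units.val_mul, hT_mul hK]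
    calc hT q (cu : Matrix (Fin n) (Fin n) K) *
          hT q ((k : GL (Fin n) K) : Matrix (Fin n) (Fin n) K) *
          (((k : GL (Fin n) K) : Matrix (Fin n) (Fin n) K) * (cu : Matrix (Fin n) (Fin n) K))
        = hT q (cu : Matrix (Fin n) (Fin n) K) *
            (hT q ((k : GL (Fin n) K) : Matrix (Fin n) (Fin n) K) *
              ((k : GL (Fin n) K) : Matrix (Fin n) (Fin n) K)) *
            (cu : Matrix (Fin n) (Fin n) K) := by simp only [mul_assoc]
      _ = H := by rw [hk1, mul_one, hc2']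
  -- fibres
  have hfib : ∀ H : ↥(invForms q (U : Matrix (Fin n) (Fin n) K)),
      Nat.card {g : {g : GL (Fin n) K // g * U = U * g} // ψ g = H} =
        Nat.card ↥(Subgroup.centralizer ({⟨U, hUmem⟩} : Set ↥(Cfsg.GU n K q))) := by
    intro H
    obtain ⟨g₀, hg₀⟩ := hsurj H
    have hg₀' : hT q ((g₀.1 : GL (Fin n) K) : Matrix (Fin n) (Fin n) K) *
        ((g₀.1 : GL (Fin n) K) : Matrix (Fin n) (Fin n) K) = (H : Matrix (Fin n) (Fin n) K) := by
      rw [← hψ, hg₀]
    have hg₀c : g₀.1⁻¹ * U = U * g₀.1⁻¹ := by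
      have h := g₀.2
      calc g₀.1⁻¹ * U = g₀.1⁻¹ * (U * g₀.1) * g₀.1⁻¹ := by group
        _ = g₀.1⁻¹ * (g₀.1 * U) * g₀.1⁻¹ := by rw [h]
        _ = U * g₀.1⁻¹ := by group
    -- membership of `g * g₀⁻¹` in `GU`
    have hmemGU : ∀ g : {g : GL (Fin n) K // g * U = U * g}, ψ g = H →
        g.1 * g₀.1⁻¹ ∈ Cfsg.GU n K q := by
      intro g hg
      rw [Cfsg.Agent.Helper43.HermAdj.mem_GU_iff hK]
      have hg' : hT q ((g.1 : GL (Fin n) K) : Matrix (Fin n) (Fin n) K) *
          ((g.1 : GL (Fin n) K) : Matrix (Fin n) (Fin n) K) = (H : Matrix (Fin n) (Fin n) K) := by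
        rw [← hψ, hg]
      have h1 : (g₀.1 : Matrix (Fin n) (Fin n) K) *
          ((g₀.1⁻¹ : GL (Fin n) K) : Matrix (Fin n) (Fin n) K) = 1 := by
        rw [← Units.val_mul, mul_inv_cancel, Units.val_one]
      have h2 : ((g₀.1⁻¹ : GL (Fin n) K) : Matrix (Fin n) (Fin n) K) *
          (g₀.1 : Matrix (Fin n) (Fin n) K) = 1 := by
        rw [← Units.val_mul, inv_mul_cancel, Units.val_one]
      show hT q ((g.1 * g₀.1⁻¹ : GL (Fin n) K) : Matrix (Fin n) (Fin n) K) *
        ((g.1 * g₀.1⁻¹ : GL (Fin n) K) : Matrix (Fin n) (Fin n) K) = 1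
      rw [Units.val_mul, hT_mul hK]
      calc hT q ((g₀.1⁻¹ : GL (Fin n) K) : Matrix (Fin n) (Fin n) K) *
            hT q ((g.1 : GL (Fin n) K) : Matrix (Fin n) (Fin n) K) *
            (((g.1 : GL (Fin n) K) : Matrix (Fin n) (Fin n) K) *
              ((g₀.1⁻¹ : GL (Fin n) K) : Matrix (Fin n) (Fin n) K))
          = hT q ((g₀.1⁻¹ : GL (Fin n) K) : Matrix (Fin n) (Fin n) K) *
              (hT q ((g.1 : GL (Fin n) K) : Matrix (Fin n) (Fin n) K) *
                ((g.1 : GL (Fin n) K) : Matrix (Fin n) (Fin n) K)) *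
              ((g₀.1⁻¹ : GL (Fin n) K) : Matrix (Fin n) (Fin n) K) := by simp only [mul_assoc]
        _ = hT q ((g₀.1⁻¹ : GL (Fin n) K) : Matrix (Fin n) (Fin n) K) *
              (hT q ((g₀.1 : GL (Fin n) K) : Matrix (Fin n) (Fin n) K) *
                ((g₀.1 : GL (Fin n) K) : Matrix (Fin n) (Fin n) K)) *
              ((g₀.1⁻¹ : GL (Fin n) K) : Matrix (Fin n) (Fin n) K) := by rw [hg', hg₀']
        _ = (hT q ((g₀.1⁻¹ : GL (Fin n) K) : Matrix (Fin n) (Fin n) K) *
              hT q ((g₀.1 : GL (Fin n) K) : Matrix (Fin n) (Fin n) K)) *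
              (((g₀.1 : GL (Fin n) K) : Matrix (Fin n) (Fin n) K) *
              ((g₀.1⁻¹ : GL (Fin n) K) : Matrix (Fin n) (Fin n) K)) := by simp only [mul_assoc]
        _ = 1 := by rw [← hT_mul hK, h1, hT_one hK, one_mul]
    refine Nat.card_congr
      { toFun := fun g => ⟨⟨g.1.1 * g₀.1⁻¹, hmemGU g.1 g.2⟩, ?_⟩
        invFun := fun k => ⟨⟨(k.1 : GL (Fin n) K) * g₀.1, ?_⟩, ?_⟩
        left_inv := ?_
        right_inv := ?_ }
    · rw [Subgroup.mem_centralizer_iff]
      intro h hh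
      rw [Set.mem_singleton_iff] at hh
      subst hh
      apply Subtype.ext
      show U * (g.1.1 * g₀.1⁻¹) = g.1.1 * g₀.1⁻¹ * U
      rw [mul_assoc, hg₀c, ← mul_assoc, ← mul_assoc, g.1.2]
    · have hk := Subgroup.mem_centralizer_iff.1 k.2 ⟨U, hUmem⟩ (Set.mem_singleton _)
      have hk' : U * (k.1 : GL (Fin n) K) = (k.1 : GL (Fin n) K) * U := by
        have := congrArg (fun x : ↥(Cfsg.GU n K q) => (x : GL (Fin n) K)) hk
        simpa using this
      rw [mul_assoc, g₀.2, ← mul_assoc, ← mul_assoc, hk']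
    · apply Subtype.ext
      rw [hψ]
      have hk1 : hT q ((k.1 : GL (Fin n) K) : Matrix (Fin n) (Fin n) K) *
          ((k.1 : GL (Fin n) K) : Matrix (Fin n) (Fin n) K) = 1 :=
        (Cfsg.Agent.Helper43.HermAdj.mem_GU_iff hK (k.1 : GL (Fin n) K)).1 k.1.2
      show hT q (((k.1 : GL (Fin n) K) * g₀.1 : GL (Fin n) K) : Matrix (Fin n) (Fin n) K) *
        (((k.1 : GL (Fin n) K) * g₀.1 : GL (Fin n) K) : Matrix (Fin n) (Fin n) K) = H
      rw [Units.val_mul, hT_mul hK]
      calc hT q ((g₀.1 : GL (Fin n) K) : Matrix (Fin n) (Fin n) K) *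
            hT q ((k.1 : GL (Fin n) K) : Matrix (Fin n) (Fin n) K) *
            (((k.1 : GL (Fin n) K) : Matrix (Fin n) (Fin n) K) *
              ((g₀.1 : GL (Fin n) K) : Matrix (Fin n) (Fin n) K))
          = hT q ((g₀.1 : GL (Fin n) K) : Matrix (Fin n) (Fin n) K) *
              (hT q ((k.1 : GL (Fin n) K) : Matrix (Fin n) (Fin n) K) *
                ((k.1 : GL (Fin n) K) : Matrix (Fin n) (Fin n) K)) *
              ((g₀.1 : GL (Fin n) K) : Matrix (Fin n) (Fin n) K) := by simp only [mul_assoc]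
        _ = H := by rw [hk1, mul_one, hg₀']
    · intro g
      apply Subtype.ext
      apply Subtype.ext
      show g.1.1 * g₀.1⁻¹ * g₀.1 = g.1.1
      rw [inv_mul_cancel_right]
    · intro k
      apply Subtype.ext
      apply Subtype.ext
      show (k.1 : GL (Fin n) K) * g₀.1 * g₀.1⁻¹ = k.1
      rw [mul_inv_cancel_right]
  -- counting
  have hcent : Nat.card ↥(Subgroup.centralizer ({⟨U, hUmem⟩} : Set ↥(Cfsg.GU n K q))) =
      Nat.card ↥(Subgroup.centralizer ({u} : Set ↥(Cfsg.GU n K q))) := by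
    have : (⟨U, hUmem⟩ : ↥(Cfsg.GU n K q)) = u := Subtype.ext hU
    rw [this]
  have : Fintype ↥(invForms q (U : Matrix (Fin n) (Fin n) K)) := Fintype.ofFinite _
  rw [Nat.card_congr (Equiv.sigmaFiberEquiv ψ).symm, Nat.card_sigma]
  simp only [hfib, Finset.sum_const, Finset.card_univ, smul_eq_mul]
  rw [hcent, Nat.card_eq_fintype_card (α := ↥(invForms q (U : Matrix (Fin n) (Fin n) K))), mul_comm]

end Cfsg.Agent.Helper58.UCORB
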