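import Mathlib
import Cfsg.Agent.Helper45.StDefs

set_option autoImplicit false

/-!
# Auxiliary lemmas for the orthogonal BN-pair pieces (CALL S2547 part 2, helper45).
-/

universe u

namespace Cfsg.Agent.Helper58.StAux

open Cfsg Cfsg.Agent.Helper13 Cfsg.Agent.Helper95.SpBN Cfsg.Agent.Helper45 Cfsg.Agent.Helper45.St

variable {ι : Type} [Fintype ι] [DecidableEq ι] {F : Type u} [Field F]
  {Q : QuadraticForm F (ι → F)} {m : ℕ} {L R : Fin m → ι}

omit [Fintype ι] [DecidableEq ι] in
theorem flagP_zero58 (k : ℕ) : FlagP L k (0 : ι → F) := fun c hc => absurd rfl hc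

omit [Fintype ι] [DecidableEq ι] in
theorem flagP_add58 (k : ℕ) (x y : ι → F) (hx : FlagP L k x) (hy : FlagP L k y) :
    FlagP L k (x + y) := by
  intro c hc
  by_cases h : x c = 0
  · apply hy c
    intro h'
    apply hc
    rw [Pi.add_apply, h, h', add_zero]
  · exact hx c h

omit [Fintype ι] [DecidableEq ι] in
theorem flagP_smul58 (k : ℕ) (t : F) (x : ι → F) (hx : FlagP L k x) : FlagP L k (t • x) := by
  intro c hc
  apply hx c
  intro h'
  apply hc
  rw [Pi.smul_apply, h', smul_zero]

omit [Fintype ι] [DecidableEq ι] in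
theorem flagP_sub58 (k : ℕ) (x y : ι → F) (hx : FlagP L k x) (hy : FlagP L k y) :
    FlagP L k (x - y) := by
  have h : x - y = x + (-1 : F) • y := by rw [neg_one_smul, sub_eq_add_neg]
  rw [h]
  exact flagP_add58 k x _ hx (flagP_smul58 k _ y hy)

/-- `E_k` as a submodule -/
def flagSub58 (L : Fin m → ι) (F : Type u) [Field F] (k : ℕ) : Submodule F (ι → F) where
  carrier := {x | FlagP L k x}
  add_mem' := fun {x y} hx hy => flagP_add58 k x y hx hy
  zero_mem' := flagP_zero58 k
  smul_mem' := fun t x hx => flagP_smul58 k t x hx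

omit [Fintype ι] in
theorem ev_idx58 (H : HypPairs Q m L R) (c d : Fin m ⊕ Fin m) :
    ev L R F c (idx L R d) = if c = d then 1 else 0 := by
  rw [ev_apply]
  by_cases h : c = d
  · rw [if_pos h, if_pos (by rw [h])]
  · rw [if_neg h, if_neg (fun h' => h (idx_injective H h').symm)]

/-- the action of a Siegel root element on a frame vector -/
theorem mv_xS_ev58 (H : HypPairs Q m L R) (a b : Fin m ⊕ Fin m) (hab : b ≠ tauP m a) (t : F)
    (c : Fin m ⊕ Fin m) :
    mv ⇑Q (xS Q L R a b t) (ev L R F c) =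
      ev L R F c + (if c = tauP m b then t else 0) • ev L R F a -
        (if c = tauP m a then t else 0) • ev L R F b := by
  rw [mv_xS H a b hab, ev_idx58 H, ev_idx58 H]
  congr 2
  · by_cases h : c = tauP m b
    · rw [if_pos h, if_pos h, mul_one]
    · rw [if_neg h, if_neg h, mul_zero]
  · by_cases h : c = tauP m a
    · rw [if_pos h, if_pos h, mul_one]
    · rw [if_neg h, if_neg h, mul_zero]

/-- the action of a short root element on a frame vector -/
theorem mv_xB_ev58 (H : HypPairs Q m L R) (a : Fin m ⊕ Fin m) (v : ι → F) (hv : InV0 L R v)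
    (c : Fin m ⊕ Fin m) :
    mv ⇑Q (xB Q L R a v) (ev L R F c) =
      ev L R F c - (if c = tauP m a then Q v else 0) • ev L R F a -
        (if c = tauP m a then (1 : F) else 0) • v := by
  rw [mv_xB H a v hv, ev_idx58 H, QuadraticMap.polar_comm, polar_ev_V0 H c v hv, zero_sub,
    neg_smul, ← sub_eq_add_neg]
  congr 3
  by_cases h : c = tauP m a
  · rw [if_pos h, if_pos h, mul_one]
  · rw [if_neg h, if_neg h, mul_zero]

/-- the action of a short root element on `V₀` -/
theorem mv_xB_V058 (H : HypPairs Q m L R) (a : Fin m ⊕ Fin m) (v : ι → F) (hv : InV0 L R v)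
    (x : ι → F) (hx : InV0 L R x) :
    mv ⇑Q (xB Q L R a v) x = x + QuadraticMap.polar ⇑Q v x • ev L R F a := by
  rw [mv_xB H a v hv, hx, mul_zero, sub_zero, zero_smul, sub_zero]

end Cfsg.Agent.Helper58.StAux
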