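import Mathlib
import Cfsg.Agent.Helper45.StDefs
import Cfsg.Agent.Helper58.StAux

set_option autoImplicit false

/-!
# CALL S2547 part 2 (helper45), PIECE BIFF: the membership criterion for the Borel subgroup.
-/

universe u

namespace Cfsg.Agent.Helper58.StBIFF

open Cfsg Cfsg.Agent.Helper13 Cfsg.Agent.Helper95.SpBN Cfsg.Agent.Helper45 Cfsg.Agent.Helper45.St
open Cfsg.Agent.Helper58.StAux

variable {ι : Type} [Fintype ι] [DecidableEq ι] {F : Type u} [Field F]
  {Q : QuadraticForm F (ι → F)} {m : ℕ} {L R : Fin m → ι}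

theorem p_BIFF (H : HypPairs Q m L R) : BCrit Q L R := by
  intro g hg
  have hinv : ∀ (k : ℕ) (x : ι → F), FlagP L k x → FlagP L k (mv ⇑Q g x) := by
    intro k x hx c' hc'
    have hsum : mv ⇑Q g x c' = ∑ c, ((g : GL ι F) : Matrix ι ι F) c' c * x c := rfl
    rw [hsum] at hc'
    obtain ⟨c, -, hc⟩ := Finset.exists_ne_zero_of_sum_ne_zero hc'
    have hxc : x c ≠ 0 := right_ne_zero_of_mul hc
    have hgc : ((g : GL ι F) : Matrix ι ι F) c' c ≠ 0 := left_ne_zero_of_mul hc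
    obtain ⟨i, hi, rfl⟩ := hx c hxc
    have h1 : mv ⇑Q g (ev L R F (Sum.inl i)) c' = ((g : GL ι F) : Matrix ι ι F) c' (L i) := by
      unfold ev
      rw [idx_inl]
      show Matrix.mulVec ((g : GL ι F) : Matrix ι ι F) (Pi.single (L i) 1) c' = _
      rw [Matrix.mulVec_single_one]
      rfl
    obtain ⟨i', hi', rfl⟩ := hg i c' (by rw [h1]; exact hgc)
    exact ⟨i', by omega, rfl⟩
  intro k x hx
  refine ⟨hinv k x hx, ?_⟩
  obtain ⟨T, hT⟩ : ∃ T : (ι → F) →ₗ[F] (ι → F), ∀ y, T y = mv ⇑Q g y :=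
    ⟨Matrix.mulVecLin ((g : GL ι F) : Matrix ι ι F), fun y => rfl⟩
  have hmaps : ∀ y ∈ flagSub58 L F k, T y ∈ flagSub58 L F k := by
    intro y hy
    rw [hT]
    exact hinv k y hy
  have hinj : Function.Injective (T.restrict hmaps) := by
    intro y z hyz
    apply Subtype.ext
    have h1 : T y.1 = T z.1 := congrArg Subtype.val hyz
    rw [hT, hT] at h1
    have h2 := congrArg (mv ⇑Q g⁻¹) h1
    rw [mv_inv_cancel', mv_inv_cancel'] at h2
    exact h2
  obtain ⟨y, hy⟩ := (LinearMap.injective_iff_surjective.mp hinj) ⟨x, hx⟩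
  have h3 : T y.1 = x := congrArg Subtype.val hy
  rw [hT] at h3
  rw [← h3, mv_inv_cancel']
  exact y.2

end Cfsg.Agent.Helper58.StBIFF
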