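import Mathlib
import Cfsg.Agent.Helper45.StDefs

set_option autoImplicit false

/-!
# CALL S2547 part 2 (helper45), PIECE CONJ: conjugating root elements by monomial elements.
-/

universe u

namespace Cfsg.Agent.Helper58.StCONJ

open Cfsg Cfsg.Agent.Helper13 Cfsg.Agent.Helper95.SpBN Cfsg.Agent.Helper45 Cfsg.Agent.Helper45.St

variable {ι : Type} [Fintype ι] [DecidableEq ι] {F : Type u} [Field F]
  {Q : QuadraticForm F (ι → F)} {m : ℕ} {L R : Fin m → ι}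

theorem p_CONJS (H : HypPairs Q m L R) (k : ↥(isometryGroup F ⇑Q))
    (ρ : Equiv.Perm (Fin m ⊕ Fin m)) (hk : PatO Q L R k ρ)
    (hτ : ∀ a, ρ (tauP m a) = tauP m (ρ a)) (a b : Fin m ⊕ Fin m) (hab : b ≠ tauP m a) (t : F) :
    ∃ t' : F, k * xS Q L R a b t * k⁻¹ = xS Q L R (ρ a) (ρ b) t' := by
  obtain ⟨c₁, hc₁⟩ := hk a
  obtain ⟨c₂, hc₂⟩ := hk b
  have hab' : ρ b ≠ tauP m (ρ a) := by
    intro h
    rw [← hτ] at h
    exact hab (ρ.injective h)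
  refine ⟨c₁ * t * c₂, ?_⟩
  rw [xS_eq H a b hab, xS_eq H (ρ a) (ρ b) hab']
  apply ext_mv
  intro x
  rw [mv_mul, mv_mul, mv_eichO, mv_eichO, mv_eich, mv_inv_cancel, mv_smul, hc₁, hc₂,
    eich_smul_left, smul_smul, smul_smul]

theorem p_CONJB (H : HypPairs Q m L R) (k : ↥(isometryGroup F ⇑Q))
    (ρ : Equiv.Perm (Fin m ⊕ Fin m)) (hk : PatO Q L R k ρ) (hk' : PatO Q L R k⁻¹ ρ⁻¹)
    (a : Fin m ⊕ Fin m) (v : ι → F) (hv : InV0 L R v) :
    ∃ v' : ι → F, InV0 L R v' ∧ k * xB Q L R a v * k⁻¹ = xB Q L R (ρ a) v' := by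
  obtain ⟨c, hc⟩ := hk a
  have hV : InV0 L R (mv ⇑Q k v) := by
    intro c'
    obtain ⟨d, hd⟩ := hk' (tauP m c')
    have h1 : mv ⇑Q k v (idx L R c') =
        QuadraticMap.polar ⇑Q (ev L R F (tauP m c')) (mv ⇑Q k v) := by
      rw [polar_ev H, tauP_tauP]
    rw [h1, ← mv_inv_cancel Q k (ev L R F (tauP m c')), mv_polar, hd,
      QuadraticMap.polar_smul_left, polar_ev H, hv, smul_zero]
  have hV' : InV0 L R (c • mv ⇑Q k v) := by
    intro c'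
    rw [Pi.smul_apply, hV c', smul_zero]
  refine ⟨c • mv ⇑Q k v, hV', ?_⟩
  rw [xB_eq H a v hv, xB_eq H (ρ a) _ hV']
  apply ext_mv
  intro x
  rw [mv_mul, mv_mul, mv_eichO, mv_eichO, mv_eich, mv_inv_cancel, hc, eich_smul_left]

end Cfsg.Agent.Helper58.StCONJ
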