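import Mathlib
import Cfsg.Agent.Helper45.StDefs
import Cfsg.Agent.Helper58.StAux

set_option autoImplicit false

/-!
# CALL S2547 part 2 (helper45), PIECE SIGPAT: the simple reflections are monomial on the frame.
-/

universe u

namespace Cfsg.Agent.Helper58.StSIGPAT

open Cfsg Cfsg.Agent.Helper13 Cfsg.Agent.Helper95.SpBN Cfsg.Agent.Helper45 Cfsg.Agent.Helper45.St
open Cfsg.Agent.Helper58.StAux

variable {ι : Type} [Fintype ι] [DecidableEq ι] {F : Type u} [Field F]
  {Q : QuadraticForm F (ι → F)} {m : ℕ} {L R : Fin m → ι}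

theorem p_SIGPAT (H : HypPairs Q m L R) (v₀ : ι → F) (hv₀ : InV0 L R v₀) (hq₀ : Q v₀ ≠ 0)
    (j : Fin m) : PatO Q L R (sigE Q L R v₀ j) (sigP j) := by
  by_cases hj : (j : ℕ) + 1 < m
  · obtain ⟨j', hj'⟩ : ∃ j' : Fin m, j' = (⟨(j : ℕ) + 1, hj⟩ : Fin m) := ⟨_, rfl⟩
    have hrb : rb j = Sum.inl j' := by
      unfold rb
      rw [dif_pos hj, hj']
    have hra : ra j = Sum.inl j := rfl
    have hne : j ≠ j' := by
      intro h
      have := congrArg Fin.val hj'
      rw [← h] at this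
      simp at this
    have hne' : j' ≠ j := fun h => hne h.symm
    have hxa : ∀ t, xa Q L R j t = xS Q L R (Sum.inl j) (Sum.inr j') t := by
      intro t
      unfold xa
      rw [hrb, hra, tauP_inl]
    have hya : ∀ t, ya Q L R j t = xS Q L R (Sum.inl j') (Sum.inr j) t := by
      intro t
      unfold ya
      rw [hrb, hra, tauP_inl]
    have hab1 : (Sum.inr j' : Fin m ⊕ Fin m) ≠ tauP m (Sum.inl j) := by
      rw [tauP_inl]
      intro h
      exact hne' (Sum.inr.inj h)
    have hab2 : (Sum.inr j : Fin m ⊕ Fin m) ≠ tauP m (Sum.inl j') := by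
      rw [tauP_inl]
      intro h
      exact hne (Sum.inr.inj h)
    have hA : ∀ t c, mv ⇑Q (xa Q L R j t) (ev L R F c) =
        ev L R F c + (if c = Sum.inl j' then t else 0) • ev L R F (Sum.inl j) -
          (if c = Sum.inr j then t else 0) • ev L R F (Sum.inr j') := by
      intro t c
      rw [hxa, mv_xS_ev58 H _ _ hab1, tauP_inr, tauP_inl]
    have hBy : ∀ t c, mv ⇑Q (ya Q L R j t) (ev L R F c) =
        ev L R F c + (if c = Sum.inl j then t else 0) • ev L R F (Sum.inl j') -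
          (if c = Sum.inr j' then t else 0) • ev L R F (Sum.inr j) := by
      intro t c
      rw [hya, mv_xS_ev58 H _ _ hab2, tauP_inr, tauP_inl]
    have hsig : sigE Q L R v₀ j = xa Q L R j 1 * ya Q L R j (-1) * xa Q L R j 1 := by
      unfold sigE
      rw [if_pos hj]
    have hsP : sigP j =
        Equiv.swap (Sum.inl j) (Sum.inl j') * Equiv.swap (Sum.inr j) (Sum.inr j') := by
      unfold sigP
      rw [if_pos hj, hrb, hra, tauP_inl, tauP_inl]
    have A1 : ∀ t, mv ⇑Q (xa Q L R j t) (ev L R F (Sum.inl j)) = ev L R F (Sum.inl j) := by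
      intro t
      rw [hA]
      simp [hne]
    have A2 : ∀ t, mv ⇑Q (xa Q L R j t) (ev L R F (Sum.inl j')) =
        ev L R F (Sum.inl j') + t • ev L R F (Sum.inl j) := by
      intro t
      rw [hA]
      simp
    have A3 : ∀ t, mv ⇑Q (xa Q L R j t) (ev L R F (Sum.inr j)) =
        ev L R F (Sum.inr j) - t • ev L R F (Sum.inr j') := by
      intro t
      rw [hA]
      simp
    have A4 : ∀ t, mv ⇑Q (xa Q L R j t) (ev L R F (Sum.inr j')) = ev L R F (Sum.inr j') := by
      intro t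
      rw [hA]
      simp [hne']
    have B1 : ∀ t, mv ⇑Q (ya Q L R j t) (ev L R F (Sum.inl j)) =
        ev L R F (Sum.inl j) + t • ev L R F (Sum.inl j') := by
      intro t
      rw [hBy]
      simp
    have B2 : ∀ t, mv ⇑Q (ya Q L R j t) (ev L R F (Sum.inl j')) = ev L R F (Sum.inl j') := by
      intro t
      rw [hBy]
      simp [hne']
    have B3 : ∀ t, mv ⇑Q (ya Q L R j t) (ev L R F (Sum.inr j)) = ev L R F (Sum.inr j) := by
      intro t
      rw [hBy]
      simp [hne]
    have B4 : ∀ t, mv ⇑Q (ya Q L R j t) (ev L R F (Sum.inr j')) =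
        ev L R F (Sum.inr j') - t • ev L R F (Sum.inr j) := by
      intro t
      rw [hBy]
      simp
    intro a
    rw [hsig, hsP, mv_mul, mv_mul, Equiv.Perm.mul_apply]
    by_cases h1 : a = Sum.inl j
    · subst h1
      refine ⟨-1, ?_⟩
      have hs : Equiv.swap (Sum.inl j) (Sum.inl j')
          (Equiv.swap (Sum.inr j) (Sum.inr j') (Sum.inl j : Fin m ⊕ Fin m)) = Sum.inl j' := by
        simp [Equiv.swap_apply_def, hne, hne']
      rw [hs]
      simp only [A1, A2, A3, A4, B1, B2, B3, B4, mv_add, mv_sub, mv_smul]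
      module
    by_cases h2 : a = Sum.inl j'
    · subst h2
      refine ⟨1, ?_⟩
      have hs : Equiv.swap (Sum.inl j) (Sum.inl j')
          (Equiv.swap (Sum.inr j) (Sum.inr j') (Sum.inl j' : Fin m ⊕ Fin m)) = Sum.inl j := by
        simp [Equiv.swap_apply_def, hne, hne']
      rw [hs]
      simp only [A1, A2, A3, A4, B1, B2, B3, B4, mv_add, mv_sub, mv_smul]
      module
    by_cases h3 : a = Sum.inr j
    · subst h3
      refine ⟨-1, ?_⟩
      have hs : Equiv.swap (Sum.inl j) (Sum.inl j')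
          (Equiv.swap (Sum.inr j) (Sum.inr j') (Sum.inr j : Fin m ⊕ Fin m)) = Sum.inr j' := by
        simp [Equiv.swap_apply_def, hne, hne']
      rw [hs]
      simp only [A1, A2, A3, A4, B1, B2, B3, B4, mv_add, mv_sub, mv_smul]
      module
    by_cases h4 : a = Sum.inr j'
    · subst h4
      refine ⟨1, ?_⟩
      have hs : Equiv.swap (Sum.inl j) (Sum.inl j')
          (Equiv.swap (Sum.inr j) (Sum.inr j') (Sum.inr j' : Fin m ⊕ Fin m)) = Sum.inr j := by
        simp [Equiv.swap_apply_def, hne, hne']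
      rw [hs]
      simp only [A1, A2, A3, A4, B1, B2, B3, B4, mv_add, mv_sub, mv_smul]
      module
    · refine ⟨1, ?_⟩
      rw [Equiv.swap_apply_of_ne_of_ne h3 h4, Equiv.swap_apply_of_ne_of_ne h1 h2]
      have A5 : ∀ t, mv ⇑Q (xa Q L R j t) (ev L R F a) = ev L R F a := by
        intro t
        rw [hA, if_neg h2, if_neg h3, zero_smul, zero_smul, add_zero, sub_zero]
      have B5 : ∀ t, mv ⇑Q (ya Q L R j t) (ev L R F a) = ev L R F a := by
        intro t
        rw [hBy, if_neg h1, if_neg h4, zero_smul, zero_smul, add_zero, sub_zero]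
      rw [A5, B5, A5, one_smul]
  · have hrb : rb j = Sum.inr j := by
      unfold rb
      rw [dif_neg hj]
    have hsig : sigE Q L R v₀ j = xB Q L R (Sum.inl j) v₀ *
        xB Q L R (Sum.inr j) ((Q v₀)⁻¹ • v₀) * xB Q L R (Sum.inl j) v₀ := by
      unfold sigE
      rw [if_neg hj]
      rfl
    have hsP : sigP j = Equiv.swap (Sum.inl j) (Sum.inr j) := by
      unfold sigP
      rw [if_neg hj, hrb]
      rfl
    have hw : InV0 L R ((Q v₀)⁻¹ • v₀) := fun c => by rw [Pi.smul_apply, hv₀ c, smul_zero]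
    have hQw : Q ((Q v₀)⁻¹ • v₀) = (Q v₀)⁻¹ := by
      rw [QuadraticMap.map_smul, smul_eq_mul]
      field_simp
    have hpol : QuadraticMap.polar ⇑Q v₀ v₀ = 2 * Q v₀ := Helper44.polar_self_eq Q v₀
    have hXc : ∀ c, mv ⇑Q (xB Q L R (Sum.inl j) v₀) (ev L R F c) =
        ev L R F c - (if c = Sum.inr j then Q v₀ else 0) • ev L R F (Sum.inl j) -
          (if c = Sum.inr j then (1 : F) else 0) • v₀ := by
      intro c
      rw [mv_xB_ev58 H _ v₀ hv₀, tauP_inl]
    have hYc : ∀ c, mv ⇑Q (xB Q L R (Sum.inr j) ((Q v₀)⁻¹ • v₀)) (ev L R F c) =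
        ev L R F c - (if c = Sum.inl j then (Q v₀)⁻¹ else 0) • ev L R F (Sum.inr j) -
          (if c = Sum.inl j then (1 : F) else 0) • ((Q v₀)⁻¹ • v₀) := by
      intro c
      rw [mv_xB_ev58 H _ _ hw, tauP_inr, hQw]
    have hXv : mv ⇑Q (xB Q L R (Sum.inl j) v₀) v₀ =
        v₀ + (2 * Q v₀) • ev L R F (Sum.inl j) := by
      rw [mv_xB_V058 H _ v₀ hv₀ v₀ hv₀, hpol]
    have hYv : mv ⇑Q (xB Q L R (Sum.inr j) ((Q v₀)⁻¹ • v₀)) v₀ =
        v₀ + (2 : F) • ev L R F (Sum.inr j) := by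
      rw [mv_xB_V058 H _ _ hw v₀ hv₀, QuadraticMap.polar_smul_left, hpol, smul_eq_mul]
      congr 2
      field_simp
    have X1 : mv ⇑Q (xB Q L R (Sum.inl j) v₀) (ev L R F (Sum.inl j)) = ev L R F (Sum.inl j) := by
      rw [hXc]
      simp
    have X2 : mv ⇑Q (xB Q L R (Sum.inl j) v₀) (ev L R F (Sum.inr j)) =
        ev L R F (Sum.inr j) - Q v₀ • ev L R F (Sum.inl j) - v₀ := by
      rw [hXc]
      simp
    have Y1 : mv ⇑Q (xB Q L R (Sum.inr j) ((Q v₀)⁻¹ • v₀)) (ev L R F (Sum.inl j)) =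
        ev L R F (Sum.inl j) - (Q v₀)⁻¹ • ev L R F (Sum.inr j) - (Q v₀)⁻¹ • v₀ := by
      rw [hYc]
      simp
    have Y2 : mv ⇑Q (xB Q L R (Sum.inr j) ((Q v₀)⁻¹ • v₀)) (ev L R F (Sum.inr j)) =
        ev L R F (Sum.inr j) := by
      rw [hYc]
      simp
    intro a
    rw [hsig, hsP, mv_mul, mv_mul]
    by_cases h1 : a = Sum.inl j
    · subst h1
      refine ⟨-(Q v₀)⁻¹, ?_⟩
      rw [Equiv.swap_apply_left]
      simp only [X1, X2, Y1, Y2, hXv, hYv, mv_add, mv_sub, mv_smul]
      match_scalars <;> field_simp <;> ring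
    by_cases h2 : a = Sum.inr j
    · subst h2
      refine ⟨-(Q v₀), ?_⟩
      rw [Equiv.swap_apply_right]
      simp only [X1, X2, Y1, Y2, hXv, hYv, mv_add, mv_sub, mv_smul]
      match_scalars <;> field_simp <;> ring
    · refine ⟨1, ?_⟩
      rw [Equiv.swap_apply_of_ne_of_ne h1 h2]
      have X5 : mv ⇑Q (xB Q L R (Sum.inl j) v₀) (ev L R F a) = ev L R F a := by
        rw [hXc, if_neg h2, if_neg h2, zero_smul, zero_smul, sub_zero, sub_zero]
      have Y5 : mv ⇑Q (xB Q L R (Sum.inr j) ((Q v₀)⁻¹ • v₀)) (ev L R F a) = ev L R F a := by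
        rw [hYc, if_neg h1, if_neg h1, zero_smul, zero_smul, sub_zero, sub_zero]
      rw [X5, Y5, X5, one_smul]

end Cfsg.Agent.Helper58.StSIGPAT
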