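import Mathlib
import Cfsg.Agent.Helper45.StDefs
import Cfsg.Agent.Helper58.StAux

set_option autoImplicit false

/-!
# CALL S2547 part 2 (helper45), PIECE XUP: positive root elements lie in the Borel subgroup.
-/

universe u

namespace Cfsg.Agent.Helper58.StXUP

open Cfsg Cfsg.Agent.Helper13 Cfsg.Agent.Helper95.SpBN Cfsg.Agent.Helper45 Cfsg.Agent.Helper45.St
open Cfsg.Agent.Helper58.StAux

variable {ι : Type} [Fintype ι] [DecidableEq ι] {F : Type u} [Field F]
  {Q : QuadraticForm F (ι → F)} {m : ℕ} {L R : Fin m → ι}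

theorem p_XSUP (H : HypPairs Q m L R) (hB : BCrit Q L R) (a b : Fin m ⊕ Fin m)
    (hab : b ≠ tauP m a) (h : rk a < rk (tauP m b)) (t : F) : xS Q L R a b t ∈ borelO Q L := by
  apply hB
  intro j
  rw [mv_xS_ev58 H a b hab]
  apply flagP_sub58 _ _ _ (flagP_add58 _ _ _ (flagP_ev j) ?_) ?_
  · by_cases h1 : Sum.inl j = tauP m b
    · have hrk : rk a < (j : ℕ) := by rw [← h1, rk_inl] at h; exact h
      rcases a with j' | j'
      · rw [rk_inl] at hrk
        exact flagP_smul58 _ _ _ (flagP_mono (by omega) _ (flagP_ev j'))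
      · rw [rk_inr] at hrk
        have := j.2
        have := j'.2
        omega
    · rw [if_neg h1, zero_smul]
      exact flagP_zero58 _
  · by_cases h2 : Sum.inl j = tauP m a
    · have hrk := rk_tauP_lt h
      rw [tauP_tauP, ← h2, rk_inl] at hrk
      rcases b with j' | j'
      · rw [rk_inl] at hrk
        exact flagP_smul58 _ _ _ (flagP_mono (by omega) _ (flagP_ev j'))
      · rw [rk_inr] at hrk
        have := j.2
        have := j'.2
        omega
    · rw [if_neg h2, zero_smul]
      exact flagP_zero58 _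

theorem p_XBUP (H : HypPairs Q m L R) (hB : BCrit Q L R) (i : Fin m) (v : ι → F)
    (hv : InV0 L R v) : xB Q L R (Sum.inl i) v ∈ borelO Q L := by
  apply hB
  intro j
  rw [mv_xB_ev58 H _ v hv, if_neg (by rw [tauP_inl]; exact Sum.inl_ne_inr),
    if_neg (by rw [tauP_inl]; exact Sum.inl_ne_inr), zero_smul, zero_smul, sub_zero, sub_zero]
  exact flagP_ev j

end Cfsg.Agent.Helper58.StXUP
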