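import Mathlib
import Cfsg.Agent.Lead.LWDefs

/-! # CALL S0747 piece G1b (seat helper58) -/

set_option autoImplicit false

namespace Cfsg.Agent.Helper58.LWG1b

open Cfsg.Agent.Lead.LW

variable {α : Type*} [Fintype α] [DecidableEq α]

-- PIECE G1b
theorem pretransitive_of_ktrans (G : Subgroup (Equiv.Perm α)) (k : ℕ)
    (h : KTrans G k) : MulAction.IsMultiplyPretransitive G α k := by
  rw [MulAction.isMultiplyPretransitive_iff]
  intro x y
  obtain ⟨g, hg, hxy⟩ := h x y
  refine ⟨⟨g, hg⟩, ?_⟩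
  ext i
  exact hxy i

end Cfsg.Agent.Helper58.LWG1b
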