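import Mathlib
import Cfsg.Agent.Lead.LWDefs

/-! # CALL S0747 piece G1a (seat helper58) -/

set_option autoImplicit false

namespace Cfsg.Agent.Helper58.LWG1a

open Cfsg.Agent.Lead.LW

variable {α : Type*} [Fintype α] [DecidableEq α]

-- PIECE G1a
theorem ktrans_of_pretransitive (G : Subgroup (Equiv.Perm α)) (k : ℕ)
    (h : MulAction.IsMultiplyPretransitive G α k) : KTrans G k := by
  intro x y
  obtain ⟨g, hg⟩ := MulAction.exists_smul_eq (↥G) x y
  refine ⟨g.1, g.2, fun i => ?_⟩
  have h1 := congrArg (fun e : Fin k ↪ α => e i) hg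
  exact h1

end Cfsg.Agent.Helper58.LWG1a
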