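import Mathlib
import Cfsg.Agent.Lead.LWDefs

/-! # CALL S0747 piece T1 (seat helper58): the pointwise stabiliser of `Γ₀` in a `k`-transitive
group is `j`-transitive on the complement, `|Γ₀| + j = k`. -/

set_option autoImplicit false
set_option linter.unusedSectionVars false

namespace Cfsg.Agent.Helper58.LWT1

open Cfsg.Agent.Lead.LW

variable {α : Type*} [Fintype α] [DecidableEq α]

/-- A `k`-transitive group realises every injective map on a `k`-set. -/
theorem realize_aux (G : Subgroup (Equiv.Perm α)) (k : ℕ) (hG : KTrans G k)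
    (S : Finset α) (hS : S.card = k) (f : α → α) (hf : Set.InjOn f (S : Set α)) :
    ∃ g ∈ G, ∀ a ∈ S, g a = f a := by
  have e : ↥S ≃ Fin k := Fintype.equivFinOfCardEq (by rw [Fintype.card_coe, hS])
  obtain ⟨g, hg, hXY⟩ := hG
    ⟨fun i => (e.symm i : α), fun i j hij => e.symm.injective (Subtype.ext hij)⟩
    ⟨fun i => f (e.symm i : α), fun i j hij => e.symm.injective
      (Subtype.ext (hf (Finset.mem_coe.2 (e.symm i).2) (Finset.mem_coe.2 (e.symm j).2) hij))⟩
  refine ⟨g, hg, fun a ha => ?_⟩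
  have h : g ((e.symm (e ⟨a, ha⟩) : ↥S) : α) = f ((e.symm (e ⟨a, ha⟩) : ↥S) : α) :=
    hXY (e ⟨a, ha⟩)
  rw [Equiv.symm_apply_apply] at h
  exact h

/-- A permutation fixing `Γ₀` pointwise preserves the complement. -/
theorem pres_compl (g : Equiv.Perm α) (Γ₀ : Finset α) (hg : ∀ a ∈ Γ₀, g a = a) (a : α) :
    g a ∈ Γ₀ᶜ ↔ a ∈ Γ₀ᶜ := by
  rw [Finset.mem_compl, Finset.mem_compl, not_iff_not]
  constructor
  · intro h
    have h1 := hg (g a) h
    have h2 := g.injective h1
    rw [h2] at h
    exact h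
  · intro h
    rw [hg a h]
    exact h

-- PIECE T1  (the pointwise stabiliser of `Γ₀` is `j`-transitive on the complement)
theorem ktrans_induced_compl (G : Subgroup (Equiv.Perm α)) (k : ℕ) (hG : KTrans G k)
    (Γ₀ : Finset α) (j : ℕ) (h : Γ₀.card + j = k) :
    KTrans (induced (pstab G Γ₀) Γ₀ᶜ) j := by
  classical
  intro x y
  have hxinj : Function.Injective (fun i : Fin j => (x i : α)) :=
    fun i i' h => x.injective (Subtype.ext h)
  have hdisj : Disjoint Γ₀ (Finset.univ.image (fun i : Fin j => (x i : α))) := by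
    rw [Finset.disjoint_left]
    intro a ha ha'
    obtain ⟨i, -, rfl⟩ := Finset.mem_image.1 ha'
    exact (Finset.mem_compl.1 (x i).2) ha
  have hScard : (Γ₀ ∪ Finset.univ.image (fun i : Fin j => (x i : α))).card = k := by
    rw [Finset.card_union_of_disjoint hdisj, Finset.card_image_of_injective _ hxinj,
      Finset.card_univ, Fintype.card_fin, h]
  obtain ⟨f, hfdef⟩ : ∃ f : α → α, f = fun a =>
      if hh : ∃ i, (x i : α) = a then (y hh.choose : α) else a := ⟨_, rfl⟩
  have hfx : ∀ i, f (x i : α) = (y i : α) := by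
    intro i
    have hh : ∃ i', (x i' : α) = (x i : α) := ⟨i, rfl⟩
    have h1 : hh.choose = i := hxinj hh.choose_spec
    rw [hfdef]
    simp only
    rw [dif_pos hh, h1]
  have hfΓ : ∀ a ∈ Γ₀, f a = a := by
    intro a ha
    have h1 : ¬ ∃ i, (x i : α) = a := by
      rintro ⟨i, rfl⟩
      exact (Finset.mem_compl.1 (x i).2) ha
    rw [hfdef]
    simp only
    rw [dif_neg h1]
  have hf : Set.InjOn f ((Γ₀ ∪ Finset.univ.image (fun i : Fin j => (x i : α)) : Finset α) : Set α) := by
    intro a ha b hb hab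
    rw [Finset.mem_coe, Finset.mem_union, Finset.mem_image] at ha hb
    rcases ha with ha | ⟨i, -, rfl⟩ <;> rcases hb with hb | ⟨i', -, rfl⟩
    · rw [hfΓ a ha, hfΓ b hb] at hab
      exact hab
    · rw [hfΓ a ha, hfx] at hab
      exact absurd (by rw [← hab]; exact ha) (Finset.mem_compl.1 (y i').2)
    · rw [hfx, hfΓ b hb] at hab
      exact absurd (by rw [hab]; exact hb) (Finset.mem_compl.1 (y i).2)
    · rw [hfx, hfx] at hab
      have h1 := y.injective (Subtype.ext hab)
      rw [h1]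
  obtain ⟨g, hg, hgS⟩ := realize_aux G k hG _ hScard f hf
  have hgΓ : ∀ a ∈ Γ₀, g a = a := fun a ha => by
    rw [hgS a (Finset.mem_union_left _ ha), hfΓ a ha]
  have hgx : ∀ i, g (x i : α) = (y i : α) := fun i => by
    rw [hgS _ (Finset.mem_union_right _ (Finset.mem_image_of_mem _ (Finset.mem_univ i))), hfx]
  refine ⟨Equiv.Perm.subtypePerm g (pres_compl g Γ₀ hgΓ), ⟨g, ⟨hg, hgΓ⟩, fun z => rfl⟩,
    fun i => ?_⟩
  apply Subtype.ext
  exact hgx i

end Cfsg.Agent.Helper58.LWT1
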