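import Mathlib
import Cfsg.Prelude.Def_OddOrderLocal

set_option autoImplicit false

/-!
# CALL BG15 piece E3 (helper58): `M' = M_σ` read inside `↥M`.
-/

namespace Cfsg.Agent.Helper58

open Cfsg Subgroup

universe u

section App

variable {G : Type u} [Group G] [Finite G]

/-- E3 (pure). `M' = M_σ` read inside `↥M`. -/
theorem bg15_comm_eq (M : Subgroup G) (h : ⁅M, M⁆ = sigmaCore M) :
    commutator ↥M = piCore (sigma M) ↥M := by
  apply Subgroup.map_injective (Subgroup.subtype_injective M)
  rw [Subgroup.map_subtype_commutator, h]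
  rfl

end App

end Cfsg.Agent.Helper58
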