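import Cfsg.Agent.Helper22.Fitting
import Cfsg.Prelude.Def_OddOrderLocal

set_option autoImplicit false

/-!
# CALL BG15 piece NILU (helper58): `M_σ ≤ F(M)` makes `M_σ` nilpotent.
-/

namespace Cfsg.Agent.Helper58

open Cfsg Subgroup

universe u

section App

variable {G : Type u} [Group G] [Finite G]

/-- NILU (pure). `M_σ ≤ F(M)` makes `M_σ` nilpotent. -/
theorem bg15_sigma_nilpotent_of_le_fitting (M : Subgroup G) (h : sigmaCore M ≤ fittingOf M) :
    Group.IsNilpotent ↥(sigmaCore M) := by
  have h1 : Group.IsNilpotent ↥(fittingSubgroup ↥M) :=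
    Cfsg.Agent.Helper22.fittingSubgroup_isNilpotent ↥M
  have h2 : Group.IsNilpotent ↥(fittingOf M) := by
    haveI := h1
    exact nilpotent_of_mulEquiv
      ((fittingSubgroup ↥M).equivMapOfInjective M.subtype (Subgroup.subtype_injective M))
  haveI := h2
  have h3 : Group.IsNilpotent ↥((sigmaCore M).subgroupOf (fittingOf M)) := inferInstance
  haveI := h3
  exact nilpotent_of_mulEquiv (Subgroup.subgroupOfEquivOfLe h)

end App

end Cfsg.Agent.Helper58
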