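import Mathlib
import Cfsg.Agent.Helper98.C2Defs

/-!
# CALL S5634 piece L (seat helper58): lifting from the quotient by the first coordinate line

`k` has first column in `K e_0`; if the induced matrix on the quotient is an elementary
transvection, or is monomial while `k` is not, then an overgroup `X` of the monomial group
containing `k` contains an elementary transvection.
-/

set_option autoImplicit false

namespace Cfsg.Agent.Helper58.C2L

open Matrix Cfsg.Agent.Helper98.C2
open scoped MatrixGroups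

variable {K : Type*} [Field K]

/-- The matrix `A` is the matrix of an element of `X`. -/
def InX {ι : Type*} [Fintype ι] [DecidableEq ι] (X : Subgroup (GL ι K)) (A : Matrix ι ι K) :
    Prop := ∃ g ∈ X, g.1 = A

theorem InX.mul {ι : Type*} [Fintype ι] [DecidableEq ι] {X : Subgroup (GL ι K)}
    {A B : Matrix ι ι K} (hA : InX X A) (hB : InX X B) : InX X (A * B) := by
  obtain ⟨g, hg, rfl⟩ := hA
  obtain ⟨h, hh, rfl⟩ := hB
  exact ⟨g * h, X.mul_mem hg hh, rfl⟩

theorem InX.inv {ι : Type*} [Fintype ι] [DecidableEq ι] {X : Subgroup (GL ι K)}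
    {A B : Matrix ι ι K} (hA : InX X A) (hAB : A * B = 1) : InX X B := by
  obtain ⟨g, hg, rfl⟩ := hA
  exact ⟨g⁻¹, X.inv_mem hg, Units.inv_eq_of_mul_eq_one_right hAB⟩

theorem isMono_diagonal {ι : Type*} [Fintype ι] [DecidableEq ι] (d : ι → K) :
    IsMono (Matrix.diagonal d) :=
  ⟨1, fun i j hij => Matrix.diagonal_apply_ne _ (by simpa using hij)⟩

theorem inX_diag {ι : Type*} [Fintype ι] [DecidableEq ι] (X : Subgroup (GL ι K)) (hX : MonLE X)
    (d : ι → K) (hd : ∀ i, d i ≠ 0) : InX X (Matrix.diagonal d) := by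
  have hdet : (Matrix.diagonal d).det ≠ 0 := by
    rw [Matrix.det_diagonal]
    exact Finset.prod_ne_zero_iff.2 (fun i _ => hd i)
  exact ⟨Matrix.GeneralLinearGroup.mkOfDetNeZero _ hdet, hX _ (isMono_diagonal d), rfl⟩

theorem inX_diag_sl {ι : Type*} [Fintype ι] [DecidableEq ι] (M : Subgroup (GL ι K))
    (hH : MonSLLE M) (d : ι → K) (hd : ∏ i, d i = 1) : InX M (Matrix.diagonal d) := by
  have hdet : (Matrix.diagonal d).det = 1 := by
    rw [Matrix.det_diagonal]
    exact hd
  have hdet' : (Matrix.diagonal d).det ≠ 0 := by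
    rw [hdet]
    exact one_ne_zero
  exact ⟨Matrix.GeneralLinearGroup.mkOfDetNeZero _ hdet', hH _ (isMono_diagonal d) hdet, rfl⟩

/-- The matrix `1 + e_0 vᵀ`. -/
def rowMat {m : ℕ} (v : Fin (m + 1) → K) : Matrix (Fin (m + 1)) (Fin (m + 1)) K :=
  1 + Matrix.vecMulVec (Pi.single 0 1) v

theorem rowMat_apply {m : ℕ} (v : Fin (m + 1) → K) (i j : Fin (m + 1)) :
    rowMat v i j = (if i = j then 1 else 0) + (if i = 0 then v j else 0) := by
  simp [rowMat, Matrix.one_apply, Matrix.vecMulVec_apply, Pi.single_apply]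

theorem rowMat_zero {m : ℕ} : rowMat (0 : Fin (m + 1) → K) = 1 := by
  ext i j
  simp [rowMat_apply, Matrix.one_apply]

theorem mul_rowMat_apply {m : ℕ} (N : Matrix (Fin (m + 1)) (Fin (m + 1)) K)
    (v : Fin (m + 1) → K) (i j : Fin (m + 1)) : (N * rowMat v) i j = N i j + N i 0 * v j := by
  rw [rowMat, Matrix.mul_add, Matrix.mul_one, Matrix.mul_vecMulVec, Matrix.add_apply,
    Matrix.vecMulVec_apply, Matrix.mulVec_single_one]
  rfl

theorem rowMat_mul_rowMat {m : ℕ} (v w : Fin (m + 1) → K) (hv : v 0 = 0) :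
    rowMat v * rowMat w = rowMat (v + w) := by
  ext i j
  rw [mul_rowMat_apply, rowMat_apply, rowMat_apply, rowMat_apply]
  by_cases hi : i = 0
  · subst hi
    by_cases hj : (0 : Fin (m + 1)) = j
    · subst hj
      simp [hv]
    · simp [hj, hv]
  · simp [hi]

theorem det_rowMat {m : ℕ} (v : Fin (m + 1) → K) (hv : v 0 = 0) : (rowMat v).det = 1 := by
  rw [rowMat, Matrix.vecMulVec_eq Unit, Matrix.det_one_add_replicateCol_mul_replicateRow]
  simp [hv]

/-- `1 + e_0 vᵀ` as an invertible matrix. -/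
def rowGL {m : ℕ} (v : Fin (m + 1) → K) (hv : v 0 = 0) : GL (Fin (m + 1)) K :=
  ⟨rowMat v, rowMat (-v),
    by rw [rowMat_mul_rowMat _ _ hv, add_neg_cancel, rowMat_zero],
    by rw [rowMat_mul_rowMat _ _ (by simp [hv]), neg_add_cancel, rowMat_zero]⟩

theorem rowMat_single {m : ℕ} (j : Fin (m + 1)) (c : K) :
    rowMat (Pi.single j c) = Matrix.transvection 0 j c := by
  ext p q
  rw [rowMat_apply, Matrix.transvection, Matrix.add_apply, Matrix.one_apply, Matrix.single_apply,
    Pi.single_apply]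
  rcases eq_or_ne q j with rfl | hq
  · by_cases hp : p = 0
    · simp [hp]
    · simp [hp, Ne.symm hp]
  · by_cases hp : p = 0
    · simp [hp, hq, Ne.symm hq]
    · simp [hp, hq, Ne.symm hq, Ne.symm hp]

theorem diag_conj {m : ℕ} (b d : Fin (m + 1) → K) (hb0 : b 0 = 0) (hd : ∀ i, d i ≠ 0) :
    Matrix.diagonal d * rowMat b * Matrix.diagonal (fun i => (d i)⁻¹) =
      rowMat (fun l => b l * (d 0 / d l)) := by
  ext i j
  rw [Matrix.mul_diagonal, Matrix.diagonal_mul, rowMat_apply, rowMat_apply]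
  by_cases hij : i = j
  · subst hij
    by_cases hi0 : i = 0
    · subst hi0
      simp [hb0, hd 0]
    · simp [hi0, hd i]
  · by_cases hi0 : i = 0
    · subst hi0
      simp [hij]
      field_simp
    · simp [hij, hi0]

theorem diag_inv {ι : Type*} [Fintype ι] [DecidableEq ι] (d : ι → K) (hd : ∀ i, d i ≠ 0) :
    Matrix.diagonal d * Matrix.diagonal (fun i => (d i)⁻¹) = 1 := by
  rw [Matrix.diagonal_mul_diagonal]
  have : (fun i => d i * (d i)⁻¹) = fun _ => (1 : K) := by
    funext i
    exact mul_inv_cancel₀ (hd i)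
  rw [this, Matrix.diagonal_one]

/-- The commutator of `1 + e_0 bᵀ` with a diagonal matrix. -/
theorem comm_diag {m : ℕ} (X : Subgroup (GL (Fin (m + 1)) K)) (b d : Fin (m + 1) → K)
    (hb0 : b 0 = 0) (hd : ∀ i, d i ≠ 0) (hU : InX X (rowMat b))
    (hD : InX X (Matrix.diagonal d)) : InX X (rowMat (fun l => b l * (1 - d 0 / d l))) := by
  have hUn : InX X (rowMat (-b)) :=
    hU.inv (by rw [rowMat_mul_rowMat _ _ hb0, add_neg_cancel, rowMat_zero])
  have hDi : InX X (Matrix.diagonal (fun i => (d i)⁻¹)) := hD.inv (diag_inv d hd)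
  have h := hU.mul ((hD.mul hUn).mul hDi)
  rw [diag_conj (-b) d (by simp [hb0]) hd, rowMat_mul_rowMat _ _ hb0] at h
  have he : (b + fun l => (-b) l * (d 0 / d l)) = fun l => b l * (1 - d 0 / d l) := by
    funext l
    simp only [Pi.add_apply, Pi.neg_apply]
    ring
  rw [he] at h
  exact h

theorem exists_ne_zero_ne_one [Fintype K] (hq : 3 ≤ Fintype.card K) :
    ∃ ε : K, ε ≠ 0 ∧ ε ≠ 1 := by
  classical
  have hlt : ({0, 1} : Finset K).card < (Finset.univ : Finset K).card := by
    have h2 : ({0, 1} : Finset K).card ≤ 2 := Finset.card_le_two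
    rw [Finset.card_univ]
    omega
  obtain ⟨ε, -, hε⟩ := Finset.exists_mem_notMem_of_card_lt_card hlt
  simp only [Finset.mem_insert, Finset.mem_singleton, not_or] at hε
  exact ⟨ε, hε.1, hε.2⟩

/-- From `1 + e_0 bᵀ` with `b ≠ 0` to an elementary transvection (all monomial matrices). -/
theorem sparsify_gl [Fintype K] (hq : 3 ≤ Fintype.card K) {m : ℕ}
    (X : Subgroup (GL (Fin (m + 1)) K)) (hX : MonLE X) (b : Fin (m + 1) → K) (hb0 : b 0 = 0)
    (hb : b ≠ 0) (hU : InX X (rowMat b)) : HasTv X := by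
  obtain ⟨j, hj⟩ : ∃ j, b j ≠ 0 := by
    by_contra h
    push Not at h
    exact hb (funext h)
  have hj0 : j ≠ 0 := by
    rintro rfl
    exact hj hb0
  obtain ⟨ε, hε0, hε1⟩ := exists_ne_zero_ne_one (K := K) hq
  have hd : ∀ i, (fun i : Fin (m + 1) => if i = j then ε else 1) i ≠ 0 := by
    intro i
    by_cases hi : i = j
    · simp [hi, hε0]
    · simp [hi]
  have hD := inX_diag X hX _ hd
  have h := comm_diag X b _ hb0 hd hU hD
  have he : (fun l => b l * (1 - (fun i : Fin (m + 1) => if i = j then ε else 1) 0 /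
      (fun i : Fin (m + 1) => if i = j then ε else 1) l)) = Pi.single j (b j * (1 - ε⁻¹)) := by
    funext l
    by_cases hl : l = j
    · subst hl
      simp [hj0.symm]
    · simp [hl, hj0.symm, Pi.single_apply]
  rw [he, rowMat_single] at h
  obtain ⟨g, hg, hgeq⟩ := h
  refine ⟨g, hg, 0, j, hj0.symm, _, mul_ne_zero hj ?_, hgeq⟩
  intro h1
  apply hε1
  have h2 : ε⁻¹ = 1 := by linear_combination -h1
  rw [inv_eq_one] at h2
  exact h2

theorem exists_ne_ne {ι : Type*} [Fintype ι] [DecidableEq ι] (hι : 3 ≤ Fintype.card ι)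
    (a b : ι) : ∃ e, e ≠ a ∧ e ≠ b := by
  have hlt : ({a, b} : Finset ι).card < (Finset.univ : Finset ι).card := by
    have h2 : ({a, b} : Finset ι).card ≤ 2 := Finset.card_le_two
    rw [Finset.card_univ]
    omega
  obtain ⟨e, -, he⟩ := Finset.exists_mem_notMem_of_card_lt_card hlt
  simp only [Finset.mem_insert, Finset.mem_singleton, not_or] at he
  exact ⟨e, he.1, he.2⟩

theorem exists_ne_ne_ne {ι : Type*} [Fintype ι] [DecidableEq ι] (hι : 4 ≤ Fintype.card ι)
    (a b c : ι) : ∃ e, e ≠ a ∧ e ≠ b ∧ e ≠ c := by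
  have hlt : ({a, b, c} : Finset ι).card < (Finset.univ : Finset ι).card := by
    have h2 : ({a, b, c} : Finset ι).card ≤ 3 := Finset.card_le_three
    rw [Finset.card_univ]
    omega
  obtain ⟨e, -, he⟩ := Finset.exists_mem_notMem_of_card_lt_card hlt
  simp only [Finset.mem_insert, Finset.mem_singleton, not_or] at he
  exact ⟨e, he.1, he.2.1, he.2.2⟩

/-- From `1 + e_0 bᵀ` with `b ≠ 0` to an elementary transvection (monomial matrices of
determinant one). -/
theorem sparsify_sl [Fintype K] (hq : 3 ≤ Fintype.card K) {m : ℕ} (hm : 3 ≤ m)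
    (M : Subgroup (GL (Fin (m + 1)) K)) (hH : MonSLLE M) (b : Fin (m + 1) → K) (hb0 : b 0 = 0)
    (hb : b ≠ 0) (hU : InX M (rowMat b)) : HasTv M := by
  obtain ⟨j, hj⟩ : ∃ j, b j ≠ 0 := by
    by_contra h
    push Not at h
    exact hb (funext h)
  have hj0 : j ≠ 0 := by
    rintro rfl
    exact hj hb0
  have hcard : 4 ≤ Fintype.card (Fin (m + 1)) := by
    rw [Fintype.card_fin]
    omega
  obtain ⟨j2, hj20, hj2j⟩ := exists_ne_ne (by omega) (0 : Fin (m + 1)) j
  obtain ⟨j3, hj30, hj3j, hj32⟩ := exists_ne_ne_ne hcard (0 : Fin (m + 1)) j j2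
  obtain ⟨ε, hε0, hε1⟩ := exists_ne_zero_ne_one (K := K) hq
  have step : ∀ (b' : Fin (m + 1) → K) (j' : Fin (m + 1)), b' 0 = 0 → j' ≠ 0 → j' ≠ j →
      InX M (rowMat b') → InX M (rowMat (fun l => if l = j then b' j * (1 - ε⁻¹) else
        if l = j' then b' j' * (1 - ε) else 0)) := by
    intro b' j' hb'0 hj'0 hj'j hU'
    have hd : ∀ i, (fun i : Fin (m + 1) => if i = j then ε else if i = j' then ε⁻¹ else 1) i ≠ 0 := by
      intro i
      by_cases hi : i = j
      · simp [hi, hε0]
      · by_cases hi' : i = j'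
        · subst hi'
          simp [hj'j, hε0]
        · simp [hi, hi']
    have hprod : ∏ i, (fun i : Fin (m + 1) => if i = j then ε else if i = j' then ε⁻¹ else 1) i
        = 1 := by
      rw [Fintype.prod_eq_mul j j' (Ne.symm hj'j)]
      · simp [hj'j, hε0]
      · intro x hx
        simp [hx.1, hx.2]
    have hD := inX_diag_sl M hH _ hprod
    have h := comm_diag M b' _ hb'0 hd hU' hD
    have he : (fun l => b' l * (1 - (fun i : Fin (m + 1) => if i = j then ε else
        if i = j' then ε⁻¹ else 1) 0 / (fun i : Fin (m + 1) => if i = j then ε else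
        if i = j' then ε⁻¹ else 1) l)) = (fun l => if l = j then b' j * (1 - ε⁻¹) else
        if l = j' then b' j' * (1 - ε) else 0) := by
      funext l
      by_cases hl : l = j
      · subst hl
        simp [hj0.symm, hj'0.symm]
      · by_cases hl' : l = j'
        · subst hl'
          simp [hl, hj0.symm, hj'0.symm]
        · simp [hl, hl', hj0.symm, hj'0.symm]
    rw [he] at h
    exact h
  have h1 := step b j2 hb0 hj20 hj2j hU
  have h2 := step _ j3 (by simp [hj0.symm, hj20.symm]) hj30 hj3j h1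
  have he : (fun l => if l = j then (fun l => if l = j then b j * (1 - ε⁻¹) else
      if l = j2 then b j2 * (1 - ε) else 0) j * (1 - ε⁻¹) else
      if l = j3 then (fun l => if l = j then b j * (1 - ε⁻¹) else
      if l = j2 then b j2 * (1 - ε) else 0) j3 * (1 - ε) else 0) =
      Pi.single j (b j * (1 - ε⁻¹) * (1 - ε⁻¹)) := by
    funext l
    by_cases hl : l = j
    · subst hl
      simp
    · by_cases hl3 : l = j3
      · subst hl3
        simp [hl, hj32, Pi.single_apply]
      · simp [hl, hl3, Pi.single_apply]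
  rw [he, rowMat_single] at h2
  obtain ⟨g, hg, hgeq⟩ := h2
  have hne : (1 : K) - ε⁻¹ ≠ 0 := by
    intro h1'
    apply hε1
    have h2' : ε⁻¹ = 1 := by linear_combination -h1'
    rw [inv_eq_one] at h2'
    exact h2'
  exact ⟨g, hg, 0, j, hj0.symm, _, mul_ne_zero (mul_ne_zero hj hne) hne, hgeq⟩

theorem k00_ne_zero {m : ℕ} (k : GL (Fin (m + 1)) K) (hk0 : ∀ i, i ≠ 0 → k.1 i 0 = 0) :
    k.1 0 0 ≠ 0 := by
  intro h0
  have h1 : (k⁻¹.1 * k.1) 0 0 = 1 := by
    rw [Units.inv_mul]
    simp
  rw [Matrix.mul_apply] at h1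
  have h2 : ∑ l, k⁻¹.1 0 l * k.1 l 0 = 0 := by
    apply Finset.sum_eq_zero
    intro l _
    by_cases hl : l = 0
    · rw [hl, h0, mul_zero]
    · rw [hk0 l hl, mul_zero]
  rw [h2] at h1
  exact zero_ne_one h1

theorem transvection_apply' {ι : Type*} [DecidableEq ι] (p q : ι) (c : K) (i j : ι) :
    Matrix.transvection p q c i j = (if i = j then 1 else 0) + (if p = i ∧ q = j then c else 0) := by
  rw [Matrix.transvection, Matrix.add_apply, Matrix.one_apply, Matrix.single_apply]

theorem diag_transvection_comm {ι : Type*} [Fintype ι] [DecidableEq ι] (d : ι → K) (p q : ι)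
    (c : K) (h : d p = d q) :
    Matrix.diagonal d * Matrix.transvection p q c = Matrix.transvection p q c * Matrix.diagonal d := by
  ext i j
  rw [Matrix.diagonal_mul, Matrix.mul_diagonal, transvection_apply']
  by_cases hij : i = j
  · subst hij
    ring
  · by_cases hpq : p = i ∧ q = j
    · obtain ⟨rfl, rfl⟩ := hpq
      simp [hij, h]
      ring
    · simp [hij, hpq]

/-- The transvection block: `k` has first column `e_0` and induces `T_ab(c)` on the quotient. -/
theorem tv_block {m : ℕ} (X : Subgroup (GL (Fin (m + 1)) K)) (k : GL (Fin (m + 1)) K)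
    (hk : k ∈ X) (hk00 : k.1 0 0 = 1) (hk0 : ∀ i, i ≠ 0 → k.1 i 0 = 0) (a b : Fin m)
    (hab : a ≠ b) (c : K) (hblk : k.1.submatrix Fin.succ Fin.succ = Matrix.transvection a b c)
    (d : Fin (m + 1) → K) (hd : ∀ i, d i ≠ 0) (hdab : d a.succ = d b.succ)
    (hd0 : ∀ l, l ≠ 0 → d l ≠ d 0) (hD : InX X (Matrix.diagonal d)) :
    k.1 = Matrix.transvection a.succ b.succ c ∨
      ∃ v : Fin (m + 1) → K, v 0 = 0 ∧ v ≠ 0 ∧ InX X (rowMat v) := by
  have hsab : a.succ ≠ b.succ := fun h => hab (Fin.succ_injective _ h)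
  have hTT' : Matrix.transvection a.succ b.succ c * Matrix.transvection a.succ b.succ (-c) = 1 := by
    rw [Matrix.transvection_mul_transvection_same _ _ hsab, add_neg_cancel,
      Matrix.transvection_zero]
  have hT'T : Matrix.transvection a.succ b.succ (-c) * Matrix.transvection a.succ b.succ c = 1 := by
    rw [Matrix.transvection_mul_transvection_same _ _ hsab, neg_add_cancel,
      Matrix.transvection_zero]
  obtain ⟨β, hβdef⟩ : ∃ β : Fin (m + 1) → K, β = fun j => if j = 0 then 0 else k.1 0 j :=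
    ⟨_, rfl⟩
  have hβ0 : β 0 = 0 := by simp [hβdef]
  have hkT : k.1 = Matrix.transvection a.succ b.succ c * rowMat β := by
    ext i j
    rw [mul_rowMat_apply, transvection_apply', transvection_apply', hβdef]
    refine Fin.cases ?_ (fun i' => ?_) i
    · refine Fin.cases ?_ (fun j' => ?_) j
      · simp [hk00, (Fin.succ_ne_zero a)]
      · simp [(Fin.succ_ne_zero a), (Fin.succ_ne_zero j'), (Fin.succ_ne_zero j').symm]
    · refine Fin.cases ?_ (fun j' => ?_) j
      · simp [hk0 i'.succ (Fin.succ_ne_zero i'), (Fin.succ_ne_zero b), (Fin.succ_ne_zero i')]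
      · have h1 : k.1 i'.succ j'.succ = Matrix.transvection a b c i' j' := by
          rw [← hblk]
          rfl
        rw [h1, transvection_apply']
        simp [(Fin.succ_ne_zero b), (Fin.succ_ne_zero i'), (Fin.succ_ne_zero j'), Fin.succ_inj]
  by_cases hβ : β = 0
  · left
    rw [hkT, hβ, rowMat_zero, Matrix.mul_one]
  · right
    refine ⟨fun l => β l * (d 0 / d l) + -β l, by simp [hβ0], ?_, ?_⟩
    · intro hv
      apply hβ
      funext l
      have hl := congrFun hv l
      by_cases hl0 : l = 0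
      · rw [hl0, hβ0]
        rfl
      · have hne : d 0 / d l - 1 ≠ 0 := by
          intro h1
          apply hd0 l hl0
          have h2 : d 0 / d l = 1 := by linear_combination h1
          rw [div_eq_one_iff_eq (hd l)] at h2
          exact h2.symm
        have h3 : β l * (d 0 / d l - 1) = 0 := by
          simp only [Pi.zero_apply] at hl
          linear_combination hl
        rcases mul_eq_zero.1 h3 with h4 | h4
        · simpa using h4
        · exact absurd h4 hne
    · have hkinv : k⁻¹.1 = rowMat (-β) * Matrix.transvection a.succ b.succ (-c) := by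
        apply Units.inv_eq_of_mul_eq_one_right
        rw [hkT, Matrix.mul_assoc, ← Matrix.mul_assoc (rowMat β), rowMat_mul_rowMat _ _ hβ0,
          add_neg_cancel, rowMat_zero, Matrix.one_mul, hTT']
      have hDi : InX X (Matrix.diagonal (fun i => (d i)⁻¹)) := hD.inv (diag_inv d hd)
      have hkX : InX X k.1 := ⟨k, hk, rfl⟩
      have hkiX : InX X k⁻¹.1 := ⟨k⁻¹, X.inv_mem hk, rfl⟩
      have h := ((hkiX.mul hD).mul hkX).mul hDi
      have hcomm : Matrix.transvection a.succ b.succ (-c) * Matrix.diagonal d *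
          Matrix.transvection a.succ b.succ c = Matrix.diagonal d := by
        rw [Matrix.mul_assoc, diag_transvection_comm d a.succ b.succ c hdab, ← Matrix.mul_assoc,
          hT'T, Matrix.one_mul]
      have hcalc : k⁻¹.1 * Matrix.diagonal d * k.1 * Matrix.diagonal (fun i => (d i)⁻¹) =
          rowMat (-β) * (Matrix.diagonal d * rowMat β * Matrix.diagonal (fun i => (d i)⁻¹)) := by
        rw [hkinv, hkT]
        simp only [Matrix.mul_assoc]
        congr 1
        rw [← Matrix.mul_assoc (Matrix.transvection a.succ b.succ (-c)),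
          ← Matrix.mul_assoc (Matrix.transvection a.succ b.succ (-c) * Matrix.diagonal d),
          hcomm]
      rw [hcalc, diag_conj _ d hβ0 hd, rowMat_mul_rowMat _ _ (by simp [hβ0])] at h
      have he : (-β + fun l => β l * (d 0 / d l)) = fun l => β l * (d 0 / d l) + -β l := by
        funext l
        simp only [Pi.add_apply, Pi.neg_apply]
        ring
      rw [he] at h
      exact h

/-- The monomial block: `k` has first column in `K e_0`, is monomial on the quotient, and is not
monomial. -/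
theorem mono_block {m : ℕ} (k : GL (Fin (m + 1)) K) (hk0 : ∀ i, i ≠ 0 → k.1 i 0 = 0)
    (hblk : IsMono (k.1.submatrix Fin.succ Fin.succ)) (hkm : ¬ IsMono k.1) :
    ∃ v : Fin (m + 1) → K, v 0 = 0 ∧ v ≠ 0 ∧ IsMono (k.1 * rowMat v) := by
  have hc1 := k00_ne_zero k hk0
  obtain ⟨σ, hσ⟩ := hblk
  have hmono : IsMono (k.1 * rowMat (fun j : Fin (m + 1) => if j = 0 then 0 else
      -(k.1 0 j / k.1 0 0))) := by
    refine ⟨Equiv.Perm.decomposeFin.symm (0, σ), ?_⟩
    intro i j hij
    rw [mul_rowMat_apply]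
    revert hij
    refine Fin.cases ?_ (fun j' => ?_) j
    · intro hij
      rw [Equiv.Perm.decomposeFin_symm_apply_zero] at hij
      simp [hk0 i hij]
    · intro hij
      rw [Equiv.Perm.decomposeFin_symm_apply_succ] at hij
      simp only [Equiv.swap_self, Equiv.refl_apply] at hij
      revert hij
      refine Fin.cases ?_ (fun i' => ?_) i
      · intro _
        simp [Fin.succ_ne_zero j']
        field_simp
        ring
      · intro hij
        have hi'j' : i' ≠ σ j' := fun h => hij (by rw [h])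
        have h1 : k.1 i'.succ j'.succ = 0 := hσ i' j' hi'j'
        rw [h1, hk0 i'.succ (Fin.succ_ne_zero i')]
        simp
  refine ⟨_, by simp, ?_, hmono⟩
  intro hv
  apply hkm
  rw [hv, rowMat_zero, Matrix.mul_one] at hmono
  exact hmono

/-- PIECE L (1) -/
theorem lift_tv_gl [Fintype K] (hq : 5 ≤ Fintype.card K) (m : ℕ)
    (X : Subgroup (GL (Fin (m + 1)) K)) (hX : MonLE X)
    (k : GL (Fin (m + 1)) K) (hk : k ∈ X) (hk0 : ∀ i, i ≠ 0 → k.1 i 0 = 0)
    (a b : Fin m) (hab : a ≠ b) (c : K) (hc : c ≠ 0)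
    (hblk : k.1.submatrix Fin.succ Fin.succ = Matrix.transvection a b c) : HasTv X := by
  have hc1 := k00_ne_zero k hk0
  have hd' : ∀ i, (fun i : Fin (m + 1) => if i = 0 then (k.1 0 0)⁻¹ else 1) i ≠ 0 := by
    intro i
    by_cases hi : i = 0
    · simp [hi, hc1]
    · simp [hi]
  obtain ⟨Dg, hDg, hDgval⟩ := inX_diag X hX _ hd'
  have hk' : Dg * k ∈ X := X.mul_mem hDg hk
  have hval : (Dg * k).1 = Matrix.diagonal (fun i : Fin (m + 1) => if i = 0 then (k.1 0 0)⁻¹ else 1)
      * k.1 := by
    rw [← hDgval]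
    rfl
  have h00 : (Dg * k).1 0 0 = 1 := by
    rw [hval, Matrix.diagonal_mul]
    simp [hc1]
  have h0 : ∀ i, i ≠ 0 → (Dg * k).1 i 0 = 0 := by
    intro i hi
    rw [hval, Matrix.diagonal_mul, hk0 i hi, mul_zero]
  have hblk' : (Dg * k).1.submatrix Fin.succ Fin.succ = Matrix.transvection a b c := by
    rw [← hblk]
    ext i j
    rw [Matrix.submatrix_apply, Matrix.submatrix_apply, hval, Matrix.diagonal_mul]
    simp [Fin.succ_ne_zero i]
  obtain ⟨ε, hε0, hε1⟩ := exists_ne_zero_ne_one (K := K) (by omega)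
  have hd : ∀ i, (fun i : Fin (m + 1) => if i = 0 then ε else 1) i ≠ 0 := by
    intro i
    by_cases hi : i = 0
    · simp [hi, hε0]
    · simp [hi]
  have hD := inX_diag X hX _ hd
  rcases tv_block X (Dg * k) hk' h00 h0 a b hab c hblk' _ hd
    (by simp [Fin.succ_ne_zero a, Fin.succ_ne_zero b])
    (by
      intro l hl
      simp [hl]
      exact fun h => hε1 h.symm) hD with h | ⟨v, hv0, hv, hvX⟩
  · exact ⟨Dg * k, hk', a.succ, b.succ, fun h => hab (Fin.succ_injective _ h), c, hc, h⟩
  · exact sparsify_gl (by omega) X hX v hv0 hv hvX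

/-- PIECE L (2) -/
theorem lift_mono_gl [Fintype K] (hq : 5 ≤ Fintype.card K) (m : ℕ)
    (X : Subgroup (GL (Fin (m + 1)) K)) (hX : MonLE X)
    (k : GL (Fin (m + 1)) K) (hk : k ∈ X) (hk0 : ∀ i, i ≠ 0 → k.1 i 0 = 0)
    (hblk : IsMono (k.1.submatrix Fin.succ Fin.succ)) (hkm : ¬ IsMono k.1) : HasTv X := by
  obtain ⟨v, hv0, hv, hmono⟩ := mono_block k hk0 hblk hkm
  have hW : k * rowGL v hv0 ∈ X := hX _ hmono
  have hvX : InX X (rowMat v) := by
    refine ⟨k⁻¹ * (k * rowGL v hv0), X.mul_mem (X.inv_mem hk) hW, ?_⟩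
    rw [inv_mul_cancel_left]
    rfl
  exact sparsify_gl (by omega) X hX v hv0 hv hvX

end Cfsg.Agent.Helper58.C2L
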