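import Mathlib

/-!
# Dickson pairs (helper58)

Number theory of the condition `q ^ n ≡ 1 [MOD n * (q - 1)]` with `n` minimal.
`gs q i = 1 + q + ... + q ^ (i - 1)`.
-/

set_option autoImplicit false

namespace Cfsg.Agent.Helper58

/-- the geometric sum `1 + q + ... + q ^ (i - 1)` -/
def gs (q i : ℕ) : ℕ := ∑ j ∈ Finset.range i, q ^ j

theorem gs_zero (q : ℕ) : gs q 0 = 0 := by simp [gs]

theorem gs_succ (q i : ℕ) : gs q (i + 1) = gs q i + q ^ i := by
  simp [gs, Finset.sum_range_succ]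

theorem gs_one (q : ℕ) : gs q 1 = 1 := by simp [gs]

theorem gs_two (q : ℕ) : gs q 2 = 1 + q := by simp [gs, Finset.sum_range_succ]

theorem gs_add (q i j : ℕ) : gs q (i + j) = gs q i + q ^ i * gs q j := by
  induction j with
  | zero => simp [gs_zero]
  | succ j ih =>
    rw [← add_assoc, gs_succ, ih, gs_succ, pow_add]
    ring

theorem gs_mul (q e j : ℕ) : gs q (e * j) = gs q e * gs (q ^ e) j := by
  induction j with
  | zero => simp [gs_zero]
  | succ j ih =>
    rw [Nat.mul_succ, gs_add, ih, gs_succ, ← pow_mul]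
    ring

theorem gs_pred_mul (q i : ℕ) (hq : 1 ≤ q) : (q - 1) * gs q i + 1 = q ^ i := by
  obtain ⟨k, rfl⟩ : ∃ k, q = k + 1 := ⟨q - 1, by omega⟩
  simp only [Nat.add_sub_cancel]
  induction i with
  | zero => simp [gs_zero]
  | succ i ih =>
    rw [gs_succ, mul_add, add_right_comm, ih]
    ring

theorem gs_modEq (q r i : ℕ) (hq : 1 ≤ q) (h : r ∣ q - 1) : gs q i ≡ i [MOD r] := by
  have h1 : q ≡ 1 [MOD r] := ((Nat.modEq_iff_dvd' hq).mpr h).symm
  induction i with
  | zero => rw [gs_zero]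
  | succ i ih =>
    rw [gs_succ]
    have h2 : q ^ i ≡ 1 [MOD r] := by
      have := h1.pow i
      rwa [one_pow] at this
    exact ih.add h2

/-- `q ^ i ≡ 1` modulo `n * (q - 1)` iff `n` divides the geometric sum -/
theorem pow_modEq_one_iff (q n i : ℕ) (hq : 2 ≤ q) :
    q ^ i ≡ 1 [MOD n * (q - 1)] ↔ n ∣ gs q i := by
  have h1 : 1 ≤ q ^ i := Nat.one_le_pow _ _ (by omega)
  have h2 := gs_pred_mul q i (by omega)
  have h3 : q ^ i - 1 = gs q i * (q - 1) := by
    rw [← h2]
    simp [mul_comm]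
  constructor
  · intro h
    have h4 := (Nat.modEq_iff_dvd' h1).mp h.symm
    rw [h3] at h4
    exact (Nat.mul_dvd_mul_iff_right (by omega)).mp h4
  · intro h
    apply Nat.ModEq.symm
    rw [Nat.modEq_iff_dvd' h1, h3]
    exact Nat.mul_dvd_mul_right h _

/-- pigeonhole: some `gs Q j` with `0 < j ≤ m` is divisible by `m` -/
theorem exists_dvd_gs (Q m : ℕ) (hm : 0 < m) (hcop : Nat.Coprime Q m) :
    ∃ j, 0 < j ∧ j ≤ m ∧ m ∣ gs Q j := by
  obtain ⟨i, hi, j, hj, hne, heq⟩ := Finset.exists_ne_map_eq_of_card_lt_of_maps_to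
    (s := Finset.range (m + 1)) (t := Finset.range m) (f := fun j => gs Q j % m) (by simp)
    (fun j _ => Finset.mem_range.mpr (Nat.mod_lt _ hm))
  have key : ∀ i j : ℕ, i < j → j ≤ m → gs Q i % m = gs Q j % m →
      ∃ j, 0 < j ∧ j ≤ m ∧ m ∣ gs Q j := by
    intro i j hlt hjm heq
    refine ⟨j - i, by omega, by omega, ?_⟩
    have h1 : gs Q j = gs Q i + Q ^ i * gs Q (j - i) := by
      rw [← gs_add]
      congr 1
      omega
    have h2 : gs Q i + 0 ≡ gs Q i + Q ^ i * gs Q (j - i) [MOD m] := by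
      rw [add_zero, ← h1]
      exact heq
    have h3 := Nat.ModEq.add_left_cancel' _ h2
    have h4 : m ∣ Q ^ i * gs Q (j - i) := (Nat.modEq_zero_iff_dvd).mp h3.symm
    exact (Nat.Coprime.pow_left i hcop).symm.dvd_of_dvd_mul_left h4
  rw [Finset.mem_range] at hi hj
  rcases Nat.lt_or_gt_of_ne hne with hlt | hlt
  · exact key i j hlt (by omega) heq
  · exact key j i hlt (by omega) heq.symm

/-- if `gcd n (gs q e) > e` the order of `q` is smaller than `n` -/
theorem exists_lt_dvd_gs (q n e : ℕ) (hn : 0 < n) (hcop : Nat.Coprime q n) (he : 0 < e)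
    (hgcd : e < Nat.gcd n (gs q e)) : ∃ i, 0 < i ∧ i < n ∧ n ∣ gs q i := by
  obtain ⟨m, hm⟩ : Nat.gcd n (gs q e) ∣ n := Nat.gcd_dvd_left _ _
  have hm0 : 0 < m := by
    rcases Nat.eq_zero_or_pos m with h | h
    · subst h
      simp at hm
      omega
    · exact h
  have hcop' : Nat.Coprime (q ^ e) m :=
    (hcop.coprime_dvd_right ⟨Nat.gcd n (gs q e), by rw [mul_comm]; exact hm⟩).pow_left e
  obtain ⟨j, hj0, hjm, hj⟩ := exists_dvd_gs (q ^ e) m hm0 hcop'
  refine ⟨e * j, Nat.mul_pos he hj0, ?_, ?_⟩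
  · calc e * j ≤ e * m := Nat.mul_le_mul_left e hjm
      _ < Nat.gcd n (gs q e) * m := Nat.mul_lt_mul_of_pos_right hgcd hm0
      _ = n := hm.symm
  · rw [gs_mul]
    conv_lhs => rw [hm]
    exact Nat.mul_dvd_mul (Nat.gcd_dvd_right _ _) hj

/-- minimal order `n` forces the Dickson condition -/
theorem dickson_of_order (q n : ℕ) (hq : 2 ≤ q) (hn : 1 < n) (h1 : n ∣ gs q n)
    (h2 : ∀ i, 0 < i → i < n → ¬ n ∣ gs q i) :
    (∀ r : ℕ, r.Prime → r ∣ n → r ∣ q - 1) ∧ (4 ∣ n → 4 ∣ q - 1) := by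
  have hcop : Nat.Coprime q n := by
    have h : gs q n = gs q 1 + q ^ 1 * gs q (n - 1) := by
      rw [← gs_add]
      congr 1
      omega
    have hc : Nat.Coprime q (gs q n) := by
      rw [h, gs_one, pow_one, Nat.coprime_add_mul_left_right]
      exact Nat.coprime_one_right q
    exact hc.coprime_dvd_right h1
  have hprime : ∀ r : ℕ, r.Prime → r ∣ n → r ∣ q - 1 := by
    intro r hr hrn
    by_contra hnd
    have hrq : Nat.Coprime q r := hcop.coprime_dvd_right hrn
    have hfer : q ^ (r - 1) ≡ 1 [MOD r] := by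
      have := Nat.ModEq.pow_totient hrq
      rwa [Nat.totient_prime hr] at this
    have hdvd : r ∣ gs q (r - 1) := by
      have h3 := gs_pred_mul q (r - 1) (by omega)
      have h4 : r ∣ q ^ (r - 1) - 1 :=
        (Nat.modEq_iff_dvd' (Nat.one_le_pow _ _ (by omega))).mp hfer.symm
      rw [← h3, Nat.add_sub_cancel] at h4
      exact (hr.dvd_mul.mp h4).resolve_left hnd
    have hr2 := hr.two_le
    obtain ⟨i, hi0, hin, hi⟩ := exists_lt_dvd_gs q n (r - 1) (by omega) hcop (by omega) (by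
      have h5 : r ∣ Nat.gcd n (gs q (r - 1)) := Nat.dvd_gcd hrn hdvd
      have h6 := Nat.le_of_dvd (Nat.gcd_pos_of_pos_left _ (by omega)) h5
      omega)
    exact h2 i hi0 hin hi
  refine ⟨hprime, fun h4 => ?_⟩
  by_contra hnd
  have h2q : 2 ∣ q - 1 := hprime 2 Nat.prime_two (dvd_trans (by norm_num) h4)
  have h4g : 4 ∣ gs q 2 := by
    rw [gs_two]
    omega
  obtain ⟨i, hi0, hin, hi⟩ := exists_lt_dvd_gs q n 2 (by omega) hcop (by norm_num) (by
    have h5 : 4 ∣ Nat.gcd n (gs q 2) := Nat.dvd_gcd h4 h4g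
    have h6 := Nat.le_of_dvd (Nat.gcd_pos_of_pos_left _ (by omega)) h5
    omega)
  exact h2 i hi0 hin hi

/-- `gs q r = r * u` with `u` prime to `q - 1`, for a prime `r ∣ q - 1` (`r` odd or `4 ∣ q - 1`) -/
theorem gs_prime_eq (q r : ℕ) (hq : 2 ≤ q) (hr : r.Prime) (hrq : r ∣ q - 1)
    (h : r ≠ 2 ∨ 4 ∣ q - 1) :
    ∃ u, gs q r = r * u ∧ ∀ s : ℕ, s.Prime → s ∣ q - 1 → ¬ s ∣ u := by
  have h0 : r ∣ gs q r := by
    have h1 := gs_modEq q r r (by omega) hrq
    exact (Nat.modEq_zero_iff_dvd).mp (h1.trans (by simp [Nat.ModEq]))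
  obtain ⟨u, hu⟩ := h0
  refine ⟨u, hu, ?_⟩
  intro s hs hsq hsu
  by_cases hsr : s = r
  · subst hsr
    have hsq2 : s ^ 2 ∣ gs q s := by
      rw [hu, pow_two]
      exact Nat.mul_dvd_mul_left s hsu
    rcases hs.eq_two_or_odd' with h2 | hodd
    · subst h2
      rcases h with h | h
      · exact h rfl
      · rw [gs_two] at hsq2
        omega
    · obtain ⟨b, hb⟩ := hsq
      have hqb : (q : ℤ) = 1 + s * b := by
        have : q = 1 + s * b := by omega
        exact_mod_cast this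
      have key := odd_sq_dvd_geom_sum₂_sub (R := ℤ) (p := s) 1 (b : ℤ) hodd
      simp only [one_pow, mul_one] at key
      rw [← hqb] at key
      have h1 : ((s : ℤ)) ^ 2 ∣ ((gs q s : ℕ) : ℤ) := by exact_mod_cast hsq2
      have h2 : ((gs q s : ℕ) : ℤ) = ∑ i ∈ Finset.range s, (q : ℤ) ^ i := by simp [gs]
      rw [h2] at h1
      have h3 : ((s : ℤ)) ^ 2 ∣ (s : ℤ) := by
        have := dvd_sub h1 key
        simpa using this
      have h4 : s ^ 2 ∣ s := by exact_mod_cast h3
      have h5 := Nat.le_of_dvd hs.pos h4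
      have := hs.two_le
      nlinarith
  · have h1 : s ∣ gs q r := by
      rw [hu]
      exact dvd_mul_of_dvd_right hsu r
    have h2 := gs_modEq q s r (by omega) hsq
    have h3 : s ∣ r :=
      (Nat.modEq_zero_iff_dvd).mp (h2.symm.trans ((Nat.modEq_zero_iff_dvd).mpr h1))
    exact hsr ((Nat.prime_dvd_prime_iff_eq hs hr).mp h3)

/-- the Dickson condition forces order exactly `n` -/
theorem order_of_dickson : ∀ n : ℕ, 0 < n → ∀ q : ℕ, 2 ≤ q →
    (∀ r : ℕ, r.Prime → r ∣ n → r ∣ q - 1) → (4 ∣ n → 4 ∣ q - 1) →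
    ∀ i : ℕ, (n ∣ gs q i ↔ n ∣ i) := by
  intro n
  induction n using Nat.strong_induction_on with
  | _ n ih =>
    intro hn q hq hD1 hD2 i
    rcases Nat.lt_or_ge n 2 with h | h
    · have : n = 1 := by omega
      subst this
      simp
    have hstep : ∀ r : ℕ, r.Prime → r ∣ n → (r ≠ 2 ∨ 4 ∣ q - 1) → (n ∣ gs q i ↔ n ∣ i) := by
      intro r hr hrn hr4
      have hrq : r ∣ q - 1 := hD1 r hr hrn
      obtain ⟨n', hn'⟩ := hrn
      have hn'pos : 0 < n' := by
        rcases Nat.eq_zero_or_pos n' with h0 | h0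
        · subst h0
          simp at hn'
          omega
        · exact h0
      have hn'lt : n' < n := by
        rw [hn']
        have := hr.two_le
        nlinarith
      obtain ⟨u, hu, hus⟩ := gs_prime_eq q r hq hr hrq hr4
      have hq' : 2 ≤ q ^ r := le_trans hq (Nat.le_self_pow hr.ne_zero q)
      have hqdvd : q - 1 ∣ q ^ r - 1 := by
        have := Nat.sub_dvd_pow_sub_pow q 1 r
        simpa using this
      have hD1' : ∀ s : ℕ, s.Prime → s ∣ n' → s ∣ q ^ r - 1 := fun s hs hsn =>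
        dvd_trans (hD1 s hs (hn' ▸ dvd_mul_of_dvd_right hsn r)) hqdvd
      have hD2' : 4 ∣ n' → 4 ∣ q ^ r - 1 := fun h4 =>
        dvd_trans (hD2 (hn' ▸ dvd_mul_of_dvd_right h4 r)) hqdvd
      have IH := ih n' hn'lt hn'pos (q ^ r) hq' hD1' hD2'
      have hcop : Nat.Coprime n' u := Nat.Coprime.symm (Nat.Coprime.symm
        (Nat.coprime_of_dvd (fun s hs hsn hsu =>
          hus s hs (hD1 s hs (hn' ▸ dvd_mul_of_dvd_right hsn r)) hsu)))
      constructor
      · intro hdvd
        have hri : r ∣ i := by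
          have h1 : r ∣ gs q i := dvd_trans ⟨n', hn'⟩ hdvd
          have h2 := gs_modEq q r i (by omega) hrq
          exact (Nat.modEq_zero_iff_dvd).mp (h2.symm.trans ((Nat.modEq_zero_iff_dvd).mpr h1))
        obtain ⟨j, rfl⟩ := hri
        rw [gs_mul, hu, hn', mul_assoc] at hdvd
        have h3 : n' ∣ u * gs (q ^ r) j := (Nat.mul_dvd_mul_iff_left hr.pos).mp hdvd
        have h4 : n' ∣ gs (q ^ r) j := hcop.dvd_of_dvd_mul_left h3
        rw [hn']
        exact Nat.mul_dvd_mul_left r ((IH j).mp h4)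
      · intro hdvd
        rw [hn'] at hdvd
        obtain ⟨j, rfl⟩ : r ∣ i := dvd_trans (dvd_mul_right r n') hdvd
        have h3 : n' ∣ j := (Nat.mul_dvd_mul_iff_left hr.pos).mp hdvd
        rw [gs_mul, hu, hn', mul_assoc]
        exact Nat.mul_dvd_mul_left r (dvd_mul_of_dvd_right ((IH j).mpr h3) u)
    by_cases hcase : 4 ∣ q - 1 ∨ ¬ 2 ∣ n
    · have hr := Nat.minFac_prime (by omega : n ≠ 1)
      apply hstep n.minFac hr (Nat.minFac_dvd n)
      rcases hcase with h4 | hodd
      · exact Or.inr h4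
      · left
        intro h2
        apply hodd
        rw [← h2]
        exact Nat.minFac_dvd n
    · push Not at hcase
      obtain ⟨h4, h2n⟩ := hcase
      have h4n : ¬ 4 ∣ n := fun h => h4 (hD2 h)
      obtain ⟨m, hm⟩ := h2n
      by_cases hm1 : m = 1
      · subst hm1
        have hn2 : n = 2 := by omega
        subst hn2
        have h2q : 2 ∣ q - 1 := hD1 2 Nat.prime_two (dvd_refl 2)
        have h5 := gs_modEq q 2 i (by omega) h2q
        constructor
        · intro h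
          exact (Nat.modEq_zero_iff_dvd).mp (h5.symm.trans ((Nat.modEq_zero_iff_dvd).mpr h))
        · intro h
          exact (Nat.modEq_zero_iff_dvd).mp (h5.trans ((Nat.modEq_zero_iff_dvd).mpr h))
      · have hr := Nat.minFac_prime hm1
        have hmodd : ¬ 2 ∣ m := by
          intro h2m
          apply h4n
          obtain ⟨m', rfl⟩ := h2m
          exact ⟨m', by omega⟩
        apply hstep m.minFac hr (dvd_trans (Nat.minFac_dvd m) ⟨2, by omega⟩)
        left
        intro h2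
        apply hmodd
        rw [← h2]
        exact Nat.minFac_dvd m

/-- the Dickson pair condition -/
theorem dickson_iff (q n : ℕ) (hq : 2 ≤ q) (hn : 1 < n) :
    ((∀ r : ℕ, r.Prime → r ∣ n → r ∣ q - 1) ∧ (4 ∣ n → 4 ∣ q - 1)) ↔
      (q ^ n ≡ 1 [MOD n * (q - 1)] ∧ ∀ i : ℕ, 0 < i → i < n → ¬ q ^ i ≡ 1 [MOD n * (q - 1)]) := by
  constructor
  · rintro ⟨hD1, hD2⟩
    have key := order_of_dickson n (by omega) q hq hD1 hD2
    refine ⟨(pow_modEq_one_iff q n n hq).mpr ((key n).mpr dvd_rfl), ?_⟩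
    intro i hi0 hin hcon
    have h1 := (key i).mp ((pow_modEq_one_iff q n i hq).mp hcon)
    have := Nat.le_of_dvd hi0 h1
    omega
  · rintro ⟨h1, h2⟩
    exact dickson_of_order q n hq hn ((pow_modEq_one_iff q n n hq).mp h1)
      (fun i hi0 hin hcon => h2 i hi0 hin ((pow_modEq_one_iff q n i hq).mpr hcon))

end Cfsg.Agent.Helper58
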