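import Mathlib
import Cfsg.Prelude.Def_GeometricClasses
import Cfsg.Prelude.Def_LieClassical
import Cfsg.Agent.Helper69.E4Def
import Cfsg.Agent.Helper69.E4UDef
import Cfsg.Agent.Helper97.UForm

set_option autoImplicit false

namespace Cfsg.Agent.Helper58
open Cfsg.Agent.Helper69 Cfsg.Agent.Helper97
open scoped Matrix

theorem e4u_adj3_h90 {F : Type*} [Field F] {q : ℕ} (σ : F ≃+* F) (hσ : IsSigma q σ) (δ : F)
    (hδ : δ * σ δ = 1) : ∃ ν : F, ν ≠ 0 ∧ ν = δ * σ ν := by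
  by_cases h : δ = -1
  · obtain ⟨c, hc0, hc⟩ := hσ.exists_trace_zero
    refine ⟨c, hc0, ?_⟩
    rw [hc, h]; ring
  · refine ⟨1 + δ, ?_, ?_⟩
    · intro h0
      exact h (by linear_combination h0)
    · rw [map_add, map_one, mul_add, hδ]; ring

theorem e4u_adjust_one {F : Type*} [Field F] {q : ℕ} (σ : F ≃+* F) (hσ : IsSigma q σ) (ω : F)
    (δ : F) (hδ : δ * σ δ = 1) :
    ∃ n₀ : Matrix (Fin 4) (Fin 4) F, n₀ * e4uD1 ω = e4uD1 ω * n₀ ∧
      n₀ᵀ * e4uJ1 F * n₀.map σ = e4uJ1 F ∧ n₀.det = δ := by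
  obtain ⟨ν, hν0, hν⟩ := e4u_adj3_h90 σ hσ δ hδ
  have hσν0 : σ ν ≠ 0 := by
    intro h0
    apply hν0
    rw [hν, h0, mul_zero]
  have hσσ : σ (σ ν) = ν := hσ.inv ν
  refine ⟨Matrix.diagonal ![ν, (σ ν)⁻¹, 1, 1], ?_, ?_, ?_⟩
  · unfold e4uD1
    rw [Matrix.diagonal_mul_diagonal, Matrix.diagonal_mul_diagonal]
    congr 1
    funext i
    fin_cases i <;> simp [mul_comm]
  · unfold e4uJ1
    rw [Matrix.diagonal_transpose]
    ext i j
    fin_cases i <;> fin_cases j <;>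
      simp [Matrix.mul_apply, Fin.sum_univ_four, Matrix.diagonal_apply, hσσ, hσν0, hν0]
  · rw [Matrix.det_diagonal, Fin.prod_univ_four]
    simp only [Matrix.cons_val_zero, Matrix.cons_val_one, Matrix.cons_val]
    have : ν * (σ ν)⁻¹ = δ := by
      field_simp
      linear_combination hν
    simpa using this

theorem e4u_adjust_two {F : Type*} [Field F] (σ : F ≃+* F) (ω : F) (δ : F)
    (hδ : δ * σ δ = 1) :
    ∃ n₀ : Matrix (Fin 4) (Fin 4) F, n₀ * e4uD2 ω = e4uD2 ω * n₀ ∧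
      n₀ᵀ * e4uJ2 F * n₀.map σ = e4uJ2 F ∧ n₀.det = δ := by
  refine ⟨Matrix.diagonal ![1, 1, δ, 1], ?_, ?_, ?_⟩
  · unfold e4uD2
    rw [Matrix.diagonal_mul_diagonal, Matrix.diagonal_mul_diagonal]
    congr 1
    funext i
    fin_cases i <;> simp [mul_comm]
  · unfold e4uJ2
    rw [Matrix.diagonal_transpose]
    ext i j
    fin_cases i <;> fin_cases j <;>
      simp [Matrix.mul_apply, Fin.sum_univ_four, Matrix.diagonal_apply, hδ]
  · rw [Matrix.det_diagonal, Fin.prod_univ_four]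
    simp

end Cfsg.Agent.Helper58
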