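import Mathlib
import Cfsg.Prelude.Def_GeometricClasses
import Cfsg.Prelude.Def_LieClassical
import Cfsg.Agent.Helper69.E4Def
import Cfsg.Agent.Helper69.E4UDef
import Cfsg.Agent.Helper97.UForm

set_option autoImplicit false

namespace Cfsg.Agent.Helper58
open Cfsg.Agent.Helper69 Cfsg.Agent.Helper97
open scoped Matrix

theorem e4u_canon_form_one {F : Type*} [Field F] (h3 : (3 : F) ≠ 0) (σ : F ≃+* F)
    (hσσ : ∀ x : F, σ (σ x) = x) (ω : F) (hω : ω ^ 2 + ω + 1 = 0) (hσω : σ ω = ω)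
    (y B₀ : Matrix (Fin 4) (Fin 4) F) (hU : yᵀ * y.map σ = 1) (hB₀ : B₀.det ≠ 0)
    (hy : y * B₀ = B₀ * e4uD1 ω) :
    ∃ B : Matrix (Fin 4) (Fin 4) F, y * B = B * e4uD1 ω ∧ Bᵀ * B.map σ = e4uJ1 F := by
  classical
  obtain ⟨G, hG⟩ : ∃ G : Matrix (Fin 4) (Fin 4) F, G = B₀ᵀ * B₀.map σ := ⟨_, rfl⟩
  have hω1 : ω ≠ 1 := by
    intro h
    rw [h] at hω
    apply h3
    linear_combination hω
  have hω3 : ω ^ 3 = 1 := by linear_combination (ω - 1) * hω
  have hω0 : ω ≠ 0 := by
    intro h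
    rw [h] at hω3
    simp at hω3
  have hω21 : ω ^ 2 ≠ 1 := by
    intro h
    apply hω1
    have : ω * ω ^ 2 = 1 := by linear_combination hω3
    rw [h, mul_one] at this
    exact this
  -- hermitian
  have hherm : ∀ i j, G j i = σ (G i j) := by
    intro i j
    simp only [hG, Matrix.mul_apply, Matrix.transpose_apply, Matrix.map_apply, map_sum, map_mul,
      hσσ]
    apply Finset.sum_congr rfl
    intro k _
    ring
  -- invariance
  have hDt : (e4uD1 ω)ᵀ = e4uD1 ω := by
    unfold e4uD1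
    exact Matrix.diagonal_transpose _
  have hDσ : (e4uD1 ω).map σ = e4uD1 ω := by
    unfold e4uD1
    ext i j
    fin_cases i <;> fin_cases j <;> simp [Matrix.diagonal_apply, hσω]
  have hinv : e4uD1 ω * G * e4uD1 ω = G := by
    have h1 : (y * B₀)ᵀ * (y * B₀).map σ = G := by
      rw [Matrix.transpose_mul, Matrix.map_mul, hG]
      calc B₀ᵀ * yᵀ * (y.map σ * B₀.map σ) = B₀ᵀ * (yᵀ * y.map σ) * B₀.map σ := by
            simp only [Matrix.mul_assoc]
        _ = B₀ᵀ * B₀.map σ := by rw [hU, Matrix.mul_one]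
    rw [hy, Matrix.transpose_mul, Matrix.map_mul, hDt, hDσ] at h1
    calc e4uD1 ω * G * e4uD1 ω = e4uD1 ω * B₀ᵀ * (B₀.map σ * e4uD1 ω) := by
          rw [hG]
          simp only [Matrix.mul_assoc]
      _ = G := h1
  have hent : ∀ i j, (![ω, ω ^ 2, ω, ω ^ 2] i) * G i j * (![ω, ω ^ 2, ω, ω ^ 2] j) = G i j := by
    intro i j
    have := congrFun (congrFun hinv i) j
    unfold e4uD1 at this
    rw [Matrix.mul_diagonal, Matrix.diagonal_mul] at this
    exact this
  have hz : ∀ i j, (![ω, ω ^ 2, ω, ω ^ 2] i) * (![ω, ω ^ 2, ω, ω ^ 2] j) ≠ 1 → G i j = 0 := by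
    intro i j hne
    have h := hent i j
    by_contra h0
    apply hne
    have : (![ω, ω ^ 2, ω, ω ^ 2] i * ![ω, ω ^ 2, ω, ω ^ 2] j - 1) * G i j = 0 := by
      linear_combination h
    rcases mul_eq_zero.mp this with h | h
    · exact sub_eq_zero.mp h
    · exact absurd h h0
  have hωω : ω * ω ≠ 1 := by rw [← pow_two]; exact hω21
  have hω4 : ω ^ 2 * ω ^ 2 ≠ 1 := by
    intro h
    apply hω1
    linear_combination h - ω * hω3
  have g00 : G 0 0 = 0 := hz 0 0 (by simpa using hωω)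
  have g02 : G 0 2 = 0 := hz 0 2 (by simpa using hωω)
  have g20 : G 2 0 = 0 := hz 2 0 (by simpa using hωω)
  have g22 : G 2 2 = 0 := hz 2 2 (by simpa using hωω)
  have g11 : G 1 1 = 0 := hz 1 1 (by simpa using hω4)
  have g13 : G 1 3 = 0 := hz 1 3 (by simpa using hω4)
  have g31 : G 3 1 = 0 := hz 3 1 (by simpa using hω4)
  have g33 : G 3 3 = 0 := hz 3 3 (by simpa using hω4)
  -- invertibility of G
  have hGdet : G.det ≠ 0 := by
    rw [hG, Matrix.det_mul, Matrix.det_transpose]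
    have : (B₀.map σ).det = σ B₀.det := by
      have := (RingHom.map_det (σ : F →+* F) B₀).symm
      simpa using this
    rw [this]
    exact mul_ne_zero hB₀ (by simpa using hB₀)
  have hGinv : G * G⁻¹ = 1 := Matrix.mul_nonsing_inv G (isUnit_iff_ne_zero.mpr hGdet)
  obtain ⟨H, hH⟩ : ∃ H : Matrix (Fin 4) (Fin 4) F, G * H = 1 := ⟨_, hGinv⟩
  have hH' : ∀ i j, G i 0 * H 0 j + G i 1 * H 1 j + G i 2 * H 2 j + G i 3 * H 3 j
      = (1 : Matrix (Fin 4) (Fin 4) F) i j := by
    intro i j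
    have := congrFun (congrFun hH i) j
    rw [Matrix.mul_apply, Fin.sum_univ_four] at this
    exact this
  have e1 : G 0 1 * H 1 0 + G 0 3 * H 3 0 = 1 := by
    have := hH' 0 0
    rw [g00, g02] at this
    simpa using this
  have e2 : G 0 1 * H 1 2 + G 0 3 * H 3 2 = 0 := by
    have := hH' 0 2
    rw [g00, g02] at this
    simpa using this
  have e3 : G 2 1 * H 1 0 + G 2 3 * H 3 0 = 0 := by
    have := hH' 2 0
    rw [g20, g22] at this
    simpa using this
  have e4 : G 2 1 * H 1 2 + G 2 3 * H 3 2 = 1 := by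
    have := hH' 2 2
    rw [g20, g22] at this
    simpa using this
  have e1' : σ (G 0 1) * σ (H 1 0) + σ (G 0 3) * σ (H 3 0) = 1 := by
    have := congrArg σ e1
    simpa using this
  have e2' : σ (G 0 1) * σ (H 1 2) + σ (G 0 3) * σ (H 3 2) = 0 := by
    have := congrArg σ e2
    simpa using this
  have e3' : σ (G 2 1) * σ (H 1 0) + σ (G 2 3) * σ (H 3 0) = 0 := by
    have := congrArg σ e3
    simpa using this
  have e4' : σ (G 2 1) * σ (H 1 2) + σ (G 2 3) * σ (H 3 2) = 1 := by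
    have := congrArg σ e4
    simpa using this
  obtain ⟨C, hC⟩ : ∃ C : Matrix (Fin 4) (Fin 4) F,
      C = !![1, 0, 0, 0; 0, σ (H 1 0), 0, σ (H 1 2); 0, 0, 1, 0; 0, σ (H 3 0), 0, σ (H 3 2)] :=
    ⟨_, rfl⟩
  have hCD : e4uD1 ω * C = C * e4uD1 ω := by
    unfold e4uD1
    rw [hC]
    ext i j
    fin_cases i <;> fin_cases j <;> simp [Matrix.mul_apply, Fin.sum_univ_four, mul_comm]
  refine ⟨B₀ * C, ?_, ?_⟩
  · rw [← Matrix.mul_assoc, hy, Matrix.mul_assoc, hCD, Matrix.mul_assoc]
  · rw [Matrix.transpose_mul, Matrix.map_mul]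
    have : Cᵀ * B₀ᵀ * (B₀.map σ * C.map σ) = Cᵀ * G * C.map σ := by
      rw [hG]
      simp only [Matrix.mul_assoc]
    rw [this]
    have hGform : G = !![0, G 0 1, 0, G 0 3; σ (G 0 1), 0, σ (G 2 1), 0; 0, G 2 1, 0, G 2 3;
        σ (G 0 3), 0, σ (G 2 3), 0] := by
      ext i j
      fin_cases i <;> fin_cases j <;>
        simp [g00, g02, g20, g22, g11, g13, g31, g33, hherm 0 1, hherm 2 1, hherm 0 3,
          hherm 2 3]
    rw [hGform, hC]
    unfold e4uJ1
    ext i j
    fin_cases i <;> fin_cases j <;>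
      simp [Matrix.mul_apply, Fin.sum_univ_four, hσσ] <;>
      first
        | exact e1 | exact e2 | exact e3 | exact e4 | exact e1' | exact e2' | exact e3' | exact e4'
        | linear_combination e1 | linear_combination e2 | linear_combination e3
        | linear_combination e4 | linear_combination e1' | linear_combination e2'
        | linear_combination e3' | linear_combination e4'

end Cfsg.Agent.Helper58
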