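import Mathlib
import Cfsg.Agent.Helper90.HTDefs

set_option autoImplicit false

/-!
# CALL S5953 (helper90), PIECE CNTAR: the arithmetic of the count of totally isotropic subspaces.
-/

namespace Cfsg.Agent.Helper58.HT5953

open Module Polynomial Cfsg.Agent.Helper90.HT

/-- CNTAR (pure arithmetic) -/
theorem ht_cnt_ar (p f q n m N : ℕ) (hp : p.Prime) (hf : 1 ≤ f) (hq : q = p ^ f) (hm : 1 ≤ m)
    (hmn : 2 * m ≤ n)
    (h : (N : ℤ) * ∏ j ∈ Finset.range m, (((q : ℤ) ^ 2) ^ m - ((q : ℤ) ^ 2) ^ j) =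
      ∏ j ∈ Finset.range m, ((q : ℤ) ^ (2 * j) *
        (((q : ℤ) ^ (n - 2 * j) - (-1) ^ (n - 2 * j)) *
          ((q : ℤ) ^ (n - 2 * j - 1) - (-1) ^ (n - 2 * j - 1))))) :
    ¬ p ∣ N ∧ ∀ r : ℕ, r.Prime → r ∣ N →
      ∃ j, n + 1 ≤ j + 2 * m ∧ j ≤ n ∧ r ∣ (if Even j then q ^ j - 1 else q ^ j + 1) := by
  have hq0 : 0 < q := by
    rw [hq]
    exact pow_pos hp.pos f
  have hqz : (q : ℤ) ≠ 0 := by exact_mod_cast hq0.ne'
  have hpq : (p : ℤ) ∣ (q : ℤ) := by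
    rw [hq]
    push_cast
    exact dvd_pow_self _ (by omega)
  have e1 : ∏ j ∈ Finset.range m, (((q : ℤ) ^ 2) ^ m - ((q : ℤ) ^ 2) ^ j) =
      (∏ j ∈ Finset.range m, (q : ℤ) ^ (2 * j)) *
        ∏ j ∈ Finset.range m, ((q : ℤ) ^ (2 * (m - j)) - 1) := by
    rw [← Finset.prod_mul_distrib]
    apply Finset.prod_congr rfl
    intro j hj
    rw [Finset.mem_range] at hj
    rw [← pow_mul, ← pow_mul, mul_sub, mul_one, ← pow_add]
    congr 2
    omega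
  have e2 : ∏ j ∈ Finset.range m, ((q : ℤ) ^ (2 * j) *
        (((q : ℤ) ^ (n - 2 * j) - (-1) ^ (n - 2 * j)) *
          ((q : ℤ) ^ (n - 2 * j - 1) - (-1) ^ (n - 2 * j - 1)))) =
      (∏ j ∈ Finset.range m, (q : ℤ) ^ (2 * j)) *
        ∏ j ∈ Finset.range m, (((q : ℤ) ^ (n - 2 * j) - (-1) ^ (n - 2 * j)) *
          ((q : ℤ) ^ (n - 2 * j - 1) - (-1) ^ (n - 2 * j - 1))) :=
    Finset.prod_mul_distrib
  have hA : (∏ j ∈ Finset.range m, (q : ℤ) ^ (2 * j)) ≠ 0 :=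
    Finset.prod_ne_zero_iff.mpr (fun j _ => pow_ne_zero _ hqz)
  have h' : (N : ℤ) * ∏ j ∈ Finset.range m, ((q : ℤ) ^ (2 * (m - j)) - 1) =
      ∏ j ∈ Finset.range m, (((q : ℤ) ^ (n - 2 * j) - (-1) ^ (n - 2 * j)) *
          ((q : ℤ) ^ (n - 2 * j - 1) - (-1) ^ (n - 2 * j - 1))) := by
    rw [e1, e2] at h
    apply mul_left_cancel₀ hA
    rw [← h]
    ring
  have hfac : ∀ k : ℕ, 1 ≤ k → ¬ (p : ℤ) ∣ (q : ℤ) ^ k - (-1) ^ k := by
    intro k hk hdvd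
    have h1 : (p : ℤ) ∣ (q : ℤ) ^ k := dvd_trans hpq (dvd_pow_self _ (by omega))
    have h2 : (p : ℤ) ∣ (-1) ^ k := by
      have := dvd_sub h1 hdvd
      rwa [sub_sub_cancel] at this
    have h3 : (p : ℤ) ∣ 1 := dvd_trans h2 ⟨(-1) ^ k, by rw [← mul_pow]; norm_num⟩
    have h4 : p ∣ 1 := Int.natCast_dvd_natCast.mp (by exact_mod_cast h3)
    exact hp.one_lt.ne' (Nat.dvd_one.mp h4)
  have hkey : ∀ r : ℕ, r.Prime → r ∣ N →
      ∃ k, n + 1 ≤ k + 2 * m ∧ k ≤ n ∧ 1 ≤ k ∧ (r : ℤ) ∣ (q : ℤ) ^ k - (-1) ^ k := by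
    intro r hr hrN
    have hrz : Prime (r : ℤ) := Nat.prime_iff_prime_int.mp hr
    have h1 : (r : ℤ) ∣ ∏ j ∈ Finset.range m, (((q : ℤ) ^ (n - 2 * j) - (-1) ^ (n - 2 * j)) *
          ((q : ℤ) ^ (n - 2 * j - 1) - (-1) ^ (n - 2 * j - 1))) := by
      rw [← h']
      exact dvd_mul_of_dvd_left (Int.natCast_dvd_natCast.mpr hrN) _
    rw [hrz.dvd_finset_prod_iff] at h1
    obtain ⟨j, hj, hdj⟩ := h1
    rw [Finset.mem_range] at hj
    rcases hrz.dvd_or_dvd hdj with h2 | h2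
    · exact ⟨n - 2 * j, by omega, by omega, by omega, h2⟩
    · exact ⟨n - 2 * j - 1, by omega, by omega, by omega, h2⟩
  constructor
  · intro hpN
    obtain ⟨k, -, -, hk1, hk⟩ := hkey p hp hpN
    exact hfac k hk1 hk
  · intro r hr hrN
    obtain ⟨k, hk1, hk2, hk3, hk⟩ := hkey r hr hrN
    refine ⟨k, hk1, hk2, ?_⟩
    have hqk : 1 ≤ q ^ k := Nat.one_le_pow _ _ hq0
    by_cases hev : Even k
    · rw [if_pos hev]
      rw [hev.neg_one_pow] at hk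
      apply Int.natCast_dvd_natCast.mp
      rw [Nat.cast_sub hqk]
      push_cast
      exact hk
    · rw [if_neg hev]
      rw [(Nat.not_even_iff_odd.mp hev).neg_one_pow, sub_neg_eq_add] at hk
      apply Int.natCast_dvd_natCast.mp
      push_cast
      exact hk

end Cfsg.Agent.Helper58.HT5953
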