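import Cfsg.Agent.Helper58.PGroupFix
import Cfsg.Agent.Helper58.PrimeDeg
import Cfsg.Agent.S0670
import Cfsg.Prelude.Def_Perm

set_option autoImplicit false

namespace Cfsg.Agent.Helper58

open Cfsg

section heart

variable {G : Type*} [Group G] [Finite G] {K : Type*} [Field K] {p f : ℕ} [Fact p.Prime]
  [CharP K p] {Ω : Type*} [Fintype Ω] [MulAction G Ω] [MulAction.IsPretransitive G Ω]

omit [Finite G] [Fact p.Prime] [CharP K p] [MulAction.IsPretransitive G Ω] in
theorem sum_permRep (g : G) (m : Ω → K) : ∑ x, (permRep K G Ω g m) x = ∑ x, m x :=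
  Fintype.sum_equiv (MulAction.toPerm g⁻¹) _ _ (fun _ => rfl)

/-- every proper subrepresentation of the permutation module of a transitive group of degree
`p ^ f` in characteristic `p` lies in the sum-zero submodule -/
theorem le_sumZero_of_ne_top (hf : 1 ≤ f) (hcard : Fintype.card Ω = p ^ f)
    (W : Subrepresentation (permRep K G Ω)) (hW : W.toSubmodule ≠ ⊤) :
    W.toSubmodule ≤ (permSumZero K G Ω).toSubmodule := by
  classical
  let O : Subrepresentation (permRep K G Ω) :=
    { toSubmodule := (dotForm Ω K).orthogonal W.toSubmodule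
      apply_mem_toSubmodule := by
        intro g v hv
        have h1 := orthogonal_invariant W.toSubmodule (MulAction.toPerm g⁻¹) (fun m hm => by
          have h2 := W.apply_mem_toSubmodule g⁻¹ hm
          have h3 : (fun x => m ((MulAction.toPerm (g⁻¹ : G)).symm x)) = permRep K G Ω g⁻¹ m := by
            funext x
            change m ((MulAction.toPerm (g⁻¹ : G)).symm x) = m (g⁻¹⁻¹ • x)
            rw [inv_inv]
            congr 1
            rw [Equiv.symm_apply_eq]
            simp
          rw [h3]
          exact h2) v hv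
        exact h1 }
  have hO : O.toSubmodule ≠ ⊥ := by
    intro h0
    have hfin := LinearMap.BilinForm.finrank_orthogonal (dotForm_nondegenerate (α := Ω) (K := K))
      W.toSubmodule
    have h1 : Module.finrank K ((dotForm Ω K).orthogonal W.toSubmodule) = 0 := by
      have : (dotForm Ω K).orthogonal W.toSubmodule = ⊥ := h0
      rw [this]
      simp
    rw [h1] at hfin
    have h2 : Module.finrank K W.toSubmodule < Module.finrank K (Ω → K) := by
      exact Submodule.finrank_lt hW
    omega
  have hC := Cfsg.Agent.S0670.result hf hcard O hO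
  have h1 : (fun _ => 1 : Ω → K) ∈ (dotForm Ω K).orthogonal W.toSubmodule := by
    apply hC
    exact Submodule.subset_span rfl
  rw [LinearMap.BilinForm.mem_orthogonal_iff] at h1
  intro w hw
  have h2 := h1 w hw
  rw [dotForm_apply] at h2
  change ∑ x, w x = 0
  simpa using h2

/-- the key dichotomy: under the "no trivial composition factor in the heart" hypothesis, an
equivariant endomorphism of the permutation module killing the constants is a multiple of the
all-one matrix -/
theorem endo_eq_smul_sum (hf : 1 ≤ f) (hcard : Fintype.card Ω = p ^ f)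
    (h : ∀ W W' : Subrepresentation (Cfsg.permRep K G Ω),
      (Cfsg.permConstants K G Ω).toSubmodule ≤ W.toSubmodule →
      W.toSubmodule < W'.toSubmodule →
      W'.toSubmodule ≤ (Cfsg.permSumZero K G Ω).toSubmodule →
      ∃ g : G, ∃ v ∈ W'.toSubmodule, Cfsg.permRep K G Ω g v - v ∉ W.toSubmodule)
    (φ : (Ω → K) →ₗ[K] (Ω → K))
    (hφ : ∀ g m, φ (permRep K G Ω g m) = permRep K G Ω g (φ m))
    (hker : φ (fun _ => 1) = 0) :
    ∃ c : K, ∀ m, φ m = fun _ => c * ∑ x, m x := by
  classical
  have hpos : 0 < Fintype.card Ω := by rw [hcard]; exact pow_pos (Fact.out : p.Prime).pos f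
  obtain ⟨a⟩ : Nonempty Ω := Fintype.card_pos_iff.mp hpos
  let W' : Subrepresentation (permRep K G Ω) :=
    { toSubmodule := LinearMap.range φ
      apply_mem_toSubmodule := by
        rintro g _ ⟨m, rfl⟩
        exact ⟨permRep K G Ω g m, hφ g m⟩ }
  let W : Subrepresentation (permRep K G Ω) :=
    { toSubmodule := Submodule.map φ (permSumZero K G Ω).toSubmodule
      apply_mem_toSubmodule := by
        rintro g _ ⟨m, hm, rfl⟩
        exact ⟨permRep K G Ω g m, (permSumZero K G Ω).apply_mem_toSubmodule g hm, hφ g m⟩ }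
  let Kφ : Subrepresentation (permRep K G Ω) :=
    { toSubmodule := LinearMap.ker φ
      apply_mem_toSubmodule := by
        intro g v hv
        rw [LinearMap.mem_ker] at hv ⊢
        rw [hφ, hv, map_zero] }
  have hWW' : W.toSubmodule ≤ W'.toSubmodule := LinearMap.map_le_range
  have hone : (fun _ => 1 : Ω → K) ≠ 0 := by
    intro h0
    have := congrFun h0 a
    simp at this
  have hW'top : W'.toSubmodule ≠ ⊤ := by
    intro htop
    have hsurj : Function.Surjective φ := LinearMap.range_eq_top.mp htop
    have hinj : Function.Injective φ := LinearMap.injective_iff_surjective.mpr hsurj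
    exact hone (hinj (by rw [hker, map_zero]))
  have hW'S := le_sumZero_of_ne_top hf hcard W' hW'top
  have hsingle : ∑ x, (Pi.single a (1 : K) : Ω → K) x = 1 := by
    simp
  by_cases heq : W.toSubmodule = W'.toSubmodule
  · by_cases hktop : Kφ.toSubmodule = ⊤
    · refine ⟨0, fun m => ?_⟩
      have : m ∈ LinearMap.ker φ := by
        have : m ∈ Kφ.toSubmodule := by rw [hktop]; trivial
        exact this
      rw [LinearMap.mem_ker.mp this]
      funext x
      simp
    · exfalso
      have hKS := le_sumZero_of_ne_top hf hcard Kφ hktop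
      have h1 : φ (Pi.single a 1) ∈ W.toSubmodule := by
        rw [heq]
        exact ⟨_, rfl⟩
      obtain ⟨s, hs, hsφ⟩ := h1
      have h2 : Pi.single a 1 - s ∈ LinearMap.ker φ := by
        rw [LinearMap.mem_ker, map_sub, hsφ, sub_self]
      have h3 := hKS h2
      have h4 : ∑ x, (Pi.single a (1 : K) - s : Ω → K) x = 0 := h3
      have h5 : ∑ x, s x = 0 := hs
      simp only [Pi.sub_apply, Finset.sum_sub_distrib] at h4
      rw [hsingle, h5] at h4
      simp at h4
  · have hlt : W.toSubmodule < W'.toSubmodule := lt_of_le_of_ne hWW' heq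
    by_cases hC : (permConstants K G Ω).toSubmodule ≤ W.toSubmodule
    · exfalso
      obtain ⟨g, v, hv, hnot⟩ := h W W' hC hlt hW'S
      obtain ⟨m, rfl⟩ := hv
      apply hnot
      refine ⟨permRep K G Ω g m - m, ?_, ?_⟩
      · change ∑ x, (permRep K G Ω g m - m) x = 0
        simp only [Pi.sub_apply, Finset.sum_sub_distrib]
        rw [sum_permRep, sub_self]
      · rw [map_sub, hφ]
    · have hbot : W.toSubmodule = ⊥ := by
        by_contra hne
        exact hC (Cfsg.Agent.S0670.result hf hcard W hne)
      have hS0 : ∀ s : Ω → K, ∑ x, s x = 0 → φ s = 0 := by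
        intro s hs
        have : φ s ∈ W.toSubmodule := ⟨s, hs, rfl⟩
        rw [hbot] at this
        simpa using this
      set u := φ (Pi.single a 1) with hu
      have hφm : ∀ m : Ω → K, φ m = (∑ x, m x) • u := by
        intro m
        have h1 : φ (m - (∑ x, m x) • Pi.single a 1) = 0 := by
          apply hS0
          simp only [Pi.sub_apply, Pi.smul_apply, smul_eq_mul, Finset.sum_sub_distrib,
            ← Finset.mul_sum]
          rw [hsingle, mul_one, sub_self]
        rw [map_sub, map_smul, sub_eq_zero] at h1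
        exact h1
      have hfix : ∀ g : G, permRep K G Ω g u = u := by
        intro g
        rw [hu, ← hφ, hφm, sum_permRep, hsingle, one_smul]
      have hconst : ∀ x, u x = u a := by
        intro x
        obtain ⟨g, hg⟩ := MulAction.exists_smul_eq G x a
        have h1 := congrFun (hfix g⁻¹) x
        have h2 : (permRep K G Ω g⁻¹ u) x = u (g • x) := by
          change u (g⁻¹⁻¹ • x) = u (g • x)
          rw [inv_inv]
        rw [h2, hg] at h1
        exact h1.symm
      refine ⟨u a, fun m => ?_⟩
      rw [hφm]
      funext x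
      simp [hconst x, mul_comm]

/-- **No trivial composition factor in the heart implies double transitivity.** -/
theorem two_transitive_of_heart (hf : 1 ≤ f) (hcard : Fintype.card Ω = p ^ f)
    (h : ∀ W W' : Subrepresentation (Cfsg.permRep K G Ω),
      (Cfsg.permConstants K G Ω).toSubmodule ≤ W.toSubmodule →
      W.toSubmodule < W'.toSubmodule →
      W'.toSubmodule ≤ (Cfsg.permSumZero K G Ω).toSubmodule →
      ∃ g : G, ∃ v ∈ W'.toSubmodule, Cfsg.permRep K G Ω g v - v ∉ W.toSubmodule) :
    MulAction.IsMultiplyPretransitive G Ω 2 := by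
  classical
  rw [MulAction.is_two_pretransitive_iff]
  by_contra hcon
  push Not at hcon
  obtain ⟨x, y, x', y', hxy, hx'y', hno⟩ := hcon
  let Δ : Ω → Ω → Prop := fun u v => ∃ g : G, g • x = u ∧ g • y = v
  have hΔ : ∀ (g : G) (u v : Ω), Δ (g • u) (g • v) ↔ Δ u v := by
    intro g u v
    constructor
    · rintro ⟨k, hk1, hk2⟩
      refine ⟨g⁻¹ * k, ?_, ?_⟩
      · rw [mul_smul, hk1, inv_smul_smul]
      · rw [mul_smul, hk2, inv_smul_smul]
    · rintro ⟨k, hk1, hk2⟩
      refine ⟨g * k, ?_, ?_⟩
      · rw [mul_smul, hk1]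
      · rw [mul_smul, hk2]
  let M : Matrix Ω Ω K := Matrix.of fun u v => if Δ u v then 1 else 0
  let kk : Ω → ℕ := fun u => (Finset.univ.filter (fun v => Δ u v)).card
  have hkk : ∀ (g : G) (u : Ω), kk (g • u) = kk u := by
    intro g u
    symm
    apply Finset.card_bij (fun v _ => g • v)
    · intro v hv
      simp only [Finset.mem_filter, Finset.mem_univ, true_and] at hv ⊢
      exact (hΔ g u v).mpr hv
    · intro v _ w _ hvw
      exact MulAction.injective g hvw
    · intro w hw
      simp only [Finset.mem_filter, Finset.mem_univ, true_and] at hw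
      refine ⟨g⁻¹ • w, ?_, smul_inv_smul g w⟩
      simp only [Finset.mem_filter, Finset.mem_univ, true_and]
      rw [← hΔ g, smul_inv_smul]
      exact hw
  have hkk' : ∀ u, kk u = kk x := by
    intro u
    obtain ⟨g, rfl⟩ := MulAction.exists_smul_eq G x u
    exact hkk g x
  let φ : (Ω → K) →ₗ[K] (Ω → K) := Matrix.mulVecLin M - (kk x : K) • LinearMap.id
  have hφapp : ∀ (m : Ω → K) (u : Ω),
      φ m u = (∑ v, if Δ u v then m v else 0) - (kk x : K) * m u := by
    intro m u
    change (M.mulVec m) u - (kk x : K) * m u = _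
    congr 1
    simp only [Matrix.mulVec, dotProduct, M, Matrix.of_apply]
    refine Finset.sum_congr rfl (fun v _ => ?_)
    split_ifs <;> simp
  have hker : φ (fun _ => 1) = 0 := by
    funext u
    rw [hφapp]
    simp only [Pi.zero_apply, mul_one]
    rw [Finset.sum_ite, Finset.sum_const_zero, add_zero, Finset.sum_const, nsmul_eq_mul, mul_one]
    change ((kk u : ℕ) : K) - (kk x : K) = 0
    rw [hkk' u, sub_self]
  have hφ : ∀ g m, φ (permRep K G Ω g m) = permRep K G Ω g (φ m) := by
    intro g m
    funext u
    change φ (permRep K G Ω g m) u = φ m (g⁻¹ • u)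
    rw [hφapp, hφapp]
    congr 1
    refine Fintype.sum_equiv (MulAction.toPerm g⁻¹) _ _ (fun v => ?_)
    change (if Δ u v then m (g⁻¹ • v) else 0) = if Δ (g⁻¹ • u) (g⁻¹ • v) then m (g⁻¹ • v) else 0
    have := hΔ g⁻¹ u v
    by_cases hd : Δ u v
    · rw [if_pos hd, if_pos (this.mpr hd)]
    · rw [if_neg hd, if_neg (fun h' => hd (this.mp h'))]
  obtain ⟨c, hc⟩ := endo_eq_smul_sum hf hcard h φ hφ hker
  have hnΔ : ¬ Δ x' y' := by
    rintro ⟨g, hg1, hg2⟩
    exact hno g hg1 hg2
  have hyes : Δ x y := ⟨1, one_smul _ _, one_smul _ _⟩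
  have e1 := congrFun (hc (Pi.single y' 1)) x'
  rw [hφapp] at e1
  have hc0 : c = 0 := by
    have hs : ∑ v, (Pi.single y' (1 : K) : Ω → K) v = 1 := by simp
    rw [hs, mul_one] at e1
    rw [← e1]
    have h1 : (∑ v, if Δ x' v then (Pi.single y' (1 : K) : Ω → K) v else 0) = 0 := by
      apply Finset.sum_eq_zero
      intro v _
      by_cases hv : v = y'
      · subst hv
        rw [if_neg hnΔ]
      · rw [Pi.single_eq_of_ne hv]
        simp
    rw [h1, Pi.single_eq_of_ne hx'y']
    simp
  have e2 := congrFun (hc (Pi.single y 1)) x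
  rw [hφapp, hc0, zero_mul, Pi.single_eq_of_ne hxy, mul_zero, sub_zero] at e2
  have h2 : (∑ v, if Δ x v then (Pi.single y (1 : K) : Ω → K) v else 0) = 1 := by
    rw [Finset.sum_eq_single y]
    · rw [if_pos hyes, Pi.single_eq_same]
    · intro v _ hv
      rw [Pi.single_eq_of_ne hv]
      simp
    · intro hy
      exact absurd (Finset.mem_univ y) hy
  rw [h2] at e2
  exact one_ne_zero e2

end heart

end Cfsg.Agent.Helper58
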