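import Mathlib
import Cfsg.Agent.Helper58.Dihedral

/-!
# Two actions of prime degree with a common dihedral subgroup (helper58)

* `dihedral_coords`: permutations `s` (of order `p`) and `u` (`u² = 1`, `u s = s⁻¹ u`) of a set with `p`
  elements (`p` odd) are `j ↦ j + 1` and `j ↦ -j` in suitable coordinates.
* `index_p_core`: let `G` act on `α ≃ ZMod p` (2-transitively) and on `β ≃ ZMod p`, with elements `t`, `τ`
  acting as `j ↦ j + 1`, `j ↦ -j` on both.  Then the stabiliser of `e 0` either fixes `e' 0` or is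
  transitive on `β`  (no non-trivial symmetric difference set in `ZMod p`: parity argument).
-/

set_option autoImplicit false

namespace Cfsg.Agent.Helper58

section

variable {p : ℕ} [Fact p.Prime]

theorem dihedral_coords {β : Type*} [Fintype β] (h2ne : (2 : ZMod p) ≠ 0)
    (hβ : Fintype.card β = p) (s u : Equiv.Perm β) (hs : orderOf s = p)
    (hus : u * s = s⁻¹ * u) :
    ∃ e : ZMod p ≃ β, (∀ j : ZMod p, s (e j) = e (j + 1)) ∧ (∀ j : ZMod p, u (e j) = e (-j)) := by
  obtain ⟨e₀, he₀⟩ := cycle_equiv_of_orderOf hβ s hs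
  set c := e₀.symm (u (e₀ 0)) with hc
  have hpow : ∀ n : ℕ, u * s ^ n = (s⁻¹) ^ n * u := by
    intro n
    induction n with
    | zero => simp
    | succ n ih =>
      rw [pow_succ, ← mul_assoc, ih, mul_assoc, hus, ← mul_assoc, ← pow_succ]
  have hinvpow : ∀ (n : ℕ) (j : ZMod p), ((s⁻¹) ^ n) (e₀ j) = e₀ (j - (n : ZMod p)) := by
    intro n
    induction n with
    | zero => intro j; simp
    | succ n ih =>
      intro j
      rw [pow_succ', Equiv.Perm.mul_apply, ih, cycle_inv_apply e₀ s he₀]
      congr 1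
      push_cast
      ring
  have hu : ∀ j : ZMod p, u (e₀ j) = e₀ (c - j) := by
    intro j
    have h1 : e₀ j = (s ^ j.val) (e₀ 0) := by
      rw [cycle_pow_apply e₀ s he₀, zero_add, ZMod.natCast_zmod_val]
    have h3 : u (e₀ 0) = e₀ c := by rw [hc, Equiv.apply_symm_apply]
    rw [h1, ← Equiv.Perm.mul_apply, hpow, Equiv.Perm.mul_apply, h3, hinvpow, ZMod.natCast_zmod_val]
  refine ⟨(Equiv.addRight (c * 2⁻¹)).trans e₀, ?_, ?_⟩
  · intro j
    show s (e₀ (j + c * 2⁻¹)) = e₀ (j + 1 + c * 2⁻¹)
    rw [he₀]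
    congr 1
    ring
  · intro j
    show u (e₀ (j + c * 2⁻¹)) = e₀ (-j + c * 2⁻¹)
    rw [hu]
    congr 1
    field_simp
    ring

/-- the stabiliser of a point in one action fixes a point of the other, or is transitive there -/
theorem index_p_core {G : Type*} [Group G] {α β : Type*} [MulAction G α] [MulAction G β]
    (h2ne : (2 : ZMod p) ≠ 0) (e : ZMod p ≃ α) (e' : ZMod p ≃ β) (t τ : G)
    (het : ∀ j : ZMod p, t • e j = e (j + 1)) (heτ : ∀ j : ZMod p, τ • e j = e (-j))
    (het' : ∀ j : ZMod p, t • e' j = e' (j + 1)) (heτ' : ∀ j : ZMod p, τ • e' j = e' (-j))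
    (h2 : MulAction.IsMultiplyPretransitive G α 2) :
    (∀ g : G, g • e 0 = e 0 → g • e' 0 = e' 0) ∨
      (∀ j : ZMod p, ∃ g : G, g • e 0 = e 0 ∧ g • e' 0 = e' j) := by
  classical
  let Δ : α → β → Prop := fun x y => ∃ g : G, g • e 0 = x ∧ g • e' 0 = y
  let D : ZMod p → Prop := fun j => Δ (e 0) (e' j)
  have hD : ∀ j, D j ↔ ∃ g : G, g • e 0 = e 0 ∧ g • e' 0 = e' j := fun j => Iff.rfl
  have hΔg : ∀ (g : G) x y, Δ x y → Δ (g • x) (g • y) := by
    rintro g x y ⟨g₀, rfl, rfl⟩
    exact ⟨g * g₀, mul_smul _ _ _, mul_smul _ _ _⟩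
  have hΔg' : ∀ (g : G) x y, Δ (g • x) (g • y) ↔ Δ x y := by
    intro g x y
    refine ⟨fun h => ?_, hΔg g x y⟩
    have := hΔg g⁻¹ _ _ h
    rwa [inv_smul_smul, inv_smul_smul] at this
  have hτ0 : τ • e 0 = e 0 := by rw [heτ, neg_zero]
  have hτ0' : τ • e' 0 = e' 0 := by rw [heτ', neg_zero]
  have hDneg : ∀ j, D j → D (-j) := by
    intro j hj
    have := hΔg τ _ _ hj
    rwa [hτ0, heτ'] at this
  have htpow : ∀ (n : ℕ) (j : ZMod p), t ^ n • e j = e (j + (n : ZMod p)) := by
    intro n
    induction n with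
    | zero => intro j; simp
    | succ n ih =>
      intro j
      rw [pow_succ', mul_smul, ih, het]
      congr 1
      push_cast
      ring
  have htpow' : ∀ (n : ℕ) (j : ZMod p), t ^ n • e' j = e' (j + (n : ZMod p)) := by
    intro n
    induction n with
    | zero => intro j; simp
    | succ n ih =>
      intro j
      rw [pow_succ', mul_smul, ih, het']
      congr 1
      push_cast
      ring
  have hDshift : ∀ d j : ZMod p, D (j - d) ↔ Δ (e d) (e' j) := by
    intro d j
    have h1 := hΔg' (t ^ d.val) (e 0) (e' (j - d))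
    rw [htpow, htpow', ZMod.natCast_zmod_val, zero_add, sub_add_cancel] at h1
    exact h1.symm
  let S : ZMod p → Finset (ZMod p) := fun d => Finset.univ.filter (fun j => D j ∧ D (j - d))
  have hS : ∀ d j, j ∈ S d ↔ D j ∧ D (j - d) := by
    intro d j
    simp [S]
  have hconst : ∀ d d' : ZMod p, d ≠ 0 → d' ≠ 0 → (S d).card = (S d').card := by
    intro d d' hd hd'
    have h2' : ∀ {y z y' z' : α}, y ≠ z → y' ≠ z' → ∃ g : G, g • y = y' ∧ g • z = z' :=
      fun h h' => MulAction.is_two_pretransitive_iff.mp h2 h h'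
    obtain ⟨g, hg0, hgd⟩ := h2' (show e 0 ≠ e d from fun h => hd (e.injective h).symm)
      (show e 0 ≠ e d' from fun h => hd' (e.injective h).symm)
    let E : ZMod p ≃ ZMod p := e'.trans ((MulAction.toPerm g).trans e'.symm)
    have hE : ∀ j, e' (E j) = g • e' j := by
      intro j
      simp [E]
    apply Finset.card_equiv E
    intro j
    rw [hS, hS, hDshift, hDshift, hE]
    show Δ (e 0) (e' j) ∧ Δ (e d) (e' j) ↔ Δ (e 0) (e' (E j)) ∧ Δ (e d') (g • e' j)
    rw [hE]
    constructor
    · rintro ⟨h1, h2⟩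
      refine ⟨?_, ?_⟩
      · have := hΔg g _ _ h1
        rwa [hg0] at this
      · have := hΔg g _ _ h2
        rwa [hgd] at this
    · rintro ⟨h1, h2⟩
      refine ⟨?_, ?_⟩
      · rw [← hg0] at h1
        exact (hΔg' g _ _).mp h1
      · rw [← hgd] at h2
        exact (hΔg' g _ _).mp h2
  -- parity: `j ↦ d - j` is an involution of `S d` whose only fixed point is `d / 2`
  have hpar : ∀ d : ZMod p, Even ((S d).erase (d * 2⁻¹)).card := by
    intro d
    have hsum : ∑ _x ∈ (S d).erase (d * 2⁻¹), (1 : ZMod 2) = 0 := by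
      apply Finset.sum_involution (fun j _ => d - j)
      · intro a _
        decide
      · intro a ha _ hfix
        rw [Finset.mem_erase] at ha
        apply ha.1
        have h3 : (2 : ZMod p) * a = d := by linear_combination -hfix
        rw [← h3]
        field_simp
      · intro a ha
        rw [Finset.mem_erase, hS] at ha ⊢
        obtain ⟨hane, ha1, ha2⟩ := ha
        refine ⟨?_, ?_, ?_⟩
        · intro h
          apply hane
          have h3 : (2 : ZMod p) * a = d := by
            have : d * 2⁻¹ * 2 = d := by field_simp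
            linear_combination (-2 : ZMod p) * h - this
          rw [← h3]
          field_simp
        · have := hDneg _ ha2
          rwa [neg_sub] at this
        · have := hDneg _ ha1
          have e1 : d - a - d = -a := by ring
          rwa [e1]
      · intro a _
        ring
    rw [Finset.sum_const, nsmul_eq_mul, mul_one] at hsum
    rw [even_iff_two_dvd]
    exact (ZMod.natCast_eq_zero_iff _ 2).mp hsum
  have hcard : ∀ d : ZMod p, (S d).card = ((S d).erase (d * 2⁻¹)).card + if D (d * 2⁻¹) then 1 else 0 := by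
    intro d
    by_cases hd : D (d * 2⁻¹)
    · have hmem : d * 2⁻¹ ∈ S d := by
        rw [hS]
        refine ⟨hd, ?_⟩
        have := hDneg _ hd
        have e1 : d * 2⁻¹ - d = -(d * 2⁻¹) := by
          field_simp
          ring
        rwa [e1]
      rw [if_pos hd, Finset.card_erase_of_mem hmem]
      have := Finset.card_pos.mpr ⟨_, hmem⟩
      omega
    · have hmem : d * 2⁻¹ ∉ S d := by
        rw [hS]
        exact fun h => hd h.1
      rw [if_neg hd, Finset.erase_eq_of_notMem hmem, add_zero]
  -- membership in `D` is constant on non-zero residues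
  have hDconst : ∀ j j' : ZMod p, j ≠ 0 → j' ≠ 0 → (D j ↔ D j') := by
    intro j j' hj hj'
    have h1 := hcard (2 * j)
    have h2 := hcard (2 * j')
    have e1 : 2 * j * 2⁻¹ = j := by field_simp
    have e2 : 2 * j' * 2⁻¹ = j' := by field_simp
    rw [e1] at h1
    rw [e2] at h2
    have h3 := hconst (2 * j) (2 * j') (mul_ne_zero h2ne hj) (mul_ne_zero h2ne hj')
    have hp1 := hpar (2 * j)
    have hp2 := hpar (2 * j')
    rw [e1] at hp1
    rw [e2] at hp2
    rw [even_iff_two_dvd] at hp1 hp2
    by_cases hDj : D j <;> by_cases hDj' : D j'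
    · exact ⟨fun _ => hDj', fun _ => hDj⟩
    · rw [if_pos hDj] at h1
      rw [if_neg hDj'] at h2
      omega
    · rw [if_neg hDj] at h1
      rw [if_pos hDj'] at h2
      omega
    · exact ⟨fun h => absurd h hDj, fun h => absurd h hDj'⟩
  by_cases hD1 : D 1
  · right
    intro j
    by_cases hj : j = 0
    · rw [hj]
      exact ⟨1, one_smul _ _, one_smul _ _⟩
    · exact (hDconst 1 j one_ne_zero hj).mp hD1
  · left
    intro g hg
    by_contra hne
    have hj : e'.symm (g • e' 0) ≠ 0 := by
      intro h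
      apply hne
      have h' := congrArg e' h
      rwa [Equiv.apply_symm_apply] at h'
    apply hD1
    apply (hDconst _ 1 hj one_ne_zero).mp
    exact ⟨g, hg, by rw [Equiv.apply_symm_apply]⟩

end

end Cfsg.Agent.Helper58
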