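/-
helper58, CALL S4648 piece I: if every element of the block algebra is a combination, with central
coefficients, of `card ι` fixed elements, then `χ(1)^2 ≤ card ι` for every `χ` in the block.
-/
import Mathlib
import Cfsg.Agent.Helper77.K2Block
import Cfsg.Agent.Helper16.ConvAlg
import Cfsg.Agent.Helper81.CharBasic

set_option autoImplicit false
open Cfsg Cfsg.Agent.Helper77
open scoped ComplexConjugate

namespace Cfsg.Agent.Helper58

universe u v w

section kulI

variable {G : Type u} [Group G] [Fintype G]

/-- The matrix of left convolution by a function. -/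
noncomputable def kulConvMatrix (e : G → ℂ) : Matrix G G ℂ := fun g h => e (g * h⁻¹)

theorem kulConvMatrix_mulVec (e a : G → ℂ) :
    (kulConvMatrix e).mulVec a = Helper81.conv e a := by
  funext g
  show ∑ h : G, e (g * h⁻¹) * a h = ∑ x : G, e x * a (x⁻¹ * g)
  rw [← Equiv.sum_comp ((Equiv.inv G).trans (Equiv.mulLeft g)) (fun x => e x * a (x⁻¹ * g))]
  refine Finset.sum_congr rfl fun h _ => ?_
  simp only [Equiv.trans_apply, Equiv.inv_apply, Equiv.coe_mulLeft]
  have e1 : (g * h⁻¹)⁻¹ * g = h := by group
  rw [e1]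

/-- The rank of left convolution by an idempotent is `|G| e(1)`. -/
theorem kul_rank_conv_idem (e : G → ℂ) (he : Helper81.conv e e = e) :
    (((kulConvMatrix e).rank : ℕ) : ℂ) = (Nat.card G : ℂ) * e 1 := by
  classical
  set Q : Matrix G G ℂ := kulConvMatrix e with hQ
  have hidem : IsIdempotentElem (Matrix.toLin' Q) := by
    show Matrix.toLin' Q * Matrix.toLin' Q = Matrix.toLin' Q
    apply LinearMap.ext
    intro a
    rw [Module.End.mul_apply, Matrix.toLin'_apply, Matrix.toLin'_apply, kulConvMatrix_mulVec,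
      kulConvMatrix_mulVec, ← Helper16.conv_assoc, he]
  have htr := (LinearMap.IsIdempotentElem.isProj_range _ hidem).trace
  rw [Matrix.trace_toLin'_eq] at htr
  have hrank : Q.rank = Module.finrank ℂ (LinearMap.range (Matrix.toLin' Q)) := rfl
  rw [hrank, ← htr, Matrix.trace]
  have h1 : ∀ g : G, Q.diag g = e 1 := by
    intro g
    show e (g * g⁻¹) = _
    rw [mul_inv_cancel]
  rw [Finset.sum_congr rfl fun g _ => h1 g, Finset.sum_const, Finset.card_univ,
    Nat.card_eq_fintype_card, nsmul_eq_mul]

theorem kul_conv_smul_left (d : ℂ) (a c : G → ℂ) :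
    Helper81.conv (d • a) c = d • Helper81.conv a c := by
  funext g
  simp only [Helper81.conv, Pi.smul_apply, smul_eq_mul, Finset.mul_sum]
  refine Finset.sum_congr rfl fun x _ => ?_
  ring

variable {M : Ideal Cfsg.AlgInt} (hM : M.IsMaximal)

theorem kul_degree_le {B : Set (Cfsg.IrrCharacter G)} (hB : Cfsg.IsPBlock M B)
    {ι : Type w} [Fintype ι] (u : ι → ConvAlg (ResField M hM) G)
    (hgen : ∀ x : ConvAlg (ResField M hM) G, redIdem hM B * x = x →
      ∃ z : ι → ConvAlg (ResField M hM) G, (∀ i y, z i * y = y * z i) ∧ x = ∑ i, z i * u i)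
    (χ : Cfsg.IrrCharacter G) (hχ : χ ∈ B) :
    Cfsg.charDegree (χ : G → ℂ) ^ 2 ≤ Fintype.card ι := by
  classical
  haveI : Fintype (ConjClasses G) := Fintype.ofFinite _
  set e : G → ℂ := Cfsg.blockCoeff B with he
  have heR : ∀ g, Cfsg.MemLocalRing M (e g) := blockCoeff_memLocalRing hM hB
  have heC : Cfsg.IsClassFunction G e := blockCoeff_isClassFunction B
  set eχ : G → ℂ := Cfsg.blockCoeff {χ} with heχ
  have heχC : Cfsg.IsClassFunction G eχ := blockCoeff_isClassFunction _
  have hKC : ∀ g : G, Cfsg.IsClassFunction G (Helper81.classInd g) :=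
    Helper81.classInd_isClassFunction
  have hKR : ∀ g x : G, Cfsg.MemLocalRing M (Helper81.classInd g x) := classInd_memLocalRing hM
  set U : ι → G → ℂ := fun i => liftFun hM (u i) with hU
  have hUR : ∀ i g, Cfsg.MemLocalRing M (U i g) := fun i g => liftFun_mem hM (u i) g
  have hUred : ∀ i, redFun hM (U i) = u i := fun i => redFun_liftFun hM (u i)
  set Φ : ConjClasses G × ι → G → ℂ := fun j =>
    Helper81.conv (Helper81.conv e (Helper81.classInd (Quotient.out j.1))) (U j.2) with hΦ
  have heKR : ∀ (c : ConjClasses G) (x : G),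
      Cfsg.MemLocalRing M (Helper81.conv e (Helper81.classInd (Quotient.out c)) x) :=
    fun c x => Helper81.conv_mem (localSubring M hM) heR (hKR _) x
  have hΦR : ∀ j g, Cfsg.MemLocalRing M (Φ j g) := fun j g =>
    Helper81.conv_mem (localSubring M hM) (heKR j.1) (hUR j.2) g
  have hΦred : ∀ j, redFun hM (Φ j)
      = redIdem hM B * redFun hM (Helper81.classInd (Quotient.out j.1)) * u j.2 := by
    intro j
    show redFun hM (Helper81.conv (Helper81.conv e (Helper81.classInd (Quotient.out j.1)))
      (U j.2)) = _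
    rw [redFun_conv hM (heKR j.1) (hUR j.2), redFun_conv hM heR (hKR _), hUred]
    rfl
  -- the reductions span the block algebra
  set f : ConjClasses G × ι → ConvAlg (ResField M hM) G := fun j => redFun hM (Φ j) with hf
  set W : Submodule (ResField M hM) (ConvAlg (ResField M hM) G) :=
    LinearMap.range (LinearMap.mulLeft (ResField M hM) (redIdem hM B)) with hW
  have hcls : ∀ z : ConvAlg (ResField M hM) G, (∀ y, z * y = y * z) →
      z = ∑ c : ConjClasses G,
        z (Quotient.out c) • redFun hM (Helper81.classInd (Quotient.out c)) := by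
    intro z hz
    have hzc := (ConvAlg.central_iff z).mp hz
    ext g
    rw [ConvAlg.sum_apply, Finset.sum_eq_single (ConjClasses.mk g)]
    · rw [ConvAlg.smul_apply, redFun_apply]
      have h0 : ConjClasses.mk (Quotient.out (ConjClasses.mk g)) = ConjClasses.mk g :=
        Quotient.out_eq _
      have h1 : IsConj (Quotient.out (ConjClasses.mk g)) g :=
        ConjClasses.mk_eq_mk_iff_isConj.mp h0
      have h2 : Helper81.classInd (Quotient.out (ConjClasses.mk g)) g = 1 := by
        simp only [Helper81.classInd]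
        rw [if_pos h1]
      rw [h2, resMap_one, mul_one]
      obtain ⟨t, ht⟩ := isConj_iff.mp h1
      have h4 := hzc (Quotient.out (ConjClasses.mk g)) t
      rw [ht] at h4
      exact h4
    · intro c _ hc
      rw [ConvAlg.smul_apply, redFun_apply]
      have h0 : ConjClasses.mk (Quotient.out c) = c := Quotient.out_eq c
      have h1 : ¬ IsConj (Quotient.out c) g := by
        intro h
        apply hc
        rw [← h0]
        exact ConjClasses.mk_eq_mk_iff_isConj.mpr h
      have h2 : Helper81.classInd (Quotient.out c) g = 0 := by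
        simp only [Helper81.classInd]
        rw [if_neg h1]
      rw [h2, resMap_zero, mul_zero]
    · intro h
      exact absurd (Finset.mem_univ _) h
  have hWspan : W ≤ Submodule.span (ResField M hM) (Set.range f) := by
    rintro _ ⟨x, rfl⟩
    rw [LinearMap.mulLeft_apply]
    have hy : redIdem hM B * (redIdem hM B * x) = redIdem hM B * x := by
      rw [← mul_assoc, redIdem_mul_self hM hB]
    obtain ⟨z, hzc, hz⟩ := hgen _ hy
    have h1 : redIdem hM B * x = ∑ i, redIdem hM B * (z i * u i) := by
      rw [← Finset.mul_sum, ← hz, hy]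
    rw [h1]
    refine Submodule.sum_mem _ fun i _ => ?_
    have h2 : redIdem hM B * (z i * u i)
        = ∑ c : ConjClasses G, z i (Quotient.out c) • f (c, i) := by
      conv_lhs => rw [hcls (z i) (hzc i)]
      rw [Finset.sum_mul, Finset.mul_sum]
      refine Finset.sum_congr rfl fun c _ => ?_
      show _ = z i (Quotient.out c) • redFun hM (Φ (c, i))
      rw [hΦred, smul_mul_assoc, mul_smul_comm, mul_assoc]
    rw [h2]
    exact Submodule.sum_mem _ fun c _ =>
      Submodule.smul_mem _ _ (Submodule.subset_span ⟨(c, i), rfl⟩)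
  have hfW : ∀ j, f j ∈ W := by
    intro j
    refine ⟨redFun hM (Helper81.classInd (Quotient.out j.1)) * u j.2, ?_⟩
    rw [LinearMap.mulLeft_apply]
    show _ = redFun hM (Φ j)
    rw [hΦred, mul_assoc]
  have hspanW : Submodule.span (ResField M hM) (Set.range f) = W := by
    apply le_antisymm
    · apply Submodule.span_le.mpr
      rintro _ ⟨j, rfl⟩
      exact hfW j
    · exact hWspan
  -- a basis among the reductions
  obtain ⟨b, hbt, hbspan, hbli⟩ := exists_linearIndependent (ResField M hM) (Set.range f)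
  have hfin : Finite b := hbli.finite
  haveI : Fintype b := Fintype.ofFinite b
  have hcardb : Fintype.card b = Module.finrank (ResField M hM) W := by
    have h0 := finrank_span_eq_card hbli
    rw [Subtype.range_coe, hbspan, hspanW] at h0
    exact h0.symm
  have hcol : ∀ x : b, ∃ j : ConjClasses G × ι, f j = (x : ConvAlg (ResField M hM) G) :=
    fun x => hbt x.2
  choose j hj using hcol
  have hli' : LinearIndependent (ResField M hM)
      (fun x : b => fun g => resHom M hM (⟨Φ (j x) g, hΦR (j x) g⟩ : localSubring M hM)) := by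
    have h0 : (fun x : b => fun g =>
          resHom M hM (⟨Φ (j x) g, hΦR (j x) g⟩ : localSubring M hM))
        = (ConvAlg.linEquivFun (ResField M hM) G).toLinearMap ∘
          (fun x : b => (x : ConvAlg (ResField M hM) G)) := by
      funext x g
      show _ = (x : ConvAlg (ResField M hM) G) g
      rw [← hj x]
      show _ = redFun hM (Φ (j x)) g
      rw [redFun_apply, resMap_of_mem hM (hΦR (j x) g)]
    rw [h0]
    exact hbli.map' _ (LinearEquiv.ker _)
  have hC : LinearIndependent ℂ (fun x : b => Φ (j x)) :=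
    Lead.k2_li_lift (resHom M hM) (localSubring M hM).subtype Subtype.val_injective
      (fun x g => (⟨Φ (j x) g, hΦR (j x) g⟩ : localSubring M hM)) hli'
  -- the lifts span `e * ℂG`
  have hrankQ := kul_rank_conv_idem e (conv_blockCoeff B)
  have hrankW := finrank_range_mulLeft_redIdem hM hB
  have hcardQ : Fintype.card b = (kulConvMatrix e).rank := by
    have h1 : ((Fintype.card b : ℕ) : ℂ) = (((kulConvMatrix e).rank : ℕ) : ℂ) := by
      rw [hcardb, hrankQ]
      exact hrankW
    exact_mod_cast h1
  set V : Submodule ℂ (G → ℂ) := LinearMap.range (Matrix.toLin' (kulConvMatrix e)) with hV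
  have hVmem : ∀ a : G → ℂ, Helper81.conv e a ∈ V := by
    intro a
    refine ⟨a, ?_⟩
    rw [Matrix.toLin'_apply, kulConvMatrix_mulVec]
  have hspanV : Submodule.span ℂ (Set.range (fun x : b => Φ (j x))) = V := by
    apply Submodule.eq_of_le_of_finrank_le
    · apply Submodule.span_le.mpr
      rintro _ ⟨x, rfl⟩
      show Helper81.conv (Helper81.conv e (Helper81.classInd (Quotient.out (j x).1)))
        (U (j x).2) ∈ V
      rw [Helper16.conv_assoc]
      exact hVmem _
    · rw [finrank_span_eq_card hC, hcardQ]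
      exact le_of_eq rfl
  -- multiply by the idempotent of `χ`
  have hχe : Helper81.conv eχ e = eχ := by
    apply eq_of_omega_eq (Helper81.conv_isClassFunction heχC heC) heχC
    intro ψ
    rw [Helper81.omega_conv ψ heχC heC]
    by_cases hψ : ψ = χ
    · subst hψ
      rw [omega_blockCoeff_of_mem hχ, mul_one]
    · rw [omega_blockCoeff_of_not_mem (B := ({χ} : Set (Cfsg.IrrCharacter G)))
        (fun h => hψ (Set.mem_singleton_iff.mp h)), zero_mul]
  have hχK : ∀ g : G, Helper81.conv eχ (Helper81.classInd g)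
      = Helper81.omega (χ : G → ℂ) (Helper81.classInd g) • eχ := by
    intro g
    have hcl : Cfsg.IsClassFunction G (Helper81.omega (χ : G → ℂ) (Helper81.classInd g) • eχ) := by
      intro x h
      simp only [Pi.smul_apply]
      rw [heχC x h]
    apply eq_of_omega_eq (Helper81.conv_isClassFunction heχC (hKC g)) hcl
    intro ψ
    rw [Helper81.omega_conv ψ heχC (hKC g), Helper81.omega_smul]
    by_cases hψ : ψ = χ
    · subst hψ
      rw [omega_blockCoeff_of_mem (B := ({ψ} : Set (Cfsg.IrrCharacter G)))
        (Set.mem_singleton ψ), one_mul, mul_one]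
    · rw [omega_blockCoeff_of_not_mem (B := ({χ} : Set (Cfsg.IrrCharacter G)))
        (fun h => hψ (Set.mem_singleton_iff.mp h)), zero_mul, mul_zero]
  set Lχ : (G → ℂ) →ₗ[ℂ] (G → ℂ) := Matrix.toLin' (kulConvMatrix eχ) with hLχ
  have hLχ_apply : ∀ a : G → ℂ, Lχ a = Helper81.conv eχ a := by
    intro a
    rw [hLχ, Matrix.toLin'_apply, kulConvMatrix_mulVec]
  set S : Submodule ℂ (G → ℂ) :=
    Submodule.span ℂ (Set.range (fun i : ι => Helper81.conv eχ (U i))) with hS
  have hLΦ : ∀ jj : ConjClasses G × ι, Lχ (Φ jj) ∈ S := by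
    intro jj
    rw [hLχ_apply]
    show Helper81.conv eχ (Helper81.conv (Helper81.conv e
      (Helper81.classInd (Quotient.out jj.1))) (U jj.2)) ∈ S
    rw [← Helper16.conv_assoc, ← Helper16.conv_assoc, hχe, hχK, kul_conv_smul_left]
    exact Submodule.smul_mem _ _ (Submodule.subset_span ⟨jj.2, rfl⟩)
  have hVS : V ≤ S.comap Lχ := by
    rw [← hspanV]
    apply Submodule.span_le.mpr
    rintro _ ⟨x, rfl⟩
    exact hLΦ (j x)
  have hrangeS : LinearMap.range Lχ ≤ S := by
    rintro _ ⟨a, rfl⟩
    have h1 : Lχ a = Lχ (Helper81.conv e a) := by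
      rw [hLχ_apply, hLχ_apply, ← Helper16.conv_assoc, hχe]
    rw [h1]
    exact hVS (hVmem a)
  have h1 : Module.finrank ℂ (LinearMap.range Lχ) ≤ Fintype.card ι :=
    le_trans (Submodule.finrank_mono hrangeS) (finrank_range_le_card _)
  -- the rank of the idempotent of `χ`
  have hrankχ := kul_rank_conv_idem eχ (conv_blockCoeff ({χ} : Set (Cfsg.IrrCharacter G)))
  have hd := Helper81.irr_one_eq_charDegree χ
  have heχ1 : eχ 1 = (Nat.card G : ℂ)⁻¹ *
      ((Cfsg.charDegree (χ : G → ℂ) : ℂ) * (Cfsg.charDegree (χ : G → ℂ) : ℂ)) := by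
    show Cfsg.blockCoeff {χ} 1 = _
    rw [Cfsg.blockCoeff, finsum_mem_singleton, hd, Complex.conj_natCast]
  have hcard : (Nat.card G : ℂ) ≠ 0 := by
    simp [Nat.card_eq_fintype_card]
  have h2 : (kulConvMatrix eχ).rank = Cfsg.charDegree (χ : G → ℂ) ^ 2 := by
    have h3 : (((kulConvMatrix eχ).rank : ℕ) : ℂ)
        = ((Cfsg.charDegree (χ : G → ℂ) ^ 2 : ℕ) : ℂ) := by
      rw [hrankχ, heχ1, ← mul_assoc, mul_inv_cancel₀ hcard, one_mul]
      push_cast
      ring
    exact_mod_cast h3
  have h3 : (kulConvMatrix eχ).rank = Module.finrank ℂ (LinearMap.range Lχ) := rfl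
  rw [← h2, h3]
  exact h1

end kulI

end Cfsg.Agent.Helper58
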