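import Mathlib
import Cfsg.Agent.Lead.LWDefs
import Cfsg.Agent.Helper58.LWT1

/-! # CALL S0747 piece T2 (seat helper58): the pointwise stabiliser of a `k`-set as a four-point
stabiliser of the group induced by the stabiliser of `k - 4` points on the complement. -/

set_option autoImplicit false
set_option linter.unusedSectionVars false

namespace Cfsg.Agent.Helper58.LWT2

open Cfsg.Agent.Lead.LW Cfsg.Agent.Helper58.LWT1

variable {α : Type*} [Fintype α] [DecidableEq α]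

-- PIECE T2
theorem exists_emb_stab (G : Subgroup (Equiv.Perm α)) (k : ℕ) (hk : 4 ≤ k) (Γ : Finset α)
    (hΓ : Γ.card = k) :
    ∃ (Γ₀ : Finset α) (x : Fin 4 ↪ ↥Γ₀ᶜ), Γ₀.card + 4 = k ∧
      Nat.card (pstab G Γ) = Nat.card (MulAction.stabilizer (induced (pstab G Γ₀) Γ₀ᶜ) x) := by
  classical
  obtain ⟨Γ₀, hsub, hcard⟩ := Finset.exists_subset_card_eq (s := Γ) (n := k - 4) (by omega)
  have hdiff : (Γ \ Γ₀).card = 4 := by
    rw [Finset.card_sdiff_of_subset hsub, hΓ, hcard]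
    omega
  have e : Fin 4 ≃ ↥(Γ \ Γ₀) := (Fintype.equivFinOfCardEq (by rw [Fintype.card_coe, hdiff])).symm
  obtain ⟨x, hx⟩ : ∃ x : Fin 4 ↪ ↥Γ₀ᶜ, ∀ i, (x i : α) = (e i : α) :=
    ⟨⟨fun i => ⟨(e i : α), Finset.mem_compl.2 (Finset.mem_sdiff.1 (e i).2).2⟩,
      fun i i' h => e.injective (Subtype.ext (congrArg (fun z : ↥Γ₀ᶜ => (z : α)) h))⟩,
      fun i => rfl⟩
  refine ⟨Γ₀, x, by omega, ?_⟩
  have hΓeq : ∀ a, a ∈ Γ ↔ a ∈ Γ₀ ∨ ∃ i, (x i : α) = a := by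
    intro a
    constructor
    · intro ha
      by_cases h0 : a ∈ Γ₀
      · exact Or.inl h0
      · right
        refine ⟨e.symm ⟨a, Finset.mem_sdiff.2 ⟨ha, h0⟩⟩, ?_⟩
        rw [hx, Equiv.apply_symm_apply]
    · rintro (h0 | ⟨i, rfl⟩)
      · exact hsub h0
      · rw [hx]
        exact (Finset.mem_sdiff.1 (e i).2).1
  have hmem : ∀ g : ↥(pstab G Γ), ∀ a ∈ Γ₀, (g : Equiv.Perm α) a = a :=
    fun g a ha => g.2.2 a (hsub ha)
  apply Nat.card_congr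
  apply Equiv.ofBijective (fun g : ↥(pstab G Γ) =>
    (⟨⟨Equiv.Perm.subtypePerm g.1 (pres_compl g.1 Γ₀ (hmem g)),
      ⟨g.1, ⟨g.2.1, hmem g⟩, fun z => rfl⟩⟩, by
        rw [MulAction.mem_stabilizer_iff]
        refine DFunLike.ext _ _ (fun i => Subtype.ext ?_)
        exact g.2.2 _ ((hΓeq _).2 (Or.inr ⟨i, rfl⟩))⟩ :
      ↥(MulAction.stabilizer (↥(induced (pstab G Γ₀) Γ₀ᶜ)) x)))
  constructor
  · intro g g' hgg
    apply Subtype.ext
    ext a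
    by_cases ha : a ∈ Γ₀
    · rw [hmem g a ha, hmem g' a ha]
    · have h1 := congrArg (fun s : ↥(MulAction.stabilizer (↥(induced (pstab G Γ₀) Γ₀ᶜ)) x) =>
        ((s.1.1 ⟨a, Finset.mem_compl.2 ha⟩ : ↥Γ₀ᶜ) : α)) hgg
      exact h1
  · rintro ⟨⟨σ, g, ⟨hgG, hgΓ₀⟩, hgσ⟩, hσx⟩
    have hfix : ∀ i, σ (x i) = x i := by
      intro i
      have h1 := congrArg (fun e : Fin 4 ↪ ↥Γ₀ᶜ => e i) (MulAction.mem_stabilizer_iff.1 hσx)
      exact h1
    refine ⟨⟨g, hgG, fun a ha => ?_⟩, ?_⟩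
    · rcases (hΓeq a).1 ha with h0 | ⟨i, rfl⟩
      · exact hgΓ₀ a h0
      · rw [hgσ (x i), hfix i]
    · apply Subtype.ext
      apply Subtype.ext
      ext z
      exact hgσ z

end Cfsg.Agent.Helper58.LWT2
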