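import Mathlib
import Cfsg.Agent.Lead.LWDefs
import Cfsg.Agent.Helper58.LWG1b

/-! # CALL S0747 piece T3 (seat helper58): a sharply 4-transitive group of degree 11 and
order 7920 has trivial 4-point stabilisers. -/

set_option autoImplicit false

namespace Cfsg.Agent.Helper58.LWT3

open Cfsg.Agent.Lead.LW Cfsg.Agent.Helper58.LWG1b

variable {α : Type*} [Fintype α] [DecidableEq α]

-- PIECE T3
theorem card_stabilizer_eq_one {β : Type*} [Fintype β] [DecidableEq β] (H : Subgroup (Equiv.Perm β))
    (hH : KTrans H 4) (x : Fin 4 ↪ β) (hc : Fintype.card β = 11) (hcard : Nat.card H = 7920) :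
    Nat.card (MulAction.stabilizer H x) = 1 := by
  have hpre : MulAction.IsMultiplyPretransitive (↥H) β 4 := pretransitive_of_ktrans H 4 hH
  have h1 := @MulAction.index_stabilizer_of_transitive (↥H) (Fin 4 ↪ β) _ _ x hpre
  have h2 : Nat.card (Fin 4 ↪ β) = 7920 := by
    rw [Nat.card_eq_fintype_card, Fintype.card_embedding_eq, hc, Fintype.card_fin]
    rfl
  have h3 := Subgroup.card_mul_index (MulAction.stabilizer (↥H) x)
  rw [h1, h2, hcard] at h3
  omega

end Cfsg.Agent.Helper58.LWT3
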