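import Mathlib
import Cfsg.Agent.Lead.LWDefs
import Cfsg.Agent.S4221
import Cfsg.Agent.Helper58.LWG1b
import Cfsg.Agent.Helper58.LWT1
import Cfsg.Agent.Helper58.LWT2
import Cfsg.Agent.Helper58.LWT3

/-! # CALL S0747 piece T4 (seat helper58): odd stabiliser of a `k`-set in a `k`-transitive group
(via S4221). -/

set_option autoImplicit false
set_option linter.unusedSectionVars false

namespace Cfsg.Agent.Helper58.LWT4

open Cfsg.Agent.Lead.LW Cfsg.Agent.Helper58.LWG1b Cfsg.Agent.Helper58.LWT1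
  Cfsg.Agent.Helper58.LWT2 Cfsg.Agent.Helper58.LWT3

variable {α : Type*} [Fintype α] [DecidableEq α]

-- PIECE T4  (assembly: T1 T2 T3 G1b + S4221)
theorem card_of_odd (G : Subgroup (Equiv.Perm α)) (k : ℕ) (hk : 4 ≤ k) (hG : KTrans G k)
    (Γ : Finset α) (hΓ : Γ.card = k) (hodd : Odd (Nat.card (pstab G Γ))) :
    Fintype.card α ≤ k + 3 ∨ (Fintype.card α = k + 7 ∧ pstab G Γ = ⊥) := by
  obtain ⟨Γ₀, x, hcard₀, hst⟩ := exists_emb_stab G k hk Γ hΓ
  have hH4 : KTrans (induced (pstab G Γ₀) Γ₀ᶜ) 4 := ktrans_induced_compl G k hG Γ₀ 4 hcard₀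
  have hpre := pretransitive_of_ktrans _ 4 hH4
  rw [hst] at hodd
  have hn : Fintype.card ↥Γ₀ᶜ + Γ₀.card = Fintype.card α := by
    rw [Fintype.card_coe, Finset.card_compl]
    have h1 := Finset.card_le_univ Γ₀
    omega
  rcases Cfsg.Agent.S4221.result (induced (pstab G Γ₀) Γ₀ᶜ) hpre x hodd with
    ⟨h | h, -⟩ | ⟨h | h, -⟩ | ⟨h, hc⟩
  · left; omega
  · left; omega
  · left; omega
  · left; omega
  · right
    refine ⟨by omega, ?_⟩
    apply Subgroup.eq_bot_of_card_eq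
    rw [hst]
    exact card_stabilizer_eq_one _ hH4 x h hc

end Cfsg.Agent.Helper58.LWT4
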