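import Mathlib
import Cfsg.Agent.Lead.LWDefs
import Cfsg.Agent.Lead.LWMain
import Cfsg.Agent.Helper58.LWG1a
import Cfsg.Agent.Helper58.LWG1b
import Cfsg.Agent.Helper58.LWT4

/-! # Livingstone–Wagner: the "alternating step" (seat helper58)

A `j`-transitive (`j ≥ 4`), `(j+1)`-homogeneous group of degree `n ≥ j + 4` is `(j+1)`-transitive,
or `n = j + 7` and it is sharply `j`-transitive.  Consequences: the induction step of S0746 for
`k ≥ 6`, and S0748 from S0746. -/

set_option autoImplicit false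
set_option linter.unusedSectionVars false

namespace Cfsg.Agent.Helper58.LWStep

open Cfsg.Agent.Lead.LW
open scoped Pointwise

variable {α : Type*} [Fintype α] [DecidableEq α]

/-- elementwise form of homogeneity. -/
theorem hom_sets (G : Subgroup (Equiv.Perm α)) (m : ℕ)
    (hh : MulAction.IsPretransitive G (Set.powersetCard α m)) (S T : Finset α)
    (hS : S.card = m) (hT : T.card = m) : ∃ g ∈ G, ∀ a, g a ∈ T ↔ a ∈ S := by
  obtain ⟨g, hg⟩ := MulAction.exists_smul_eq (↥G)
    (⟨S, Set.powersetCard.mem_iff.mpr hS⟩ : Set.powersetCard α m)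
    ⟨T, Set.powersetCard.mem_iff.mpr hT⟩
  have h1 : ((g : Equiv.Perm α) • S : Finset α) = T := by
    have := congrArg (fun s : Set.powersetCard α m => (s : Finset α)) hg
    dsimp only at this
    rw [Subgroup.smul_def, Set.powersetCard.coe_smul] at this
    exact this
  refine ⟨g.1, g.2, fun a => ?_⟩
  rw [← h1]
  have e : g.1 a = (g : Equiv.Perm α) • a := rfl
  rw [e, Finset.smul_mem_smul_finset_iff]

/-- the alternating group together with one transposition gives the symmetric group. -/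
theorem sym_of_alt_swap (G : Subgroup (Equiv.Perm α)) (Δ : Finset α)
    (halt : ∀ σ : Equiv.Perm ↥Δ, σ ∈ alternatingGroup ↥Δ → ∃ g ∈ G, ∀ x : ↥Δ, g (x : α) = σ x)
    (a b : ↥Δ) (hab : a ≠ b) (g1 : Equiv.Perm α) (hg1 : g1 ∈ G)
    (hsw : ∀ x : ↥Δ, g1 (x : α) = (Equiv.swap a b x : ↥Δ)) :
    ∀ σ : Equiv.Perm ↥Δ, ∃ g ∈ G, ∀ x : ↥Δ, g (x : α) = σ x := by
  intro σ
  rcases Int.units_eq_one_or (Equiv.Perm.sign σ) with h | h
  · exact halt σ (Equiv.Perm.mem_alternatingGroup.mpr h)
  · have h2 : σ * Equiv.swap a b ∈ alternatingGroup ↥Δ := by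
      rw [Equiv.Perm.mem_alternatingGroup, map_mul, h, Equiv.Perm.sign_swap hab]
      simp
    obtain ⟨g2, hg2, hg2'⟩ := halt _ h2
    refine ⟨g2 * g1, G.mul_mem hg2 hg1, fun x => ?_⟩
    rw [Equiv.Perm.mul_apply, hsw x, hg2' (Equiv.swap a b x), Equiv.Perm.mul_apply,
      Equiv.swap_apply_self]

/-- homogeneity together with the full symmetric group on one set gives transitivity. -/
theorem ktrans_of_sym (G : Subgroup (Equiv.Perm α)) (m : ℕ)
    (hh : ∀ S T : Finset α, S.card = m → T.card = m → ∃ g ∈ G, ∀ a, g a ∈ T ↔ a ∈ S)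
    (Δ : Finset α) (hΔ : Δ.card = m)
    (hsym : ∀ σ : Equiv.Perm ↥Δ, ∃ g ∈ G, ∀ x : ↥Δ, g (x : α) = σ x) : KTrans G m := by
  intro x y
  have hSx : (Finset.univ.map x).card = m := by simp
  have hSy : (Finset.univ.map y).card = m := by simp
  obtain ⟨g1, hg1, h1⟩ := hh _ Δ hSx hΔ
  obtain ⟨g2, hg2, h2⟩ := hh _ Δ hSy hΔ
  have hu : ∀ i, g1 (x i) ∈ Δ := fun i => (h1 _).mpr (by simp)
  have hv : ∀ i, g2 (y i) ∈ Δ := fun i => (h2 _).mpr (by simp)
  obtain ⟨u, hudef⟩ : ∃ u : Fin m → ↥Δ, ∀ i, (u i : α) = g1 (x i) :=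
    ⟨fun i => ⟨g1 (x i), hu i⟩, fun _ => rfl⟩
  obtain ⟨v, hvdef⟩ : ∃ v : Fin m → ↥Δ, ∀ i, (v i : α) = g2 (y i) :=
    ⟨fun i => ⟨g2 (y i), hv i⟩, fun _ => rfl⟩
  have hcard : Fintype.card (Fin m) = Fintype.card ↥Δ := by simp [hΔ]
  have hui : Function.Injective u := by
    intro i i' h
    have := congrArg Subtype.val h
    rw [hudef, hudef] at this
    exact x.injective (g1.injective this)
  have hvi : Function.Injective v := by
    intro i i' h
    have := congrArg Subtype.val h
    rw [hvdef, hvdef] at this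
    exact y.injective (g2.injective this)
  have hub : Function.Bijective u :=
    (Fintype.bijective_iff_injective_and_card u).mpr ⟨hui, hcard⟩
  have hvb : Function.Bijective v :=
    (Fintype.bijective_iff_injective_and_card v).mpr ⟨hvi, hcard⟩
  obtain ⟨g, hg, hg'⟩ := hsym ((Equiv.ofBijective u hub).symm.trans (Equiv.ofBijective v hvb))
  refine ⟨g2⁻¹ * g * g1, G.mul_mem (G.mul_mem (G.inv_mem hg2) hg) hg1, fun i => ?_⟩
  have hσ : ((Equiv.ofBijective u hub).symm.trans (Equiv.ofBijective v hvb)) (u i) = v i := by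
    rw [Equiv.trans_apply, Equiv.ofBijective_symm_apply_apply]
    rfl
  have key := hg' (u i)
  rw [hσ, hudef, hvdef] at key
  simp only [Equiv.Perm.mul_apply]
  rw [Equiv.Perm.inv_eq_iff_eq]
  exact key

/-- **The alternating step.** -/
theorem alt_step (G : Subgroup (Equiv.Perm α)) (j : ℕ) (hj : 4 ≤ j)
    (hG : MulAction.IsMultiplyPretransitive G α j)
    (hh : MulAction.IsPretransitive G (Set.powersetCard α (j + 1)))
    (hn : j + 4 ≤ Fintype.card α) :
    MulAction.IsMultiplyPretransitive G α (j + 1) ∨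
      (Fintype.card α = j + 7 ∧ ∀ Γ : Finset α, Γ.card = j → pstab G Γ = ⊥) := by
  have hK : KTrans G j := Cfsg.Agent.Helper58.LWG1a.ktrans_of_pretransitive G j hG
  obtain ⟨Δ, hΔ, halt⟩ := Cfsg.Agent.Lead.LWMain.main_lw _ α G j rfl hj (by omega) hK
  have hhe := hom_sets G (j + 1) hh
  by_cases hA : ∃ g ∈ G, ∃ (Θ : Finset α) (a b : α), Θ.card + 2 = j + 1 ∧ a ∉ Θ ∧ b ∉ Θ ∧
      a ≠ b ∧ g a = b ∧ g b = a ∧ ∀ c ∈ Θ, g c = c
  · left
    obtain ⟨g, hg, Θ, a, b, hΘ, haΘ, hbΘ, hab, hga, hgb, hgΘ⟩ := hA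
    have hcard : (insert a (insert b Θ)).card = j + 1 := by
      rw [Finset.card_insert_of_notMem, Finset.card_insert_of_notMem hbΘ]
      · omega
      · simp [hab, haΘ]
    obtain ⟨h, hh', hmap⟩ := hhe _ Δ hcard hΔ
    have haΔ : h a ∈ Δ := (hmap a).mpr (by simp)
    have hbΔ : h b ∈ Δ := (hmap b).mpr (by simp)
    have hne : (⟨h a, haΔ⟩ : ↥Δ) ≠ ⟨h b, hbΔ⟩ := by
      intro e
      exact hab (h.injective (congrArg Subtype.val e))
    have hsw : ∀ x : ↥Δ, (h * g * h⁻¹) (x : α) =
        (Equiv.swap (⟨h a, haΔ⟩ : ↥Δ) ⟨h b, hbΔ⟩ x : ↥Δ) := by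
      intro x
      have hx : h⁻¹ (x : α) ∈ insert a (insert b Θ) := by
        rw [← hmap]; simp
      rw [Finset.mem_insert, Finset.mem_insert] at hx
      simp only [Equiv.Perm.mul_apply]
      rcases hx with hx | hx | hx
      · have e : x = ⟨h a, haΔ⟩ := Subtype.ext (by
          show (x : α) = h a
          rw [← hx]; simp)
        rw [hx, hga, e, Equiv.swap_apply_left]
      · have e : x = ⟨h b, hbΔ⟩ := Subtype.ext (by
          show (x : α) = h b
          rw [← hx]; simp)
        rw [hx, hgb, e, Equiv.swap_apply_right]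
      · rw [hgΘ _ hx]
        have e1 : x ≠ ⟨h a, haΔ⟩ := by
          intro e
          have e' : h⁻¹ (x : α) = a := by rw [e]; simp
          exact haΘ (e' ▸ hx)
        have e2 : x ≠ ⟨h b, hbΔ⟩ := by
          intro e
          have e' : h⁻¹ (x : α) = b := by rw [e]; simp
          exact hbΘ (e' ▸ hx)
        rw [Equiv.swap_apply_of_ne_of_ne e1 e2]
        simp
    have hsym := sym_of_alt_swap G Δ halt ⟨h a, haΔ⟩ ⟨h b, hbΔ⟩ hne (h * g * h⁻¹)
      (G.mul_mem (G.mul_mem hh' hg) (G.inv_mem hh')) hsw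
    exact Cfsg.Agent.Helper58.LWG1b.pretransitive_of_ktrans G (j + 1)
      (ktrans_of_sym G (j + 1) hhe Δ hΔ hsym)
  · right
    have hodd : ∀ Θ : Finset α, Θ.card + 1 = j → Odd (Nat.card (pstab G Θ)) := by
      intro Θ hΘ
      by_contra hcon
      rw [Nat.not_odd_iff_even] at hcon
      have h2 : 2 ∣ Nat.card (pstab G Θ) := hcon.two_dvd
      haveI : Fact (Nat.Prime 2) := ⟨Nat.prime_two⟩
      obtain ⟨t, ht⟩ := exists_prime_orderOf_dvd_card' (G := pstab G Θ) 2 h2
      have ht1 : (t : Equiv.Perm α) ≠ 1 := by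
        intro e
        have e' : t = 1 := Subtype.ext e
        rw [e', orderOf_one] at ht
        omega
      have ht2 : (t : Equiv.Perm α) * t = 1 := by
        have := pow_orderOf_eq_one t
        rw [ht, sq] at this
        exact congrArg Subtype.val this
      obtain ⟨a, ha⟩ : ∃ a, (t : Equiv.Perm α) a ≠ a := by
        by_contra hc
        push Not at hc
        exact ht1 (Equiv.ext hc)
      have htG : (t : Equiv.Perm α) ∈ G := t.2.1
      have htΘ : ∀ c ∈ Θ, (t : Equiv.Perm α) c = c := t.2.2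
      have hta : (t : Equiv.Perm α) ((t : Equiv.Perm α) a) = a := by
        have := congrArg (fun f : Equiv.Perm α => f a) ht2
        simpa using this
      apply hA
      refine ⟨t, htG, Θ, a, (t : Equiv.Perm α) a, by omega, ?_, ?_, fun e => ha e.symm, rfl,
        hta, htΘ⟩
      · intro haΘ; exact ha (htΘ a haΘ)
      · intro hbΘ
        have := htΘ _ hbΘ
        rw [hta] at this
        exact ha this.symm
    have hoddΓ : ∀ Γ : Finset α, Γ.card = j → Odd (Nat.card (pstab G Γ)) := by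
      intro Γ hΓ
      obtain ⟨Θ, hΘΓ, hΘ⟩ := Finset.exists_subset_card_eq (s := Γ) (n := j - 1) (by omega)
      have hle : pstab G Γ ≤ pstab G Θ := fun g hg => ⟨hg.1, fun c hc => hg.2 c (hΘΓ hc)⟩
      have := Subgroup.card_dvd_of_le hle
      exact (hodd Θ (by omega)).of_dvd_nat this
    have key : ∀ Γ : Finset α, Γ.card = j → Fintype.card α = j + 7 ∧ pstab G Γ = ⊥ := by
      intro Γ hΓ
      rcases Cfsg.Agent.Helper58.LWT4.card_of_odd G j hj hK Γ hΓ (hoddΓ Γ hΓ) with h | h
      · omega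
      · exact h
    obtain ⟨Γ0, -, hΓ0⟩ := Finset.exists_subset_card_eq (s := (Finset.univ : Finset α)) (n := j)
      (by rw [Finset.card_univ]; omega)
    exact ⟨(key Γ0 hΓ0).1, fun Γ hΓ => (key Γ hΓ).2⟩

/-- the induction step of S0746 for `k ≥ 6`. -/
theorem lw746_step (G : Subgroup (Equiv.Perm α)) (k : ℕ) (hk : 6 ≤ k)
    (hkn : 2 * k ≤ Fintype.card α)
    (hh1 : MulAction.IsPretransitive G (Set.powersetCard α (k - 1)))
    (ht : MulAction.IsMultiplyPretransitive G α (k - 2)) :
    MulAction.IsMultiplyPretransitive G α (k - 1) := by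
  obtain ⟨j, rfl⟩ : ∃ j, k = j + 2 := ⟨k - 2, by omega⟩
  have hh1' : MulAction.IsPretransitive G (Set.powersetCard α (j + 1)) := hh1
  have ht' : MulAction.IsMultiplyPretransitive G α j := ht
  rcases alt_step G j (by omega) ht' hh1' (by omega) with h | h
  · exact h
  · omega

/-- S0748 from S0746. -/
theorem lw748_of_746 (G : Subgroup (Equiv.Perm α)) (k : ℕ) (hk : 5 ≤ k)
    (hkn : 2 * k ≤ Fintype.card α)
    (hh : MulAction.IsPretransitive G (Set.powersetCard α k))
    (ht : MulAction.IsMultiplyPretransitive G α (k - 1)) :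
    MulAction.IsMultiplyPretransitive G α k := by
  obtain ⟨j, rfl⟩ : ∃ j, k = j + 1 := ⟨k - 1, by omega⟩
  have ht' : MulAction.IsMultiplyPretransitive G α j := ht
  rcases alt_step G j (by omega) ht' hh (by omega) with h | ⟨hn, hbot⟩
  · exact h
  · exfalso
    have hj : j = 4 ∨ j = 5 := by omega
    obtain ⟨x⟩ : Nonempty (Fin j ↪ α) :=
      Function.Embedding.nonempty_of_card_le (by rw [Fintype.card_fin]; omega)
    have h1 := @MulAction.index_stabilizer_of_transitive (↥G) (Fin j ↪ α) _ _ x ht'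
    have hstab : MulAction.stabilizer (↥G) x = ⊥ := by
      rw [eq_bot_iff]
      intro g hg
      rw [MulAction.mem_stabilizer_iff] at hg
      have hmem : (g : Equiv.Perm α) ∈ pstab G (Finset.univ.map x) := by
        refine ⟨g.2, fun a ha => ?_⟩
        obtain ⟨i, -, rfl⟩ := Finset.mem_map.mp ha
        have := congrArg (fun e : Fin j ↪ α => e i) hg
        exact this
      rw [hbot _ (by simp)] at hmem
      rw [Subgroup.mem_bot] at hmem ⊢
      exact Subtype.ext hmem
    have h3 := Subgroup.card_mul_index (MulAction.stabilizer (↥G) x)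
    rw [h1, hstab, Subgroup.card_bot, one_mul] at h3
    have h2 : Nat.card (Fin j ↪ α) = (j + 7).descFactorial j := by
      rw [Nat.card_eq_fintype_card, Fintype.card_embedding_eq, hn, Fintype.card_fin]
    obtain ⟨S0, -, hS0⟩ := Finset.exists_subset_card_eq (s := (Finset.univ : Finset α))
      (n := j + 1) (by rw [Finset.card_univ]; omega)
    have h4 := @MulAction.index_stabilizer_of_transitive (↥G) (Set.powersetCard α (j + 1)) _ _
      ⟨S0, Set.powersetCard.mem_iff.mpr hS0⟩ hh
    have h5 := Subgroup.card_mul_index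
      (MulAction.stabilizer (↥G) (⟨S0, Set.powersetCard.mem_iff.mpr hS0⟩ : Set.powersetCard α (j + 1)))
    have h6 : Nat.card (Set.powersetCard α (j + 1)) = (j + 7).choose (j + 1) := by
      rw [Set.powersetCard.card, Nat.card_eq_fintype_card, hn]
    have hdvd : (j + 7).choose (j + 1) ∣ (j + 7).descFactorial j := by
      rw [← h6, ← h4, ← h2, h3, ← h5]
      exact Dvd.intro_left _ rfl
    rcases hj with rfl | rfl
    · revert hdvd; decide
    · revert hdvd; decide

end Cfsg.Agent.Helper58.LWStep
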