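import Mathlib
import Cfsg.Prelude.Def_GeometricClasses
import Cfsg.Agent.Helper96.SpCore
import Cfsg.Agent.Helper98.FieldSub
import Cfsg.Agent.Helper96.SpField
import Cfsg.Agent.Helper94.OA1

set_option autoImplicit false
open Cfsg Cfsg.Geo Matrix

namespace Cfsg.Agent.Helper58

variable {ι : Type} [Fintype ι] [DecidableEq ι] {F : Type*} [Field F]

/-- The context of piece HFE: a nondegenerate quadratic form in characteristic two with a
self-adjoint alternating field subalgebra of half dimension. -/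
structure HFE (Q : (ι → F) → F) (E : Subalgebra F (Matrix ι ι F)) (r : ℕ) : Prop where
  two : (2 : F) = 0
  hQ : IsNondegenerateQuadraticForm Q
  hn : Fintype.card ι = 2 * r
  hE : IsFieldSubalgebra r E
  hsa : IsSelfAdjointFor (QuadraticMap.polar Q) E
  halt : ∀ k ∈ E, ∀ v : ι → F, QuadraticMap.polar Q (k *ᵥ v) v = 0

/-- A `Q`-isometry commuting with `E`, together with its inverse. -/
structure HFEIso (Q : (ι → F) → F) (E : Subalgebra F (Matrix ι ι F)) (y yi : Matrix ι ι F) :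
    Prop where
  mul : y * yi = 1
  mul' : yi * y = 1
  isoQ : ∀ v, Q (y *ᵥ v) = Q v
  comm : ∀ k ∈ E, y * k = k * y

namespace HFEIso

variable {Q : (ι → F) → F} {E : Subalgebra F (Matrix ι ι F)} {y yi z zi : Matrix ι ι F}

theorem symm (h : HFEIso Q E y yi) : HFEIso Q E yi y := by
  refine ⟨h.mul', h.mul, ?_, ?_⟩
  · intro v
    rw [← h.isoQ (yi *ᵥ v), Matrix.mulVec_mulVec, h.mul, Matrix.one_mulVec]
  · intro k hk
    calc yi * k = yi * k * (y * yi) := by rw [h.mul, mul_one]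
      _ = yi * (k * y) * yi := by simp only [mul_assoc]
      _ = yi * (y * k) * yi := by rw [h.comm k hk]
      _ = (yi * y) * k * yi := by simp only [mul_assoc]
      _ = k * yi := by rw [h.mul', one_mul]

theorem mul_iso (h1 : HFEIso Q E y yi) (h2 : HFEIso Q E z zi) : HFEIso Q E (y * z) (zi * yi) := by
  refine ⟨?_, ?_, ?_, ?_⟩
  · calc y * z * (zi * yi) = y * (z * zi) * yi := by simp only [mul_assoc]
      _ = 1 := by rw [h2.mul, mul_one, h1.mul]
  · calc zi * yi * (y * z) = zi * (yi * y) * z := by simp only [mul_assoc]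
      _ = 1 := by rw [h1.mul', mul_one, h2.mul']
  · intro v
    rw [← Matrix.mulVec_mulVec, h1.isoQ, h2.isoQ]
  · intro k hk
    rw [mul_assoc, h2.comm k hk, ← mul_assoc, h1.comm k hk, mul_assoc]

theorem pol (h : HFEIso Q E y yi) (u v : ι → F) :
    QuadraticMap.polar Q (y *ᵥ u) (y *ᵥ v) = QuadraticMap.polar Q u v := by
  unfold QuadraticMap.polar
  rw [← Matrix.mulVec_add, h.isoQ, h.isoQ, h.isoQ]

theorem of_GL (g : GL ι F) (hg : ∀ x : ι → F, Q ((g : Matrix ι ι F) *ᵥ x) = Q x)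
    (hgE : ∀ k ∈ E, (g : Matrix ι ι F) * k = k * (g : Matrix ι ι F)) :
    HFEIso Q E (g : Matrix ι ι F) ((g⁻¹ : GL ι F) : Matrix ι ι F) := by
  refine ⟨?_, ?_, hg, hgE⟩
  · rw [← Units.val_mul, mul_inv_cancel, Units.val_one]
  · rw [← Units.val_mul, inv_mul_cancel, Units.val_one]

end HFEIso

namespace HFE

variable {Q : (ι → F) → F} {E : Subalgebra F (Matrix ι ι F)} {r : ℕ}

theorem symF (C : HFE Q E r) : IsSymmetricForm (QuadraticMap.polar Q) :=
  ⟨C.hQ.polar_bilinear, fun u v => QuadraticMap.polar_comm Q u v, C.hQ.nondegenerate⟩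

theorem add_self_F (C : HFE Q E r) (x : F) : x + x = 0 := by
  rw [← two_mul, C.two, zero_mul]

theorem add_self_M (C : HFE Q E r) (A : Matrix ι ι F) : A + A = 0 := by
  rw [← two_smul F A, C.two, zero_smul]

theorem add_self_V (C : HFE Q E r) (v : ι → F) : v + v = 0 := by
  rw [← two_smul F v, C.two, zero_smul]

theorem neg_M (C : HFE Q E r) (A : Matrix ι ι F) : -A = A := by
  rw [neg_eq_iff_add_eq_zero, C.add_self_M]

theorem Q_add (C : HFE Q E r) (u v : ι → F) :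
    Q (u + v) = Q u + Q v + QuadraticMap.polar Q u v := by
  unfold QuadraticMap.polar
  ring

theorem Q_zero (C : HFE Q E r) : Q 0 = 0 := by
  have := C.hQ.smul 0 0
  simpa using this

theorem pol_line (C : HFE Q E r) {k k' : Matrix ι ι F} (hk : k ∈ E) (hk' : k' ∈ E) (v : ι → F) :
    QuadraticMap.polar Q (k *ᵥ v) (k' *ᵥ v) = 0 := by
  rw [C.hsa k hk, Matrix.mulVec_mulVec, C.symF.symm]
  exact C.halt (k * k') (E.mul_mem hk hk') v

theorem Q_add_mulVec (C : HFE Q E r) {k k' : Matrix ι ι F} (hk : k ∈ E) (hk' : k' ∈ E)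
    (v : ι → F) : Q ((k + k') *ᵥ v) = Q (k *ᵥ v) + Q (k' *ᵥ v) := by
  rw [Matrix.add_mulVec, C.Q_add, C.pol_line hk hk', add_zero]

theorem inv' (C : HFE Q E r) {x : Matrix ι ι F} (hx : x ∈ E) (hx0 : x ≠ 0) :
    ∃ y ∈ E, x * y = 1 ∧ y * x = 1 := by
  obtain ⟨y, hy, hxy⟩ := C.hE.inv x hx hx0
  exact ⟨y, hy, hxy, by rw [C.hE.comm y hy x hx]; exact hxy⟩

theorem eq_zero_of_mulVec (C : HFE Q E r) {x : Matrix ι ι F} (hx : x ∈ E) {v : ι → F}
    (hv : v ≠ 0) (h : x *ᵥ v = 0) : x = 0 := by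
  by_contra hx0
  exact hv ((Helper98.IsFS.of C.hE).mulVec_eq_zero hx hx0 h)

theorem sq_add (C : HFE Q E r) {x y : Matrix ι ι F} (hx : x ∈ E) (hy : y ∈ E) :
    (x + y) * (x + y) = x * x + y * y := by
  have h := C.add_self_M (x * y)
  rw [mul_add, add_mul, add_mul, C.hE.comm y hy x hx,
    show x * x + x * y + (x * y + y * y) = x * x + y * y + (x * y + x * y) by abel, h, add_zero]

theorem sq_eq_zero (C : HFE Q E r) {x : Matrix ι ι F} (hx : x ∈ E) (h : x * x = 0) : x = 0 := by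
  by_contra hx0
  obtain ⟨y, hy, hxy, -⟩ := C.inv' hx hx0
  apply hx0
  calc x = x * (x * y) := by rw [hxy, mul_one]
    _ = (x * x) * y := by rw [mul_assoc]
    _ = 0 := by rw [h, zero_mul]

theorem exists_sqrt [Finite F] (C : HFE Q E r) {a : Matrix ι ι F} (ha : a ∈ E) :
    ∃ m ∈ E, m * m = a := by
  have hinj : Function.Injective (fun x : ↥E => x * x) := by
    intro x y hxy
    have h1 : (x : Matrix ι ι F) * x = y * y := congrArg Subtype.val hxy
    have h2 : ((x : Matrix ι ι F) + y) * (x + y) = 0 := by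
      rw [C.sq_add x.2 y.2, h1, C.add_self_M]
    have h3 := C.sq_eq_zero (E.add_mem x.2 y.2) h2
    apply Subtype.ext
    have h4 : (x : Matrix ι ι F) = -y := eq_neg_of_add_eq_zero_left h3
    rw [h4, C.neg_M]
  obtain ⟨m, hm⟩ := (Finite.injective_iff_surjective.mp hinj) ⟨a, ha⟩
  exact ⟨m.1, m.2, congrArg Subtype.val hm⟩

theorem line_perp (C : HFE Q E r) {v : ι → F} (hv : v ≠ 0) (w : ι → F)
    (h : ∀ k ∈ E, QuadraticMap.polar Q w (k *ᵥ v) = 0) : ∃ c ∈ E, w = c *ᵥ v := by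
  have hle : Helper96.Sy.orb E v ≤ Helper94.OA.perp C.symF (Helper96.Sy.orb E v) := by
    intro x hx
    obtain ⟨k, hk, rfl⟩ := (Helper96.Sy.mem_orb E v x).mp hx
    rw [Helper94.OA.mem_perp]
    intro y hy
    obtain ⟨k', hk', rfl⟩ := (Helper96.Sy.mem_orb E v y).mp hy
    exact C.pol_line hk' hk v
  have hfr : Module.finrank F (Helper96.Sy.orb E v) = r := by
    rw [(Helper96.Sy.orb_min E C.hE.inv v hv).2, C.hE.finrank_eq]
  have hp := Helper94.OA.finrank_perp C.symF (Helper96.Sy.orb E v)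
  have hn := C.hn
  have heq : Helper96.Sy.orb E v = Helper94.OA.perp C.symF (Helper96.Sy.orb E v) :=
    Submodule.eq_of_le_of_finrank_eq hle (by omega)
  have hw : w ∈ Helper94.OA.perp C.symF (Helper96.Sy.orb E v) := by
    rw [Helper94.OA.mem_perp']
    intro y hy
    obtain ⟨k, hk, rfl⟩ := (Helper96.Sy.mem_orb E v y).mp hy
    exact h k hk
  rw [← heq] at hw
  obtain ⟨c, hc, hcv⟩ := (Helper96.Sy.mem_orb E v w).mp hw
  exact ⟨c, hc, hcv.symm⟩

/-- Step (1): the trace `y + y⁻¹` of an isometry commuting with `E` lies in `E`. -/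
theorem trace_mem (C : HFE Q E r) {y yi : Matrix ι ι F} (hI : HFEIso Q E y yi) :
    ∃ c ∈ E, y + yi = c := by
  by_cases hV : ∃ v0 : ι → F, v0 ≠ 0
  swap
  · push Not at hV
    refine ⟨0, E.zero_mem, Helper98.matrix_ext_mulVec (fun x => ?_)⟩
    rw [hV ((y + yi) *ᵥ x), hV (0 *ᵥ x)]
  obtain ⟨v0, hv0⟩ := hV
  have ht : ∀ k ∈ E, (y + yi) * k = k * (y + yi) := by
    intro k hk
    rw [add_mul, mul_add, hI.comm k hk, hI.symm.comm k hk]
  have key : ∀ v : ι → F, v ≠ 0 → ∃ c ∈ E, (y + yi) *ᵥ v = c *ᵥ v := by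
    intro v hv
    apply C.line_perp hv
    intro k hk
    rw [Matrix.add_mulVec, C.symF.bilinear.add_left]
    have e1 : QuadraticMap.polar Q (yi *ᵥ v) (k *ᵥ v) = QuadraticMap.polar Q (y *ᵥ v) (k *ᵥ v) := by
      rw [← hI.pol (yi *ᵥ v) (k *ᵥ v), Matrix.mulVec_mulVec, hI.mul, Matrix.one_mulVec,
        Matrix.mulVec_mulVec, hI.comm k hk, ← Matrix.mulVec_mulVec, ← C.hsa k hk, C.symF.symm]
    rw [e1, C.add_self_F]
  obtain ⟨c, hc, hcv⟩ := key v0 hv0
  refine ⟨c, hc, Helper98.matrix_ext_mulVec (fun w => ?_)⟩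
  by_cases hw : w = 0
  · rw [hw, Matrix.mulVec_zero, Matrix.mulVec_zero]
  obtain ⟨c', hc', hcw⟩ := key w hw
  by_cases hu : v0 + w = 0
  · have hw' : w = -v0 := by
      rw [eq_neg_iff_add_eq_zero, add_comm]
      exact hu
    rw [hw', Matrix.mulVec_neg, Matrix.mulVec_neg, hcv]
  obtain ⟨c'', hc'', hcu⟩ := key (v0 + w) hu
  rw [Matrix.mulVec_add, Matrix.mulVec_add, hcv, hcw] at hcu
  have e : (c - c'') *ᵥ v0 = (c'' - c') *ᵥ w := by
    rw [Matrix.sub_mulVec, Matrix.sub_mulVec, sub_eq_sub_iff_add_eq_add, hcu, add_comm]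
  by_cases hcc : c'' - c' = 0
  · rw [hcc, Matrix.zero_mulVec] at e
    have h1 := C.eq_zero_of_mulVec (E.sub_mem hc hc'') hv0 e
    rw [hcw, ← sub_eq_zero.mp hcc, ← sub_eq_zero.mp h1]
  · obtain ⟨d, hd, hd1, hd2⟩ := C.inv' (E.sub_mem hc'' hc') hcc
    have hwk : w = (d * (c - c'')) *ᵥ v0 := by
      rw [← Matrix.mulVec_mulVec, e, Matrix.mulVec_mulVec, hd2, Matrix.one_mulVec]
    have hk : d * (c - c'') ∈ E := E.mul_mem hd (E.sub_mem hc hc'')
    rw [hwk, Matrix.mulVec_mulVec, ht _ hk, ← Matrix.mulVec_mulVec, hcv, Matrix.mulVec_mulVec,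
      Matrix.mulVec_mulVec, C.hE.comm _ hk c hc]

theorem comm_mulVec {A k : Matrix ι ι F} (h : A * k = k * A) (u : ι → F) :
    A *ᵥ (k *ᵥ u) = k *ᵥ (A *ᵥ u) := by
  rw [Matrix.mulVec_mulVec, h, ← Matrix.mulVec_mulVec]

theorem gsq (C : HFE Q E r) {g gi t : Matrix ι ι F} (hI : HFEIso Q E g gi) (ht : g + gi = t) :
    g * g = t * g + 1 := by
  have h : g * g + 1 = t * g := by rw [← ht, add_mul, hI.mul']
  have h2 : g * g = t * g - 1 := eq_sub_of_add_eq h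
  rw [h2, sub_eq_add_neg, C.neg_M]

theorem step3 (C : HFE Q E r) {g gi t : Matrix ι ι F} (hI : HFEIso Q E g gi) (ht : g + gi = t)
    {m : Matrix ι ι F} (hm : m ∈ E) (v : ι → F) :
    QuadraticMap.polar Q ((m * m * t * g) *ᵥ v) v = Q ((m * t) *ᵥ v) := by
  have e1 : (m * t) *ᵥ v = (m * g) *ᵥ v + (m * gi) *ᵥ v := by
    rw [← Matrix.add_mulVec, ← mul_add, ht]
  have q1 : Q ((m * g) *ᵥ v) = Q (m *ᵥ v) := by
    rw [← hI.comm m hm, ← Matrix.mulVec_mulVec, hI.isoQ]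
  have q2 : Q ((m * gi) *ᵥ v) = Q (m *ᵥ v) := by
    rw [← hI.symm.comm m hm, ← Matrix.mulVec_mulVec, hI.symm.isoQ]
  have p : QuadraticMap.polar Q ((m * g) *ᵥ v) ((m * gi) *ᵥ v)
      = QuadraticMap.polar Q ((m * m * t * g) *ᵥ v) v := by
    rw [← hI.pol ((m * g) *ᵥ v) ((m * gi) *ᵥ v), Matrix.mulVec_mulVec, Matrix.mulVec_mulVec]
    have a1 : g * (m * gi) = m := by
      rw [← mul_assoc, hI.comm m hm, mul_assoc, hI.mul, mul_one]
    have a2 : g * (m * g) = m * (g * g) := by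
      rw [← mul_assoc, hI.comm m hm, mul_assoc]
    rw [a1, a2, ← C.hsa m hm, Matrix.mulVec_mulVec, C.gsq hI ht]
    have a3 : m * (m * (t * g + 1)) = m * m * t * g + m * m := by
      rw [mul_add, mul_add, mul_one]
      simp only [mul_assoc]
    rw [a3, Matrix.add_mulVec, C.symF.bilinear.add_left, C.halt (m * m) (E.mul_mem hm hm) v,
      add_zero]
  rw [e1, C.Q_add, q1, q2, p, C.add_self_F, zero_add]

theorem step4 (C : HFE Q E r) {g gi t : Matrix ι ι F} (hI : HFEIso Q E g gi) (ht : g + gi = t)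
    {a b m : Matrix ι ι F} (ha : a ∈ E) (hb : b ∈ E) (hm : m ∈ E) (htE : t ∈ E)
    (hmm : m * m * t = a * b) (v : ι → F) :
    Q ((a + b * g) *ᵥ v) = Q ((a + b + m * t) *ᵥ v) := by
  have q1 : Q ((b * g) *ᵥ v) = Q (b *ᵥ v) := by
    rw [← hI.comm b hb, ← Matrix.mulVec_mulVec, hI.isoQ]
  have p : QuadraticMap.polar Q (a *ᵥ v) ((b * g) *ᵥ v) = Q ((m * t) *ᵥ v) := by
    rw [C.hsa a ha, Matrix.mulVec_mulVec, C.symF.symm, ← mul_assoc, ← hmm]
    exact C.step3 hI ht hm v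
  rw [Matrix.add_mulVec, C.Q_add, q1, p, C.Q_add_mulVec (E.add_mem ha hb) (E.mul_mem hm htE),
    C.Q_add_mulVec ha hb]

theorem indep (C : HFE Q E r) {g gi t : Matrix ι ι F} (hI : HFEIso Q E g gi) (ht : g + gi = t)
    (htE : t ∈ E) (ht0 : t ≠ 0) {v0 : ι → F} (hv0 : Q v0 ≠ 0) {k : Matrix ι ι F} (hk : k ∈ E) :
    g *ᵥ v0 ≠ k *ᵥ v0 := by
  intro h
  obtain ⟨ti, hti, h1, h2⟩ := C.inv' htE ht0
  have h3 := C.step3 hI ht hti v0
  rw [h2, Matrix.one_mulVec, ← Matrix.mulVec_mulVec, h, Matrix.mulVec_mulVec] at h3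
  rw [C.halt _ (E.mul_mem (E.mul_mem (E.mul_mem hti hti) htE) hk) v0] at h3
  exact hv0 h3.symm

theorem span (C : HFE Q E r) {g gi t : Matrix ι ι F} (hI : HFEIso Q E g gi) (ht : g + gi = t)
    (htE : t ∈ E) (ht0 : t ≠ 0) {v0 : ι → F} (hv0 : Q v0 ≠ 0) (w : ι → F) :
    ∃ a ∈ E, ∃ b ∈ E, w = a *ᵥ v0 + b *ᵥ (g *ᵥ v0) := by
  have hv00 : v0 ≠ 0 := by
    rintro rfl
    exact hv0 C.Q_zero
  have hgv0 : g *ᵥ v0 ≠ 0 := by
    intro h
    apply C.indep hI ht htE ht0 hv0 E.zero_mem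
    rw [h, Matrix.zero_mulVec]
  have hdisj : Helper96.Sy.orb E v0 ⊓ Helper96.Sy.orb E (g *ᵥ v0) = ⊥ := by
    rw [eq_bot_iff]
    intro x hx
    obtain ⟨hx1, hx2⟩ := Submodule.mem_inf.mp hx
    obtain ⟨a, ha, rfl⟩ := (Helper96.Sy.mem_orb E v0 x).mp hx1
    obtain ⟨b, hb, hab⟩ := (Helper96.Sy.mem_orb E (g *ᵥ v0) _).mp hx2
    rw [Submodule.mem_bot]
    by_cases hb0 : b = 0
    · rw [← hab, hb0, Matrix.zero_mulVec]
    · exfalso
      obtain ⟨bi, hbi, h1, h2⟩ := C.inv' hb hb0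
      apply C.indep hI ht htE ht0 hv0 (E.mul_mem hbi ha)
      rw [← Matrix.mulVec_mulVec, ← hab, Matrix.mulVec_mulVec, h2, Matrix.one_mulVec]
  have h1 := Submodule.finrank_sup_add_finrank_inf_eq (Helper96.Sy.orb E v0)
    (Helper96.Sy.orb E (g *ᵥ v0))
  rw [hdisj, finrank_bot, (Helper96.Sy.orb_min E C.hE.inv v0 hv00).2,
    (Helper96.Sy.orb_min E C.hE.inv _ hgv0).2, C.hE.finrank_eq, add_zero] at h1
  have htop : Helper96.Sy.orb E v0 ⊔ Helper96.Sy.orb E (g *ᵥ v0) = ⊤ := by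
    apply Submodule.eq_top_of_finrank_eq
    rw [h1, Module.finrank_fintype_fun_eq_card, C.hn]
    ring
  have hw : w ∈ Helper96.Sy.orb E v0 ⊔ Helper96.Sy.orb E (g *ᵥ v0) := by
    rw [htop]
    exact Submodule.mem_top
  obtain ⟨x, hx, y, hy, hxy⟩ := Submodule.mem_sup.mp hw
  obtain ⟨a, ha, rfl⟩ := (Helper96.Sy.mem_orb E v0 x).mp hx
  obtain ⟨b, hb, rfl⟩ := (Helper96.Sy.mem_orb E (g *ᵥ v0) y).mp hy
  exact ⟨a, ha, b, hb, hxy.symm⟩

theorem ext_E (C : HFE Q E r) {g gi t : Matrix ι ι F} (hI : HFEIso Q E g gi) (ht : g + gi = t)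
    (htE : t ∈ E) (ht0 : t ≠ 0) {v0 : ι → F} (hv0 : Q v0 ≠ 0) {A B : Matrix ι ι F}
    (hA : ∀ k ∈ E, A * k = k * A) (hB : ∀ k ∈ E, B * k = k * B)
    (h0 : A *ᵥ v0 = B *ᵥ v0) (h1 : A *ᵥ (g *ᵥ v0) = B *ᵥ (g *ᵥ v0)) : A = B := by
  apply Helper98.matrix_ext_mulVec
  intro w
  obtain ⟨a, ha, b, hb, rfl⟩ := C.span hI ht htE ht0 hv0 w
  rw [Matrix.mulVec_add, Matrix.mulVec_add, comm_mulVec (hA a ha), comm_mulVec (hA b hb),
    comm_mulVec (hB a ha), comm_mulVec (hB b hb), h0, h1]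

theorem step5 [Finite F] (C : HFE Q E r) {g gi t : Matrix ι ι F} (hI : HFEIso Q E g gi)
    (ht : g + gi = t) (htE : t ∈ E) (ht0 : t ≠ 0) {v0 : ι → F} (hv0 : Q v0 ≠ 0)
    {y yi : Matrix ι ι F} (hJ : HFEIso Q E y yi) :
    ∃ a ∈ E, ∃ b ∈ E, y *ᵥ v0 = (a + b * g) *ᵥ v0 ∧ a * a + a * b * t + b * b = 1 ∧
      ∀ v, Q ((a + b * g) *ᵥ v) = Q v := by
  obtain ⟨a, ha, b, hb, hab⟩ := C.span hI ht htE ht0 hv0 (y *ᵥ v0)
  obtain ⟨ti, hti, hti1, hti2⟩ := C.inv' htE ht0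
  obtain ⟨m, hm, hmm0⟩ := C.exists_sqrt (E.mul_mem (E.mul_mem ha hb) hti)
  have hmm : m * m * t = a * b := by rw [hmm0, mul_assoc, hti2, mul_one]
  have hyv : y *ᵥ v0 = (a + b * g) *ᵥ v0 := by
    rw [hab, Matrix.add_mulVec, Matrix.mulVec_mulVec]
  have hνE : a + b + m * t ∈ E := E.add_mem (E.add_mem ha hb) (E.mul_mem hm htE)
  have key : ∀ k ∈ E, Q ((k * (a + b + m * t)) *ᵥ v0) = Q (k *ᵥ v0) := by
    intro k hk
    have hkm : (k * m) * (k * m) * t = (k * a) * (k * b) := by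
      rw [(show Commute m k from C.hE.comm m hm k hk).mul_mul_mul_comm, mul_assoc, hmm,
        (show Commute a k from C.hE.comm a ha k hk).mul_mul_mul_comm]
    have h4 := C.step4 hI ht (E.mul_mem hk ha) (E.mul_mem hk hb) (E.mul_mem hk hm) htE hkm v0
    have e1 : k * (a + b + m * t) = k * a + k * b + k * m * t := by
      rw [mul_add, mul_add, mul_assoc]
    have e2 : (k * a + k * b * g) *ᵥ v0 = y *ᵥ (k *ᵥ v0) := by
      rw [comm_mulVec (hJ.comm k hk), hyv, Matrix.mulVec_mulVec, mul_add, mul_assoc]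
    rw [e1, ← h4, e2, hJ.isoQ]
  have hν : a + b + m * t = 1 := by
    by_contra hne
    have hne' : a + b + m * t + 1 ≠ 0 := by
      intro h0
      apply hne
      rw [eq_neg_of_add_eq_zero_left h0, C.neg_M]
    obtain ⟨z, hz, hz1, hz2⟩ := C.inv' (E.add_mem hνE E.one_mem) hne'
    apply hv0
    have h5 : Q ((z * (a + b + m * t + 1)) *ᵥ v0) = 0 := by
      rw [mul_add, mul_one, C.Q_add_mulVec (E.mul_mem hz hνE) hz, key z hz, C.add_self_F]
    rwa [hz2, Matrix.one_mulVec] at h5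
  refine ⟨a, ha, b, hb, hyv, ?_, ?_⟩
  · have h6 : (a + b + m * t) * (a + b + m * t) = a * a + a * b * t + b * b := by
      rw [C.sq_add (E.add_mem ha hb) (E.mul_mem hm htE), C.sq_add ha hb,
        (show Commute t m from C.hE.comm t htE m hm).mul_mul_mul_comm, ← mul_assoc, hmm]
      abel
    rw [← h6, hν, mul_one]
  · intro v
    rw [C.step4 hI ht ha hb hm htE hmm v, hν, Matrix.one_mulVec]

theorem norm_mul (C : HFE Q E r) {g gi t : Matrix ι ι F} (hI : HFEIso Q E g gi) (ht : g + gi = t)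
    {a b : Matrix ι ι F} (ha : a ∈ E) (hb : b ∈ E) (hN : a * a + a * b * t + b * b = 1) :
    (a + b * g) * (a + b * gi) = 1 := by
  have e : (a + b * g) * (a + b * gi) = a * a + a * b * (g + gi) + b * b * (g * gi) := by
    have e1 : b * g * a = a * b * g := by
      rw [mul_assoc, hI.comm a ha, ← mul_assoc, C.hE.comm b hb a ha]
    have e2 : b * g * (b * gi) = b * b * (g * gi) := by
      rw [mul_assoc, ← mul_assoc g, hI.comm b hb]
      simp only [mul_assoc]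
    rw [add_mul, mul_add, mul_add, e1, e2, mul_add]
    simp only [mul_assoc]
    abel
  rw [e, ht, hI.mul, mul_one, hN]

/-- The matrix form of piece HFE. -/
theorem main_mat [Finite F] (C : HFE Q E r) {G Gi G' G'i : Matrix ι ι F}
    (hI : HFEIso Q E G Gi) (hJ : HFEIso Q E G' G'i) (hgg : G * G ≠ 1) (hgg' : G' * G' ≠ 1) :
    G * G' = G' * G := by
  obtain ⟨t, htE, ht⟩ := C.trace_mem hI
  have ht0 : t ≠ 0 := by
    rintro rfl
    apply hgg
    have h1 : G = -Gi := eq_neg_of_add_eq_zero_left ht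
    rw [C.neg_M] at h1
    nth_rewrite 2 [h1]
    exact hI.mul
  obtain ⟨v0, hv0⟩ : ∃ v0, Q v0 ≠ 0 := by
    by_contra hcon
    push Not at hcon
    have hall : ∀ v : ι → F, v = 0 := by
      intro v
      by_contra hv
      obtain ⟨⟨x, hx⟩, -⟩ := C.hQ.nondegenerate v hv
      apply hx
      unfold QuadraticMap.polar
      rw [hcon, hcon, hcon]
      ring
    apply hgg
    apply Helper98.matrix_ext_mulVec
    intro x
    rw [hall ((G * G) *ᵥ x), hall (1 *ᵥ x)]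
  have hv00 : v0 ≠ 0 := by
    rintro rfl
    exact hv0 C.Q_zero
  obtain ⟨a, ha, b, hb, hav, hN, hxQ⟩ := C.step5 hI ht htE ht0 hv0 hJ
  have hxc : ∀ k ∈ E, (a + b * G) * k = k * (a + b * G) := by
    intro k hk
    rw [add_mul, mul_add, C.hE.comm a ha k hk, mul_assoc, hI.comm k hk, ← mul_assoc,
      C.hE.comm b hb k hk, mul_assoc]
  have hxg : (a + b * G) * G = G * (a + b * G) := by
    rw [add_mul, mul_add, ← hI.comm a ha, ← mul_assoc, ← hI.comm b hb]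
  have hX : HFEIso Q E (a + b * G) (a + b * Gi) :=
    ⟨C.norm_mul hI ht ha hb hN, C.norm_mul hI.symm ((add_comm Gi G).trans ht) ha hb hN, hxQ, hxc⟩
  obtain ⟨x, hxdef⟩ : ∃ x, x = a + b * G := ⟨_, rfl⟩
  obtain ⟨x', hx'def⟩ : ∃ x', x' = a + b * Gi := ⟨_, rfl⟩
  rw [← hxdef, ← hx'def] at hX
  rw [← hxdef] at hav hxg
  obtain ⟨ρ, hρ⟩ : ∃ ρ, ρ = x' * G' := ⟨_, rfl⟩
  obtain ⟨ρi, hρi⟩ : ∃ ρi, ρi = G'i * x := ⟨_, rfl⟩
  have hR : HFEIso Q E ρ ρi := by
    rw [hρ, hρi]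
    exact hX.symm.mul_iso hJ
  have hρv : ρ *ᵥ v0 = v0 := by
    rw [hρ, ← Matrix.mulVec_mulVec, hav, Matrix.mulVec_mulVec, hX.mul', Matrix.one_mulVec]
  have hρiv : ρi *ᵥ v0 = v0 := by
    have h := congrArg (fun u => ρi *ᵥ u) hρv
    simp only [Matrix.mulVec_mulVec, hR.mul', Matrix.one_mulVec] at h
    exact h.symm
  obtain ⟨c, hc, hρc⟩ := C.trace_mem hR
  have hc0 : c = 0 := C.eq_zero_of_mulVec hc hv00
    (by rw [← hρc, Matrix.add_mulVec, hρv, hρiv, C.add_self_V])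
  have hρiρ : ρi = ρ := by
    have h1 : ρ = -ρi := eq_neg_of_add_eq_zero_left (hρc.trans hc0)
    rw [C.neg_M] at h1
    exact h1.symm
  have hρρ : ρ * ρ = 1 := by
    have := hR.mul
    rwa [hρiρ] at this
  have hG'x : G' = x * ρ := by rw [hρ, ← mul_assoc, hX.mul, one_mul]
  by_cases h1 : ρ = 1
  · rw [h1, mul_one] at hG'x
    rw [hG'x]
    exact hxg.symm
  exfalso
  have hRg : HFEIso Q E (ρ * G) (Gi * ρi) := hR.mul_iso hI
  obtain ⟨c, hc, d, hd, hcd, hN2, -⟩ := C.step5 hI ht htE ht0 hv0 hRg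
  have s1 : ρ *ᵥ (G *ᵥ v0) = c *ᵥ v0 + d *ᵥ (G *ᵥ v0) := by
    rw [Matrix.mulVec_mulVec, hcd, Matrix.add_mulVec, ← Matrix.mulVec_mulVec]
  have s2 : ρ *ᵥ (ρ *ᵥ (G *ᵥ v0)) = G *ᵥ v0 := by
    rw [Matrix.mulVec_mulVec, hρρ, Matrix.one_mulVec]
  have s3 : ρ *ᵥ (c *ᵥ v0 + d *ᵥ (G *ᵥ v0)) = (c + d * c) *ᵥ v0 + (d * d) *ᵥ (G *ᵥ v0) := by
    rw [Matrix.mulVec_add, comm_mulVec (hR.comm c hc), hρv, comm_mulVec (hR.comm d hd), s1,
      Matrix.mulVec_add, Matrix.mulVec_mulVec, Matrix.mulVec_mulVec, Matrix.add_mulVec]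
    abel
  have h3 : G *ᵥ v0 = (c + d * c) *ᵥ v0 + (d * d) *ᵥ (G *ᵥ v0) := by
    rw [← s3, ← s1, s2]
  have hdd : d * d = 1 := by
    by_contra hne
    have hne' : 1 + d * d ≠ 0 := by
      intro h0
      apply hne
      rw [eq_neg_of_add_eq_zero_right h0, C.neg_M]
    obtain ⟨z, hz, hz1, hz2⟩ := C.inv' (E.add_mem E.one_mem (E.mul_mem hd hd)) hne'
    have h5 : (1 + d * d) *ᵥ (G *ᵥ v0) = (c + d * c) *ᵥ v0 := by
      rw [Matrix.add_mulVec, Matrix.one_mulVec]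
      nth_rewrite 1 [h3]
      rw [add_assoc, C.add_self_V, add_zero]
    apply C.indep hI ht htE ht0 hv0 (E.mul_mem hz (E.add_mem hc (E.mul_mem hd hc)))
    rw [← Matrix.mulVec_mulVec, ← h5, Matrix.mulVec_mulVec, hz2, Matrix.one_mulVec]
  have hd1 : d = 1 := by
    have h6 : (d + 1) * (d + 1) = 0 := by
      rw [C.sq_add hd E.one_mem, hdd, mul_one, C.add_self_M]
    have h7 := C.sq_eq_zero (E.add_mem hd E.one_mem) h6
    rw [eq_neg_of_add_eq_zero_left h7, C.neg_M]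
  subst hd1
  simp only [mul_one, one_mul] at hN2 hcd
  have hct : c * (c + t) = 0 := by
    rw [mul_add]
    have h8 : c * c + c * t + 1 = 0 + 1 := by rw [zero_add]; exact hN2
    exact add_right_cancel h8
  by_cases hc0' : c = 0
  · apply h1
    apply C.ext_E hI ht htE ht0 hv0 hR.comm (fun k _ => by rw [one_mul, mul_one])
    · rw [hρv, Matrix.one_mulVec]
    · rw [Matrix.mulVec_mulVec, hcd, hc0', zero_add, Matrix.one_mulVec]
  · obtain ⟨ci, hci, hci1, hci2⟩ := C.inv' hc hc0'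
    have hct' : c + t = 0 := by
      calc c + t = (ci * c) * (c + t) := by rw [hci2, one_mul]
        _ = ci * (c * (c + t)) := by rw [mul_assoc]
        _ = 0 := by rw [hct, mul_zero]
    have hceq : c = t := by rw [eq_neg_of_add_eq_zero_left hct', C.neg_M]
    have hρG : (ρ * G) *ᵥ v0 = Gi *ᵥ v0 := by
      have e : G + Gi + G = Gi := by
        rw [add_comm G Gi, add_assoc, C.add_self_M, add_zero]
      rw [hcd, hceq, ← ht, e]
    have r1 : ρ *ᵥ (G *ᵥ v0) = Gi *ᵥ v0 := by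
      rw [Matrix.mulVec_mulVec]
      exact hρG
    have r2 : G *ᵥ (Gi *ᵥ v0) = v0 := by
      rw [Matrix.mulVec_mulVec, hI.mul, Matrix.one_mulVec]
    have r3 : Gi *ᵥ (G *ᵥ v0) = v0 := by
      rw [Matrix.mulVec_mulVec, hI.mul', Matrix.one_mulVec]
    have hconj : ρ * G * ρ = Gi := by
      apply C.ext_E hI ht htE ht0 hv0 ((hR.mul_iso hI).mul_iso hR).comm hI.symm.comm
      · rw [← Matrix.mulVec_mulVec, hρv, hρG]
      · rw [r3, ← Matrix.mulVec_mulVec, r1, ← Matrix.mulVec_mulVec, r2, hρv]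
    have hxρ : ρ * x * ρ = x' := by
      rw [hxdef, hx'def, mul_add, add_mul, hR.comm a ha, mul_assoc, hρρ, mul_one,
        ← mul_assoc ρ b G, hR.comm b hb, mul_assoc b ρ G, mul_assoc b (ρ * G) ρ, hconj]
    apply hgg'
    rw [hG'x]
    calc x * ρ * (x * ρ) = x * (ρ * x * ρ) := by simp only [mul_assoc]
      _ = 1 := by rw [hxρ, hX.mul]

end HFE

/-- PIECE HFE of CALL S5850 (characteristic 2): two `Q`-isometries commuting with a self-adjoint
alternating field subalgebra of half dimension, neither of order at most two, commute. -/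
theorem o10_rot_comm_two [Fintype F] (h2 : (2 : F) = 0) {r : ℕ}
    (Q : (ι → F) → F) (hQ : IsNondegenerateQuadraticForm Q) (hn : Fintype.card ι = 2 * r)
    (E : Subalgebra F (Matrix ι ι F)) (hE : IsFieldSubalgebra r E)
    (hsa : IsSelfAdjointFor (QuadraticMap.polar Q) E)
    (halt : ∀ k ∈ E, ∀ v : ι → F, QuadraticMap.polar Q (k *ᵥ v) v = 0)
    (g g' : GL ι F)
    (hg : ∀ x : ι → F, Q ((g : Matrix ι ι F) *ᵥ x) = Q x)
    (hg' : ∀ x : ι → F, Q ((g' : Matrix ι ι F) *ᵥ x) = Q x)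
    (hgE : ∀ k ∈ E, (g : Matrix ι ι F) * k = k * (g : Matrix ι ι F))
    (hg'E : ∀ k ∈ E, (g' : Matrix ι ι F) * k = k * (g' : Matrix ι ι F))
    (hg2 : g * g ≠ 1) (hg'2 : g' * g' ≠ 1) : g * g' = g' * g := by
  have C : HFE Q E r := ⟨h2, hQ, hn, hE, hsa, halt⟩
  have hI := HFEIso.of_GL (E := E) g hg hgE
  have hJ := HFEIso.of_GL (E := E) g' hg' hg'E
  have hgg : (g : Matrix ι ι F) * (g : Matrix ι ι F) ≠ 1 := by
    intro h
    apply hg2
    apply Units.ext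
    rw [Units.val_mul, Units.val_one]
    exact h
  have hgg' : (g' : Matrix ι ι F) * (g' : Matrix ι ι F) ≠ 1 := by
    intro h
    apply hg'2
    apply Units.ext
    rw [Units.val_mul, Units.val_one]
    exact h
  apply Units.ext
  rw [Units.val_mul, Units.val_mul]
  exact C.main_mat hI hJ hgg hgg'

end Cfsg.Agent.Helper58
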