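import Mathlib
import Cfsg.Agent.Helper96.OHDefs
import Cfsg.Agent.Helper69.ODDefs
import Cfsg.Agent.Helper33.ODDSISO2
import Cfsg.Agent.Helper52.ODDSKEVEN
import Cfsg.Agent.Helper70.TSR2Z
import Cfsg.Agent.Helper58.ODDGOOD2

set_option autoImplicit false
set_option linter.unusedSectionVars false
set_option linter.unusedVariables false

/-!
# CALL OD, piece R2GEN (helper58): for `r = 2` every non-scalar element of `Ω` with scalar square
fixes a member of the isometry class of `W₀` (odd dimension `m < d`) iff `Ω` has no skew element.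
-/

namespace Cfsg.Agent.Helper58.OD59

open Module Polynomial Cfsg Cfsg.Geo
open Cfsg.Agent.Helper13.TIu Cfsg.Agent.Helper96.OH Cfsg.Agent.Helper69.OD
open Cfsg.Agent.Helper33.OD59 (iso_of_ods)
open Cfsg.Agent.Helper52.OD59 (od_skew_even)
open scoped MatrixGroups

variable {ι : Type} [Fintype ι] [DecidableEq ι] {F : Type*} [Field F] (Q : (ι → F) → F)

/-- R2GEN -/
theorem od_two_iff [Fintype F] (hQ : IsNondegenerateQuadraticForm Q) (h2 : (2 : F) ≠ 0)
    (d m : ℕ) (hcard : Fintype.card ι = 2 * d) (hmo : Odd m) (hmd : m < d)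
    (W₀ : Submodule F (ι → F)) (hW₀ : finrank F W₀ = m ∧ ONd Q W₀) :
    (∀ x : GL ι F, x ∈ Cfsg.Geo.omegaGL Q →
      (∃ z : F, ((x ^ 2 : GL ι F) : Matrix ι ι F) = z • (1 : Matrix ι ι F)) →
      (∀ z : F, (x : Matrix ι ι F) ≠ z • (1 : Matrix ι ι F)) →
      ∃ W : Submodule F (ι → F), (finrank F W = m ∧ ONd Q W ∧ AreIsometricFor Q W W₀) ∧
        W.map (Matrix.toLin' (x : Matrix ι ι F)) ≤ W) ↔
    ¬ ∃ g : ↥(Cfsg.isometryGroup F Q), g ∈ Cfsg.Omega F Q ∧
      ((g : GL ι F) : Matrix ι ι F) * ((g : GL ι F) : Matrix ι ι F) = -1 := by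
  have hne : Nonempty ι := by
    rw [← Fintype.card_pos_iff]
    omega
  have hm0 : 0 < m := hmo.pos
  constructor
  · rintro H ⟨g, hgΩ, hg2⟩
    have hxΩ : (g : GL ι F) ∈ Cfsg.Geo.omegaGL Q := ⟨g, hgΩ, rfl⟩
    have hgI : ∀ v, Q (((g : GL ι F) : Matrix ι ι F).mulVec v) = Q v := fun v => g.2 v 0
    have hno : ∀ W : Submodule F (ι → F), finrank F W = m → ONd Q W →
        ¬ W.map (Matrix.toLin' ((g : GL ι F) : Matrix ι ι F)) ≤ W := by
      intro W hWm hWnd hinv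
      have hev := od_skew_even Q hQ h2 _ hgI hg2 W hinv hWnd
      rw [hWm] at hev
      exact (Nat.not_even_iff_odd.mpr hmo) hev
    have hsq : ∃ z : F, (((g : GL ι F) ^ 2 : GL ι F) : Matrix ι ι F) =
        z • (1 : Matrix ι ι F) := by
      refine ⟨-1, ?_⟩
      rw [pow_two, Units.val_mul, hg2]
      simp
    have hns : ∀ z : F, ((g : GL ι F) : Matrix ι ι F) ≠ z • (1 : Matrix ι ι F) := by
      intro z hz
      apply hno W₀ hW₀.1 hW₀.2
      rintro _ ⟨w, hw, rfl⟩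
      rw [hz, Matrix.toLin'_apply, Matrix.smul_mulVec, Matrix.one_mulVec]
      exact W₀.smul_mem z hw
    obtain ⟨W, ⟨hWm, hWnd, -⟩, hinv⟩ := H _ hxΩ hsq hns
    exact hno W hWm hWnd hinv
  · rintro hno x hxΩ ⟨z, hz⟩ hns
    have hxI : x ∈ Cfsg.isometryGroup F Q := by
      obtain ⟨y, -, rfl⟩ := hxΩ
      exact y.2
    have hM : ∀ v, Q ((x : Matrix ι ι F).mulVec v) = Q v := fun v => hxI v 0
    have hz' : (x : Matrix ι ι F) * (x : Matrix ι ι F) = z • (1 : Matrix ι ι F) := by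
      rw [← hz, pow_two]
      rfl
    rcases Cfsg.Agent.Helper70.TSR2.r2_z Q hQ hne _ hM z hz' with rfl | rfl
    · rw [one_smul] at hz'
      obtain ⟨W, ⟨hWm, hWnd, hb⟩, hinv⟩ :=
        od_good_two Q hQ h2 _ hM hz' m hm0 (by omega) (ODs Q W₀)
      exact ⟨W, ⟨hWm, hWnd, iso_of_ods Q hQ h2 W W₀ hWnd hW₀.2 (by rw [hWm, hW₀.1]) hb⟩, hinv⟩
    · exfalso
      apply hno
      obtain ⟨y, hy, rfl⟩ := hxΩ
      refine ⟨y, hy, ?_⟩
      have hz2 : ((y : GL ι F) : Matrix ι ι F) * ((y : GL ι F) : Matrix ι ι F) =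
          (-1 : F) • (1 : Matrix ι ι F) := hz'
      rw [hz2]
      simp

end Cfsg.Agent.Helper58.OD59
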