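import Mathlib
import Cfsg.Agent.Helper71.SODefs
import Cfsg.Agent.Helper58.SOTools

/-!
# CALL S5843 (helper71), PIECE ZA: `conj_rad`.
-/

set_option autoImplicit false
set_option linter.unusedVariables false

namespace Cfsg.Agent.Helper58.SOZA

open Matrix Cfsg.Agent.Helper71.T4 Cfsg.Agent.Helper71.SO
open Cfsg.Agent.Helper96.T5 Cfsg.Agent.Helper58.SOT
open scoped Kronecker

variable {F : Type*} [Field F] {n : ℕ}

/-! ## Piece ZA -/
theorem conj_rad (h2 : (2 : F) ≠ 0) (S : Matrix (Fin n) (Fin n) F) (hS : Sᵀ = S)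
    (hdet : S.det ≠ 0) (M : Subgroup (GL (Fin 2 × Fin n) F)) (hSp : SpLE S M) (hH : HasH S M)
    (u : Fin n → F) (hu : u ≠ 0) (huu : bl S u u = 0)
    (hrad : ∀ ρ : GL (Fin 2 × Fin n) F, ρ ∈ M →
      (∀ a : Fin 2 → F, (ρ : Matrix (Fin 2 × Fin n) (Fin 2 × Fin n) F) *ᵥ pt a u = pt a u) →
      (∀ (a : Fin 2 → F) (y : Fin n → F), bl S u y = 0 → ∃ a' : Fin 2 → F,
        (ρ : Matrix (Fin 2 × Fin n) (Fin 2 × Fin n) F) *ᵥ pt a y = pt a y + pt a' u) →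
      ∃ w : Fin n → F, bl S u w = 0 ∧ (ρ : Matrix (Fin 2 × Fin n) (Fin 2 × Fin n) F)
        = (1 : Matrix (Fin 2) (Fin 2) F) ⊗ₖ ruw S u w)
    (k : GL (Fin 2 × Fin n) F) (hk : k ∈ M)
    (hku : ∀ a : Fin 2 → F, ∃ a' : Fin 2 → F,
      (k : Matrix (Fin 2 × Fin n) (Fin 2 × Fin n) F) *ᵥ pt a u = pt a' u)
    (w : Fin n → F) (huw : bl S u w = 0) :
    ∃ w' : Fin n → F, bl S u w' = 0 ∧
      (k : Matrix (Fin 2 × Fin n) (Fin 2 × Fin n) F) * ((1 : Matrix (Fin 2) (Fin 2) F) ⊗ₖ ruw S u w)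
        = ((1 : Matrix (Fin 2) (Fin 2) F) ⊗ₖ ruw S u w')
          * (k : Matrix (Fin 2 × Fin n) (Fin 2 × Fin n) F) := by
  classical
  obtain ⟨τ, hτM, hτ⟩ := root_inM' h2 S hS M hH u w huu huw
  choose φ hφ using hku
  have hφadd : ∀ a b, φ (a + b) = φ a + φ b := by
    intro a b
    apply pt_left_inj u hu
    rw [← hφ, pt_add_left, Matrix.mulVec_add, hφ, hφ, pt_add_left]
  have hφsmul : ∀ (c : F) a, φ (c • a) = c • φ a := by
    intro c a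
    apply pt_left_inj u hu
    rw [← hφ, pt_smul_left, Matrix.mulVec_smul, hφ, pt_smul_left]
  let φl : (Fin 2 → F) →ₗ[F] (Fin 2 → F) :=
    { toFun := φ, map_add' := hφadd, map_smul' := fun c a => by simpa using hφsmul c a }
  have hkinv : ∀ x, (k⁻¹ : GL (Fin 2 × Fin n) F).1 *ᵥ (k.1 *ᵥ x) = x := by
    intro x
    rw [Matrix.mulVec_mulVec, ← Units.val_mul, inv_mul_cancel, Units.val_one, Matrix.one_mulVec]
  have hkinv' : ∀ x, k.1 *ᵥ ((k⁻¹ : GL (Fin 2 × Fin n) F).1 *ᵥ x) = x := by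
    intro x
    rw [Matrix.mulVec_mulVec, ← Units.val_mul, mul_inv_cancel, Units.val_one, Matrix.one_mulVec]
  have hφinj : Function.Injective φl := by
    rw [← LinearMap.ker_eq_bot, LinearMap.ker_eq_bot']
    intro a ha
    have h1 : k.1 *ᵥ pt a u = 0 := by
      rw [hφ]
      change pt (φl a) u = 0
      rw [ha, pt_zero_left]
    have h3 := hkinv (pt a u)
    rw [h1, Matrix.mulVec_zero] at h3
    apply pt_left_inj u hu
    rw [← h3, pt_zero_left]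
  have hφsurj : Function.Surjective φl := LinearMap.surjective_of_injective hφinj
  have hρM : k * τ * k⁻¹ ∈ M := M.mul_mem (M.mul_mem hk hτM) (M.inv_mem hk)
  have hρv : ∀ x, (k * τ * k⁻¹ : GL (Fin 2 × Fin n) F).1 *ᵥ x =
      k.1 *ᵥ (((1 : Matrix (Fin 2) (Fin 2) F) ⊗ₖ ruw S u w) *ᵥ
        ((k⁻¹ : GL (Fin 2 × Fin n) F).1 *ᵥ x)) := by
    intro x
    rw [Units.val_mul, Units.val_mul, hτ, Matrix.mulVec_mulVec, Matrix.mulVec_mulVec]
  have h1 : ∀ a : Fin 2 → F, (k * τ * k⁻¹ : GL (Fin 2 × Fin n) F).1 *ᵥ pt a u = pt a u := by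
    intro a
    obtain ⟨a₀, ha₀⟩ := hφsurj a
    have hk0 : k.1 *ᵥ pt a₀ u = pt a u := by
      rw [hφ]
      exact congrArg (fun z => pt z u) ha₀
    have hki : (k⁻¹ : GL (Fin 2 × Fin n) F).1 *ᵥ pt a u = pt a₀ u := by rw [← hk0, hkinv]
    rw [hρv, hki, kron_mulVec_pt, Matrix.one_mulVec, ruw_fix S hS u w huu huw, hk0]
  have h2' : ∀ (a : Fin 2 → F) (y : Fin n → F), bl S u y = 0 → ∃ a' : Fin 2 → F,
      (k * τ * k⁻¹ : GL (Fin 2 × Fin n) F).1 *ᵥ pt a y = pt a y + pt a' u := by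
    intro a y hy
    have hkv : k.1 *ᵥ ((k⁻¹ : GL (Fin 2 × Fin n) F).1 *ᵥ pt a y) = pt a y := hkinv' _
    have hcnt : cnt S u ((k⁻¹ : GL (Fin 2 × Fin n) F).1 *ᵥ pt a y) = 0 := by
      apply cnt_zero_of_perp
      intro b
      rw [← om_isom S k.1 (hSp k hk), hkv, hφ, om_pt, bl_comm S hS y u, hy, mul_zero]
    refine ⟨φ (fun i => bl S (fun l => ((k⁻¹ : GL (Fin 2 × Fin n) F).1 *ᵥ pt a y) (i, l)) w), ?_⟩
    rw [hρv, tau_mulVec_of_cnt S hS u w huu huw _ hcnt, Matrix.mulVec_add, hkv, hφ]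
  obtain ⟨w', hw', hρw'⟩ := hrad (k * τ * k⁻¹) hρM h1 h2'
  refine ⟨w', hw', ?_⟩
  rw [← hρw', ← hτ, ← Units.val_mul, ← Units.val_mul]
  congr 1
  group

end Cfsg.Agent.Helper58.SOZA
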