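import Mathlib
import Cfsg.Agent.Helper71.SODefs
import Cfsg.Agent.Helper58.SOTools

/-!
# CALL S5843 (helper71), PIECE ZB1: `levi_graded`.
-/

set_option autoImplicit false
set_option linter.unusedVariables false

namespace Cfsg.Agent.Helper58.SOZB1

open Matrix Cfsg.Agent.Helper71.T4 Cfsg.Agent.Helper71.SO
open Cfsg.Agent.Helper96.T5 Cfsg.Agent.Helper58.SOT
open scoped Kronecker

variable {F : Type*} [Field F] {n : ℕ}

theorem pt_sub_right' (a : Fin 2 → F) (w w' : Fin n → F) : pt a (w - w') = pt a w - pt a w' := by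
  ext p; simp [pt, mul_sub]

theorem pt_sub_left' (a a' : Fin 2 → F) (w : Fin n → F) : pt (a - a') w = pt a w - pt a' w := by
  ext p; simp [pt, sub_mul]

/-- the action of a root element `1 ⊗ r_{u,w}` on an arbitrary vector -/
theorem tau_mulVec_gen (S : Matrix (Fin n) (Fin n) F) (hS : Sᵀ = S)
    (u w : Fin n → F) (huu : bl S u u = 0) (huw : bl S u w = 0) (v : Fin 2 × Fin n → F) :
    ((1 : Matrix (Fin 2) (Fin 2) F) ⊗ₖ ruw S u w) *ᵥ v =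
      v + pt (fun i => bl S (fun l => v (i, l)) w - 2⁻¹ * bl S w w * cnt S u v i) u
        - pt (cnt S u v) w := by
  ext ⟨i, l⟩
  rw [one_kron_mulVec, ruw_mulVec' S hS u w _ huu huw]
  have h0 : bl S (fun l' => v (i, l')) u = cnt S u v i := by
    simp only [cnt]
    unfold bl
    simp only [dotProduct]
    exact Finset.sum_congr rfl fun k _ => mul_comm _ _
  rw [h0]
  simp [pt]

/-! ## Piece ZB1 -/
theorem levi_graded (hn : 3 ≤ n) (h2 : (2 : F) ≠ 0) (S : Matrix (Fin n) (Fin n) F) (hS : Sᵀ = S)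
    (hdet : S.det ≠ 0) (u u₁ : Fin n → F) (hu : u ≠ 0) (huu : bl S u u = 0)
    (hu₁ : bl S u₁ u₁ = 0) (huu₁ : bl S u u₁ = 1)
    (k : Matrix (Fin 2 × Fin n) (Fin 2 × Fin n) F) (hkdet : k.det ≠ 0) (hksp : IsSpM S k)
    (hku : ∀ a : Fin 2 → F, ∃ a' : Fin 2 → F, k *ᵥ pt a u = pt a' u)
    (hconj : ∀ w : Fin n → F, bl S u w = 0 → ∃ w' : Fin n → F, bl S u w' = 0 ∧
      k * ((1 : Matrix (Fin 2) (Fin 2) F) ⊗ₖ ruw S u w)
        = ((1 : Matrix (Fin 2) (Fin 2) F) ⊗ₖ ruw S u w') * k) :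
    ∃ (A : Matrix (Fin 2) (Fin 2) F) (B₁ : Matrix (Fin n) (Fin n) F) (μ : F),
      A.det * μ = 1 ∧
      (∀ a : Fin 2 → F, k *ᵥ pt a u = pt (μ • A *ᵥ a) u) ∧
      (∀ y : Fin n → F, bl S u y = 0 → bl S u (B₁ *ᵥ y) = 0) ∧
      (∀ y y' : Fin n → F, bl S u y = 0 → bl S u y' = 0 →
        bl S (B₁ *ᵥ y) (B₁ *ᵥ y') = μ * bl S y y') ∧
      (∀ (a : Fin 2 → F) (y : Fin n → F), bl S u y = 0 → ∃ d : Fin 2 → F,
        k *ᵥ pt a y = pt (A *ᵥ a) (B₁ *ᵥ y) + pt d u) := by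
  classical
  choose φ hφ using hku
  have hu₁u : bl S u₁ u = 1 := by rw [bl_comm S hS, huu₁]
  obtain ⟨A, hA⟩ : ∃ A : Matrix (Fin 2) (Fin 2) F, ∀ a, A *ᵥ a = cnt S u (k *ᵥ pt a u₁) :=
    ⟨blk k (S *ᵥ u) u₁, fun a => blk_mulVec_eq_cnt S k u u₁ a⟩
  have hksp' := om_isom S k hksp
  have hAinj : ∀ a, A *ᵥ a = 0 → a = 0 := by
    intro a ha
    apply j2_nondeg
    intro b
    have h1 := hksp' (pt a u₁) (pt b u)
    rw [om_pt, hu₁u, mul_one, hφ] at h1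
    rw [← h1]
    have h3 : bf (Om S) (k *ᵥ pt a u₁) (pt (φ b) u) =
        bf (J2 F) (cnt S u (k *ᵥ pt a u₁)) (φ b) :=
      Cfsg.Agent.Helper33.T5CNT.bf_kron_pt_cnt (J2 F) S u (φ b) _
    rw [h3, ← hA, ha, bf_zero_left]
  have hAe : A *ᵥ (Pi.single 0 1 : Fin 2 → F) ≠ 0 := by
    intro h
    have h1 := congrFun (hAinj _ h) 0
    simp at h1
  obtain ⟨i₀, hi₀⟩ : ∃ i, (A *ᵥ (Pi.single 0 1 : Fin 2 → F)) i ≠ 0 := by
    by_contra h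
    push Not at h
    exact hAe (funext h)
  -- the graded form of `k` on `F^2 ⊗ u^⊥`
  have hR1 : ∀ w, bl S u w = 0 → ∃ w', bl S u w' = 0 ∧
      k * ((1 : Matrix (Fin 2) (Fin 2) F) ⊗ₖ ruw S u w) =
        ((1 : Matrix (Fin 2) (Fin 2) F) ⊗ₖ ruw S u w') * k ∧
      ∀ a, ∃ d, k *ᵥ pt a w = pt (A *ᵥ a) w' + pt d u := by
    intro w hw
    obtain ⟨w', hw', hrel⟩ := hconj w hw
    refine ⟨w', hw', hrel, fun a => ?_⟩
    have h1 : k *ᵥ (((1 : Matrix (Fin 2) (Fin 2) F) ⊗ₖ ruw S u w) *ᵥ pt a u₁) =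
        ((1 : Matrix (Fin 2) (Fin 2) F) ⊗ₖ ruw S u w') *ᵥ (k *ᵥ pt a u₁) := by
      rw [Matrix.mulVec_mulVec, Matrix.mulVec_mulVec, hrel]
    have hL : ((1 : Matrix (Fin 2) (Fin 2) F) ⊗ₖ ruw S u w) *ᵥ pt a u₁ =
        pt a u₁ + (bl S u₁ w - 2⁻¹ * bl S w w) • pt a u - pt a w := by
      rw [kron_mulVec_pt, Matrix.one_mulVec, ruw_mulVec' S hS u w u₁ huu hw, hu₁u, pt_sub_right',
        pt_add_right, pt_smul_right, pt_smul_right, mul_one, one_smul]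
    obtain ⟨c, hc⟩ : ∃ c : Fin 2 → F,
        ((1 : Matrix (Fin 2) (Fin 2) F) ⊗ₖ ruw S u w') *ᵥ (k *ᵥ pt a u₁) =
          k *ᵥ pt a u₁ + pt c u - pt (A *ᵥ a) w' :=
      ⟨_, by rw [tau_mulVec_gen S hS u w' huu hw', hA]⟩
    rw [hL, hc, Matrix.mulVec_sub, Matrix.mulVec_add, Matrix.mulVec_smul, hφ] at h1
    refine ⟨(bl S u₁ w - 2⁻¹ * bl S w w) • φ a - c, ?_⟩
    rw [pt_sub_left', pt_smul_left]
    have h3 : k *ᵥ pt a w = (k *ᵥ pt a u₁ + (bl S u₁ w - 2⁻¹ * bl S w w) • pt (φ a) u) -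
        (k *ᵥ pt a u₁ + pt c u - pt (A *ᵥ a) w') := by
      rw [← h1]
      abel
    rw [h3]
    abel
  -- the matrix `B₁`
  obtain ⟨B₁, hB₁⟩ : ∃ B₁ : Matrix (Fin n) (Fin n) F, ∀ y l, (B₁ *ᵥ y) l =
      ((A *ᵥ (Pi.single 0 1 : Fin 2 → F)) i₀)⁻¹ *
        (k *ᵥ pt (Pi.single 0 1 : Fin 2 → F) y) (i₀, l) := by
    refine ⟨((A *ᵥ (Pi.single 0 1 : Fin 2 → F)) i₀)⁻¹ •
      Matrix.of (fun l l' => k (i₀, l) (0, l')), fun y l => ?_⟩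
    rw [Matrix.smul_mulVec, Pi.smul_apply, smul_eq_mul]
    congr 1
    simp only [Matrix.mulVec, dotProduct, Fintype.sum_prod_type, pt, Matrix.of_apply,
      Fin.sum_univ_two]
    simp
  have hB₁y : ∀ y y', (∀ a, ∃ d, k *ᵥ pt a y = pt (A *ᵥ a) y' + pt d u) →
      ∃ c : F, B₁ *ᵥ y = y' + c • u := by
    intro y y' h
    obtain ⟨d, hd⟩ := h (Pi.single 0 1)
    refine ⟨((A *ᵥ (Pi.single 0 1 : Fin 2 → F)) i₀)⁻¹ * d i₀, ?_⟩
    ext l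
    rw [hB₁, hd]
    simp only [Pi.add_apply, pt, Pi.smul_apply, smul_eq_mul]
    field_simp
  have hR5 : ∀ y w y' w', bl S u y = 0 → bl S u w = 0 → bl S u y' = 0 → bl S u w' = 0 →
      k * ((1 : Matrix (Fin 2) (Fin 2) F) ⊗ₖ ruw S u w) =
        ((1 : Matrix (Fin 2) (Fin 2) F) ⊗ₖ ruw S u w') * k →
      (∀ a, ∃ d, k *ᵥ pt a y = pt (A *ᵥ a) y' + pt d u) →
      ∀ a, bl S y w • φ a = bl S y' w' • A *ᵥ a := by
    intro y w y' w' hy hw hy' hw' hrel hyy a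
    obtain ⟨d, hd⟩ := hyy a
    have h1 : k *ᵥ (((1 : Matrix (Fin 2) (Fin 2) F) ⊗ₖ ruw S u w) *ᵥ pt a y) =
        ((1 : Matrix (Fin 2) (Fin 2) F) ⊗ₖ ruw S u w') *ᵥ (k *ᵥ pt a y) := by
      rw [Matrix.mulVec_mulVec, Matrix.mulVec_mulVec, hrel]
    have hyu : bl S y u = 0 := by rw [bl_comm S hS, hy]
    have hy'u : bl S y' u = 0 := by rw [bl_comm S hS, hy']
    have hL : ((1 : Matrix (Fin 2) (Fin 2) F) ⊗ₖ ruw S u w) *ᵥ pt a y =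
        pt a y + bl S y w • pt a u := by
      rw [kron_mulVec_pt, Matrix.one_mulVec, ruw_mulVec' S hS u w y huu hw, hyu, pt_sub_right',
        pt_add_right, pt_smul_right, pt_smul_right]
      simp
    have hR : ((1 : Matrix (Fin 2) (Fin 2) F) ⊗ₖ ruw S u w') *ᵥ (pt (A *ᵥ a) y' + pt d u) =
        pt (A *ᵥ a) y' + pt d u + bl S y' w' • pt (A *ᵥ a) u := by
      rw [Matrix.mulVec_add, kron_mulVec_pt, kron_mulVec_pt, Matrix.one_mulVec, Matrix.one_mulVec,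
        ruw_fix S hS u w' huu hw', ruw_mulVec' S hS u w' y' huu hw', hy'u, pt_sub_right',
        pt_add_right, pt_smul_right, pt_smul_right]
      simp
      abel
    rw [hL, Matrix.mulVec_add, Matrix.mulVec_smul, hφ, hd, hR] at h1
    apply pt_left_inj u hu
    rw [pt_smul_left, pt_smul_left]
    exact add_left_cancel h1
  -- a pair `y₀, w₀ ⟂ u` with `bl y₀ w₀ = 1`
  obtain ⟨y₀, hy₀0, hy₀u, hy₀u₁⟩ := exists_perp2 hn (S *ᵥ u) (S *ᵥ u₁)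
  have hy₀u' : bl S y₀ u = 0 := hy₀u
  have hy₀u₁' : bl S y₀ u₁ = 0 := hy₀u₁
  obtain ⟨z, hz⟩ := exists_bf_eq_one S hdet y₀ hy₀0
  have hz' : bl S y₀ z = 1 := hz
  have hw₀u : bl S u (z - bl S z u₁ • u - bl S z u • u₁) = 0 := by
    rw [bl_sub_right, bl_sub_right, bl_smul_right, bl_smul_right, huu, huu₁, bl_comm S hS u z]
    ring
  have hy₀w₀ : bl S y₀ (z - bl S z u₁ • u - bl S z u • u₁) = 1 := by
    rw [bl_sub_right, bl_sub_right, bl_smul_right, bl_smul_right, hy₀u', hy₀u₁', hz']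
    ring
  have huy₀ : bl S u y₀ = 0 := by rw [bl_comm S hS, hy₀u']
  obtain ⟨y₀', hy₀', hrely, hyy₀⟩ := hR1 y₀ huy₀
  obtain ⟨w₀', hw₀', hrelw, hww₀⟩ := hR1 _ hw₀u
  have hφA : ∀ a, φ a = bl S y₀' w₀' • A *ᵥ a := by
    intro a
    have h5 := hR5 y₀ _ y₀' w₀' huy₀ hw₀u hy₀' hw₀' hrelw hyy₀ a
    rwa [hy₀w₀, one_smul] at h5
  have hdetA : A.det * bl S y₀' w₀' = 1 := by
    have h1 := hksp' (pt ![1, 0] u₁) (pt ![0, 1] u)
    rw [om_pt, hu₁u, mul_one, hφ, hφA] at h1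
    have h3 : bf (Om S) (k *ᵥ pt ![1, 0] u₁) (pt (bl S y₀' w₀' • A *ᵥ ![0, 1]) u) =
        bf (J2 F) (cnt S u (k *ᵥ pt ![1, 0] u₁)) (bl S y₀' w₀' • A *ᵥ ![0, 1]) :=
      Cfsg.Agent.Helper33.T5CNT.bf_kron_pt_cnt (J2 F) S u _ _
    rw [h3, ← hA, bf_smul_right] at h1
    have h4 : bf (J2 F) (A *ᵥ ![1, 0]) (A *ᵥ ![0, 1]) = A.det := by
      simp [bf, J2, dotProduct, Matrix.mulVec, Fin.sum_univ_two, Matrix.det_fin_two]
      ring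
    have h5 : bf (J2 F) ![1, 0] ![0, 1] = 1 := by
      simp [bf, J2, dotProduct, Matrix.mulVec, Fin.sum_univ_two]
    rw [h4, h5] at h1
    rw [mul_comm]
    exact h1
  refine ⟨A, B₁, bl S y₀' w₀', hdetA, fun a => by rw [hφ, hφA], ?_, ?_, ?_⟩
  · intro y hy
    obtain ⟨y', hy', hrel, hyy⟩ := hR1 y hy
    obtain ⟨c, hc⟩ := hB₁y y y' hyy
    rw [hc, bl_add_right, bl_smul_right, hy', huu]
    ring
  · intro y y₂ hy hy₂
    obtain ⟨y', hy', hrel, hyy⟩ := hR1 y hy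
    obtain ⟨y₂', hy₂', hrel₂, hyy₂⟩ := hR1 y₂ hy₂
    obtain ⟨c, hc⟩ := hB₁y y y' hyy
    obtain ⟨c₂, hc₂⟩ := hB₁y y₂ y₂' hyy₂
    have h5 := hR5 y y₂ y' y₂' hy hy₂ hy' hy₂' hrel₂ hyy (Pi.single 0 1)
    rw [hφA, smul_smul] at h5
    have h6 := congrFun h5 i₀
    simp only [Pi.smul_apply, smul_eq_mul] at h6
    have h7 : bl S y' y₂' = bl S y₀' w₀' * bl S y y₂ := by
      have h8 := mul_right_cancel₀ hi₀ h6
      rw [← h8]
      ring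
    have hy'u : bl S y' u = 0 := by rw [bl_comm S hS, hy']
    rw [hc, hc₂]
    simp only [bl_add_left, bl_add_right, bl_smul_left, bl_smul_right, hy'u, hy₂', huu, h7]
    ring
  · intro a y hy
    obtain ⟨y', hy', hrel, hyy⟩ := hR1 y hy
    obtain ⟨c, hc⟩ := hB₁y y y' hyy
    obtain ⟨d, hd⟩ := hyy a
    refine ⟨d - c • A *ᵥ a, ?_⟩
    rw [hd, hc, pt_add_right, pt_smul_right, pt_sub_left', pt_smul_left]
    abel

end Cfsg.Agent.Helper58.SOZB1
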