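import Mathlib
import Cfsg.Agent.Helper71.SODefs
import Cfsg.Agent.Helper58.SOTools

/-!
# CALL S5843 (helper71), PIECE ZB2: `levi_lift`.
-/

set_option autoImplicit false
set_option linter.unusedVariables false

namespace Cfsg.Agent.Helper58.SOZB2

open Matrix Cfsg.Agent.Helper71.T4 Cfsg.Agent.Helper71.SO
open Cfsg.Agent.Helper96.T5 Cfsg.Agent.Helper58.SOT
open scoped Kronecker

variable {F : Type*} [Field F] {n : ℕ}

/-! ## Piece ZB2 -/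
theorem levi_lift (hn : 3 ≤ n) (h2 : (2 : F) ≠ 0) (S : Matrix (Fin n) (Fin n) F) (hS : Sᵀ = S)
    (hdet : S.det ≠ 0) (u u₁ : Fin n → F) (hu : u ≠ 0) (huu : bl S u u = 0)
    (hu₁ : bl S u₁ u₁ = 0) (huu₁ : bl S u u₁ = 1)
    (k : Matrix (Fin 2 × Fin n) (Fin 2 × Fin n) F)
    (A : Matrix (Fin 2) (Fin 2) F) (B₁ : Matrix (Fin n) (Fin n) F) (μ : F)
    (hAμ : A.det * μ = 1)
    (hk0 : ∀ a : Fin 2 → F, k *ᵥ pt a u = pt (μ • A *ᵥ a) u)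
    (hk1 : ∀ y : Fin n → F, bl S u y = 0 → bl S u (B₁ *ᵥ y) = 0)
    (hk2 : ∀ y y' : Fin n → F, bl S u y = 0 → bl S u y' = 0 →
      bl S (B₁ *ᵥ y) (B₁ *ᵥ y') = μ * bl S y y')
    (hk3 : ∀ (a : Fin 2 → F) (y : Fin n → F), bl S u y = 0 → ∃ d : Fin 2 → F,
      k *ᵥ pt a y = pt (A *ᵥ a) (B₁ *ᵥ y) + pt d u) :
    ∃ (B : Matrix (Fin n) (Fin n) F) (ρ : Matrix (Fin 2 × Fin n) (Fin 2 × Fin n) F),
      Bᵀ * S * B = μ • S ∧ k = (A ⊗ₖ B) * ρ ∧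
      (∀ a : Fin 2 → F, ρ *ᵥ pt a u = pt a u) ∧
      (∀ (a : Fin 2 → F) (y : Fin n → F), bl S u y = 0 → ∃ a' : Fin 2 → F,
        ρ *ᵥ pt a y = pt a y + pt a' u) := by
  classical
  have hμ : μ ≠ 0 := by
    rintro rfl
    simp at hAμ
  have hAdet : A.det ≠ 0 := by
    intro h
    rw [h, zero_mul] at hAμ
    exact zero_ne_one hAμ
  have hu₁u : bl S u₁ u = 1 := by rw [bl_comm S hS, huu₁]
  -- the projection onto `{u, u₁}^⊥`
  obtain ⟨πM, hπ⟩ : ∃ πM : Matrix (Fin n) (Fin n) F,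
      ∀ x, πM *ᵥ x = x - bl S x u₁ • u - bl S x u • u₁ := by
    refine ⟨1 - rk S u u₁ - rk S u₁ u, fun x => ?_⟩
    rw [Matrix.sub_mulVec, Matrix.sub_mulVec, Matrix.one_mulVec, rk_mulVec, rk_mulVec]
    rfl
  have hπu : ∀ x, bl S (πM *ᵥ x) u = 0 := by
    intro x
    rw [hπ, bl_sub_left, bl_sub_left, bl_smul_left, bl_smul_left, huu, hu₁u]
    ring
  have hπu₁ : ∀ x, bl S (πM *ᵥ x) u₁ = 0 := by
    intro x
    rw [hπ, bl_sub_left, bl_sub_left, bl_smul_left, bl_smul_left, huu₁, hu₁]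
    ring
  have huπ : ∀ x, bl S u (πM *ᵥ x) = 0 := fun x => by rw [bl_comm S hS, hπu]
  have hu₁π : ∀ x, bl S u₁ (πM *ᵥ x) = 0 := fun x => by rw [bl_comm S hS, hπu₁]
  have hππ : ∀ z z', bl S u z = 0 → bl S u z' = 0 →
      bl S (πM *ᵥ z) (πM *ᵥ z') = bl S z z' := by
    intro z z' hz hz'
    have hz2 : bl S z u = 0 := by rw [bl_comm S hS, hz]
    have hz2' : bl S z' u = 0 := by rw [bl_comm S hS, hz']
    rw [hπ z, hπ z', hz2, hz2']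
    simp only [zero_smul, sub_zero, bl_sub_left, bl_sub_right, bl_smul_left, bl_smul_right, huu,
      hz2, hz']
    ring
  obtain ⟨B, hBx⟩ : ∃ B : Matrix (Fin n) (Fin n) F, ∀ x, B *ᵥ x =
      (μ * bl S x u₁) • u + bl S x u • u₁ + πM *ᵥ (B₁ *ᵥ (πM *ᵥ x)) := by
    refine ⟨μ • rk S u u₁ + rk S u₁ u + πM * B₁ * πM, fun x => ?_⟩
    rw [Matrix.add_mulVec, Matrix.add_mulVec, Matrix.smul_mulVec, rk_mulVec, rk_mulVec, smul_smul,
      ← Matrix.mulVec_mulVec, ← Matrix.mulVec_mulVec]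
    rfl
  have hBiso : ∀ x y, bl S (B *ᵥ x) (B *ᵥ y) = μ * bl S x y := by
    intro x y
    have hp := hππ _ _ (hk1 _ (huπ x)) (hk1 _ (huπ y))
    rw [hk2 _ _ (huπ x) (huπ y)] at hp
    have hxy : bl S (πM *ᵥ x) (πM *ᵥ y) =
        bl S x y - bl S x u₁ * bl S y u - bl S x u * bl S y u₁ := by
      rw [hπ x, bl_sub_left, bl_sub_left, bl_smul_left, bl_smul_left, huπ, hu₁π, hπ y,
        bl_sub_right, bl_sub_right, bl_smul_right, bl_smul_right]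
      ring
    rw [hBx x, hBx y]
    simp only [bl_add_left, bl_add_right, bl_smul_left, bl_smul_right, huu, hu₁, huu₁, hu₁u, huπ,
      hu₁π, hπu, hπu₁, hp, hxy]
    ring
  have hBS : Bᵀ * S * B = μ • S := by
    apply mat_eq_of_bl
    intro x y
    have e : x ⬝ᵥ (Bᵀ * S * B) *ᵥ y = bl S (B *ᵥ x) (B *ᵥ y) := by
      unfold bl
      rw [Matrix.mul_assoc, ← Matrix.mulVec_mulVec, Matrix.dotProduct_mulVec,
        Matrix.vecMul_transpose, ← Matrix.mulVec_mulVec]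
    rw [e, hBiso, Matrix.smul_mulVec, dotProduct_smul]
    rfl
  have hBdet : B.det ≠ 0 := by
    intro h0
    have h3 := congrArg Matrix.det hBS
    rw [Matrix.det_mul, Matrix.det_mul, h0, mul_zero, Matrix.det_smul] at h3
    exact mul_ne_zero (pow_ne_zero _ hμ) hdet h3.symm
  have hBB : B⁻¹ * B = 1 := Matrix.nonsing_inv_mul _ (isUnit_iff_ne_zero.mpr hBdet)
  have hBB' : B * B⁻¹ = 1 := Matrix.mul_nonsing_inv _ (isUnit_iff_ne_zero.mpr hBdet)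
  have hAA : A⁻¹ * A = 1 := Matrix.nonsing_inv_mul _ (isUnit_iff_ne_zero.mpr hAdet)
  have hAA' : A * A⁻¹ = 1 := Matrix.mul_nonsing_inv _ (isUnit_iff_ne_zero.mpr hAdet)
  have hπu0 : πM *ᵥ u = 0 := by
    rw [hπ, huu, huu₁]
    simp
  have hBu : B *ᵥ u = μ • u := by
    rw [hBx, huu, huu₁, hπu0]
    simp
  have hBiu : B⁻¹ *ᵥ u = μ⁻¹ • u := by
    have h3 : B⁻¹ *ᵥ (B *ᵥ u) = u := by rw [Matrix.mulVec_mulVec, hBB, Matrix.one_mulVec]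
    rw [hBu, Matrix.mulVec_smul] at h3
    calc B⁻¹ *ᵥ u = μ⁻¹ • (μ • B⁻¹ *ᵥ u) := by rw [smul_smul, inv_mul_cancel₀ hμ, one_smul]
      _ = μ⁻¹ • u := by rw [h3]
  obtain ⟨κ, hκ⟩ : ∃ κ : F, B₁ *ᵥ u = κ • u := by
    obtain ⟨d, hd⟩ := hk3 (A⁻¹ *ᵥ Pi.single 0 1) u huu
    have hAa : A *ᵥ (A⁻¹ *ᵥ Pi.single 0 1) = Pi.single (0 : Fin 2) (1 : F) := by
      rw [Matrix.mulVec_mulVec, hAA', Matrix.one_mulVec]
    rw [hk0, hAa] at hd
    refine ⟨μ - d 0, ?_⟩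
    ext l
    have h3 := congrFun hd (0, l)
    simp only [pt, Pi.add_apply, Pi.smul_apply, smul_eq_mul, Pi.single_eq_same] at h3
    simp only [Pi.smul_apply, smul_eq_mul]
    linear_combination -h3
  refine ⟨B, (A⁻¹ ⊗ₖ B⁻¹) * k, hBS, ?_, ?_, ?_⟩
  · rw [← Matrix.mul_assoc, ← Matrix.mul_kronecker_mul, hAA', hBB', Matrix.one_kronecker_one,
      one_mul]
  · intro a
    rw [← Matrix.mulVec_mulVec, hk0, kron_mulVec_pt, Matrix.mulVec_smul, Matrix.mulVec_mulVec, hAA,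
      Matrix.one_mulVec, hBiu, pt_smul_left, pt_smul_right, smul_smul, mul_inv_cancel₀ hμ,
      one_smul]
  · intro a y hy
    obtain ⟨d, hd⟩ := hk3 a y hy
    have hyu : bl S y u = 0 := by rw [bl_comm S hS, hy]
    obtain ⟨c, hclaim⟩ : ∃ c : F, B₁ *ᵥ y = B *ᵥ y + c • u := by
      refine ⟨bl S (B₁ *ᵥ y) u₁ - μ * bl S y u₁, ?_⟩
      have h5 : πM *ᵥ y = y - bl S y u₁ • u := by
        rw [hπ, hyu]
        simp
      have h6 : B₁ *ᵥ (πM *ᵥ y) = B₁ *ᵥ y - (bl S y u₁ * κ) • u := by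
        rw [h5, Matrix.mulVec_sub, Matrix.mulVec_smul, hκ, smul_smul]
      have h7 : πM *ᵥ (B₁ *ᵥ (πM *ᵥ y)) = B₁ *ᵥ y - bl S (B₁ *ᵥ y) u₁ • u := by
        rw [h6, Matrix.mulVec_sub, Matrix.mulVec_smul, hπu0, smul_zero, sub_zero, hπ,
          bl_comm S hS (B₁ *ᵥ y) u, hk1 y hy]
        simp
      rw [hBx, h7, hyu]
      ext l
      simp only [Pi.add_apply, Pi.sub_apply, Pi.smul_apply, smul_eq_mul]
      ring
    have hBiy : B⁻¹ *ᵥ (B₁ *ᵥ y) = y + (c * μ⁻¹) • u := by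
      rw [hclaim, Matrix.mulVec_add, Matrix.mulVec_mulVec, hBB, Matrix.one_mulVec,
        Matrix.mulVec_smul, hBiu, smul_smul]
    refine ⟨(c * μ⁻¹) • a + μ⁻¹ • (A⁻¹ *ᵥ d), ?_⟩
    rw [← Matrix.mulVec_mulVec, hd, Matrix.mulVec_add, kron_mulVec_pt, kron_mulVec_pt,
      Matrix.mulVec_mulVec, hAA, Matrix.one_mulVec, hBiy, hBiu, pt_add_right, pt_add_left,
      pt_smul_right, pt_smul_right, pt_smul_left, pt_smul_left]
    abel

end Cfsg.Agent.Helper58.SOZB2
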