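import Mathlib
import Cfsg.Agent.Helper95.SpBNDefs

/-!
# CALL S2545 (helper95): pieces XADD and UPPER (root matrices of `Sp_2m`).
-/

set_option autoImplicit false

namespace Cfsg.Agent.Helper58.SpBN

open Matrix Cfsg.Agent.Helper13 Cfsg.Agent.Helper95.SpBN

variable {F : Type*} [Field F] {m : ℕ}

/-- `(1 + t N)(1 + u N) = 1 + (t + u) N` when `N² = 0` -/
theorem one_add_smul_mul {ι : Type*} [Fintype ι] [DecidableEq ι] (N : Matrix ι ι F)
    (hN : N * N = 0) (t u : F) : (1 + t • N) * (1 + u • N) = 1 + (t + u) • N := by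
  rw [add_mul, mul_add, mul_add, one_mul, mul_one, one_mul, Matrix.smul_mul, Matrix.mul_smul, hN,
    smul_zero, smul_zero, add_zero, add_smul]
  abel

theorem xl_sq (a : Fin m ⊕ Fin m) :
    Matrix.single a (tauP m a) (1 : F) * Matrix.single a (tauP m a) (1 : F) = 0 :=
  Matrix.single_mul_single_of_ne _ _ _ _ (tauP_ne a) _

theorem xs_sq (a b : Fin m ⊕ Fin m) (hab : a ≠ b) (s : F) :
    (Matrix.single a b (1 : F) - s • Matrix.single (tauP m b) (tauP m a) (1 : F)) *
      (Matrix.single a b (1 : F) - s • Matrix.single (tauP m b) (tauP m a) (1 : F)) = 0 := by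
  have h1 : Matrix.single a b (1 : F) * Matrix.single a b (1 : F) = 0 :=
    Matrix.single_mul_single_of_ne _ _ _ _ (Ne.symm hab) _
  have h2 : Matrix.single a b (1 : F) * Matrix.single (tauP m b) (tauP m a) (1 : F) = 0 :=
    Matrix.single_mul_single_of_ne _ _ _ _ (Ne.symm (tauP_ne b)) _
  have h3 : Matrix.single (tauP m b) (tauP m a) (1 : F) * Matrix.single a b (1 : F) = 0 :=
    Matrix.single_mul_single_of_ne _ _ _ _ (tauP_ne a) _
  have h4 : Matrix.single (tauP m b) (tauP m a) (1 : F) *
      Matrix.single (tauP m b) (tauP m a) (1 : F) = 0 :=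
    Matrix.single_mul_single_of_ne _ _ _ _
      (fun h => hab ((tauP m).injective h)) _
  rw [sub_mul, mul_sub, mul_sub, Matrix.smul_mul, Matrix.mul_smul, Matrix.mul_smul,
    Matrix.smul_mul, h1, h2, h3, h4]
  simp

-- === PIECE XADD ===
theorem p_XADD (a b : Fin m ⊕ Fin m) (hab : a ≠ b) (t u : F) :
    xgMat a b t * xgMat a b u = xgMat a b (t + u) := by
  unfold xgMat
  split_ifs with h
  · exact one_add_smul_mul _ (xl_sq a) t u
  · exact one_add_smul_mul _ (xs_sq a b hab _) t u

-- === PIECE UPPER ===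
theorem p_UPPER (a b : Fin m ⊕ Fin m) (h : rk a < rk b) (t : F) : IsUp (xgMat a b t) := by
  intro x y hxy
  have hxy' : x ≠ y := by
    rintro rfl
    exact lt_irrefl _ hxy
  have h1 : Matrix.single a b (1 : F) x y = 0 := by
    apply Matrix.single_apply_of_ne
    rintro ⟨rfl, rfl⟩
    omega
  unfold xgMat
  split_ifs with hb
  · subst hb
    rw [xlMat, Matrix.add_apply, Matrix.one_apply_ne hxy', Matrix.smul_apply, h1]
    simp
  · have h2 : Matrix.single (tauP m b) (tauP m a) (1 : F) x y = 0 := by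
      apply Matrix.single_apply_of_ne
      rintro ⟨rfl, rfl⟩
      have := rk_tauP_lt h
      omega
    rw [xsMat, Matrix.add_apply, Matrix.one_apply_ne hxy', Matrix.smul_apply, Matrix.sub_apply,
      Matrix.smul_apply, h1, h2]
    simp

end Cfsg.Agent.Helper58.SpBN
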