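import Mathlib
import Cfsg.Agent.Helper95.SpBNDefs

/-!
# CALL S2545 (helper95): pieces XGMEM and CONJ (root matrices of `Sp_2m`), with matrix-unit
calculus for `J` and monomial matrices.
-/

set_option autoImplicit false

namespace Cfsg.Agent.Helper58.SpBN

open Matrix Cfsg.Agent.Helper13 Cfsg.Agent.Helper95.SpBN

variable {F : Type*} [Field F] {m : ℕ}

theorem single_mul_J (i j : Fin m ⊕ Fin m) :
    Matrix.single i j (1 : F) * J (Fin m) F = sgnJ F m j • Matrix.single i (tauP m j) (1 : F) := by
  ext x y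
  by_cases hx : x = i
  · subst hx
    rw [Matrix.single_mul_apply_same, one_mul, J_apply_eq, Matrix.smul_apply, Matrix.single_apply]
    by_cases hy : y = tauP m j
    · simp [hy]
    · simp [hy, Ne.symm hy]
  · rw [Matrix.single_mul_apply_of_ne _ _ _ _ _ hx, Matrix.smul_apply, Matrix.single_apply_of_ne]
    · simp
    · rintro ⟨rfl, -⟩; exact hx rfl

theorem J_mul_single (i j : Fin m ⊕ Fin m) :
    J (Fin m) F * Matrix.single i j (1 : F) =
      (-sgnJ F m i) • Matrix.single (tauP m i) j (1 : F) := by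
  ext x y
  by_cases hy : y = j
  · subst hy
    rw [Matrix.mul_single_apply_same, mul_one, J_apply_eq, Matrix.smul_apply, Matrix.single_apply]
    by_cases hx : x = tauP m i
    · subst hx; simp [tauP_tauP, sgnJ_tauP]
    · have h1 : i ≠ tauP m x := fun h => hx (by rw [h, tauP_tauP])
      simp [h1, Ne.symm hx]
  · rw [Matrix.mul_single_apply_of_ne _ _ _ _ _ hy, Matrix.smul_apply, Matrix.single_apply_of_ne]
    · simp
    · rintro ⟨-, rfl⟩; exact hy rfl

/-- `1 + t N` is symplectic when `N J + J Nᵀ = 0` and `N J Nᵀ = 0` -/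
theorem mem_sp_of_nil (N : Matrix (Fin m ⊕ Fin m) (Fin m ⊕ Fin m) F)
    (h1 : N * J (Fin m) F + J (Fin m) F * Nᵀ = 0) (h2 : N * J (Fin m) F * Nᵀ = 0) (t : F) :
    1 + t • N ∈ symplecticGroup (Fin m) F := by
  rw [SymplecticGroup.mem_iff, Matrix.transpose_add, Matrix.transpose_one, Matrix.transpose_smul]
  have e : (1 + t • N) * J (Fin m) F * (1 + t • Nᵀ) = J (Fin m) F +
      t • (N * J (Fin m) F + J (Fin m) F * Nᵀ) + (t * t) • (N * J (Fin m) F * Nᵀ) := by
    simp only [add_mul, mul_add, one_mul, mul_one, Matrix.smul_mul, Matrix.mul_smul, smul_add,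
      smul_smul]
    abel
  rw [e, h1, h2]
  simp

-- === PIECE XGMEM ===
theorem p_XGMEM (a b : Fin m ⊕ Fin m) (hab : a ≠ b) (t : F) :
    xgMat a b t ∈ symplecticGroup (Fin m) F := by
  unfold xgMat
  split_ifs with hb
  · apply mem_sp_of_nil
    · rw [Matrix.transpose_single, single_mul_J, J_mul_single, tauP_tauP, sgnJ_tauP, neg_neg,
        neg_smul, neg_add_cancel]
    · rw [Matrix.transpose_single, single_mul_J, tauP_tauP, Matrix.smul_mul,
        Matrix.single_mul_single_of_ne _ _ _ _ (Ne.symm (tauP_ne a)) _, smul_zero]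
  · have hs : sgnJ F m a * sgnJ F m b * sgnJ F m a = sgnJ F m b := by
      linear_combination (sgnJ F m b) * sgnJ_mul_self (F := F) a
    have hNJ : (Matrix.single a b (1 : F) -
        (sgnJ F m a * sgnJ F m b) • Matrix.single (tauP m b) (tauP m a) (1 : F)) * J (Fin m) F =
        sgnJ F m b • (Matrix.single a (tauP m b) (1 : F) + Matrix.single (tauP m b) a (1 : F)) := by
      rw [sub_mul, Matrix.smul_mul, single_mul_J, single_mul_J, tauP_tauP, sgnJ_tauP, smul_smul,
        mul_neg, hs, neg_smul, sub_neg_eq_add, smul_add]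
    apply mem_sp_of_nil
    · rw [hNJ, Matrix.transpose_sub, Matrix.transpose_smul, Matrix.transpose_single,
        Matrix.transpose_single, mul_sub, Matrix.mul_smul, J_mul_single, J_mul_single, tauP_tauP,
        sgnJ_tauP, neg_neg, smul_smul, hs, smul_add, neg_smul]
      abel
    · rw [hNJ, Matrix.transpose_sub, Matrix.transpose_smul, Matrix.transpose_single,
        Matrix.transpose_single, Matrix.smul_mul, add_mul, mul_sub, mul_sub, Matrix.mul_smul,
        Matrix.mul_smul,
        Matrix.single_mul_single_of_ne _ _ _ _ (tauP_ne b) _,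
        Matrix.single_mul_single_of_ne _ _ _ _ (fun h => hab ((tauP m).injective h).symm) _,
        Matrix.single_mul_single_of_ne _ _ _ _ hab _,
        Matrix.single_mul_single_of_ne _ _ _ _ (Ne.symm (tauP_ne a)) _]
      simp

theorem mono_mul_single (n : Matrix (Fin m ⊕ Fin m) (Fin m ⊕ Fin m) F)
    (π : Equiv.Perm (Fin m ⊕ Fin m)) (hπ : Pat n π) (a b : Fin m ⊕ Fin m) :
    n * Matrix.single a b (1 : F) = n (π a) a • Matrix.single (π a) b (1 : F) := by
  ext x y
  by_cases hy : y = b
  · subst hy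
    rw [Matrix.mul_single_apply_same, mul_one, Matrix.smul_apply, Matrix.single_apply]
    by_cases hx : x = π a
    · subst hx; simp
    · have h0 : n x a = 0 := by
        by_contra h
        exact hx (hπ x a h)
      simp [h0, Ne.symm hx]
  · rw [Matrix.mul_single_apply_of_ne _ _ _ _ _ hy, Matrix.smul_apply, Matrix.single_apply_of_ne]
    · simp
    · rintro ⟨-, rfl⟩; exact hy rfl

theorem single_mul_mono (n : Matrix (Fin m ⊕ Fin m) (Fin m ⊕ Fin m) F)
    (π : Equiv.Perm (Fin m ⊕ Fin m)) (hπ : Pat n π) (x b : Fin m ⊕ Fin m) :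
    Matrix.single x (π b) (1 : F) * n = n (π b) b • Matrix.single x b (1 : F) := by
  ext i y
  by_cases hi : i = x
  · subst hi
    rw [Matrix.single_mul_apply_same, one_mul, Matrix.smul_apply, Matrix.single_apply]
    by_cases hy : y = b
    · subst hy; simp
    · have h0 : n (π b) y = 0 := by
        by_contra h
        exact hy (π.injective (hπ _ _ h)).symm
      simp [h0, Ne.symm hy]
  · rw [Matrix.single_mul_apply_of_ne _ _ _ _ _ hi, Matrix.smul_apply, Matrix.single_apply_of_ne]
    · simp
    · rintro ⟨rfl, -⟩; exact hi rfl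

-- === PIECE CONJ ===
theorem p_CONJ (n : Matrix (Fin m ⊕ Fin m) (Fin m ⊕ Fin m) F)
    (hn : n ∈ symplecticGroup (Fin m) F) (π : Equiv.Perm (Fin m ⊕ Fin m)) (hπ : Pat n π)
    (a b : Fin m ⊕ Fin m) (hab : a ≠ b) (t : F) :
    ∃ t' : F, n * xgMat a b t = xgMat (π a) (π b) t' * n := by
  obtain ⟨hd, hτ, hrel⟩ := pat_sp n hn π hπ
  by_cases hb : b = tauP m a
  · subst hb
    refine ⟨t * n (π a) a / n (π (tauP m a)) (tauP m a), ?_⟩
    unfold xgMat
    rw [if_pos rfl, if_pos (hτ a), xlMat, xlMat, mul_add, mul_one, add_mul, one_mul,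
      Matrix.mul_smul, Matrix.smul_mul, mono_mul_single n π hπ, ← hτ a,
      single_mul_mono n π hπ, smul_smul, smul_smul]
    congr 2
    field_simp [hd (tauP m a)]
  · have hb' : π b ≠ tauP m (π a) := by
      rw [← hτ a]
      exact fun h => hb (π.injective h)
    refine ⟨t * n (π a) a / n (π b) b, ?_⟩
    unfold xgMat
    rw [if_neg hb, if_neg hb', xsMat, xsMat, mul_add, mul_one, add_mul, one_mul,
      Matrix.mul_smul, Matrix.smul_mul, mul_sub, sub_mul, Matrix.mul_smul, Matrix.smul_mul,
      mono_mul_single n π hπ, mono_mul_single n π hπ, ← hτ a, ← hτ b,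
      single_mul_mono n π hπ, single_mul_mono n π hπ, smul_sub, smul_sub, smul_smul, smul_smul,
      smul_smul, smul_smul, smul_smul, smul_smul]
    have c1 : t * n (π a) a = t * n (π a) a / n (π b) b * n (π b) b := by
      field_simp [hd b]
    have ha := hrel a
    have hb2 := hrel b
    have hsb := sgnJ_mul_self (F := F) (m := m) b
    have hsπb := sgnJ_mul_self (F := F) (m := m) (π b)
    have c2 : t * (sgnJ F m a * sgnJ F m b) * n (π (tauP m b)) (tauP m b) =
        t * n (π a) a / n (π b) b *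
          (sgnJ F m (π a) * sgnJ F m (π b)) * n (π (tauP m a)) (tauP m a) := by
      field_simp [hd b]
      linear_combination (-(t * sgnJ F m (π b))) * ha + (t * sgnJ F m a * sgnJ F m (π b)) * hsb
        + (t * sgnJ F m a * sgnJ F m b * sgnJ F m (π b)) * hb2
        - (t * sgnJ F m a * sgnJ F m b * n (π b) b * n (π (tauP m b)) (tauP m b)) * hsπb
    rw [← c1, ← c2]

end Cfsg.Agent.Helper58.SpBN
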