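import Mathlib
import Cfsg.Prelude.Def_Classical
import Cfsg.Prelude.Def_Characters
import Cfsg.Agent.S2544
import Cfsg.Agent.Helper5.OPlus4
import Cfsg.Agent.Helper5.OrthForms
import Cfsg.Agent.Helper5.SLCard
import Cfsg.Agent.Helper45.Spinor
import Cfsg.Agent.Helper79.Quotient

set_option autoImplicit false

/-!
# CALL S2548 part 0 (helper45), PIECE PLUS22: the Steinberg character of `PΩ⁺₄(2)`.

`O⁺₄(2)` contains `SL₂(2) × SL₂(2)` with index `2` (left and right multiplication on `2 × 2`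
matrices); `Ω` lies in it, the first projection maps `Ω` onto `SL₂(2)` and kills the centre of `Ω`;
its kernel on `PΩ` has exponent `3` (the sign of the action on the six vectors of norm `1` shows
that `Ω` contains no involution of the second factor).  The character is the pull-back of the
Steinberg character of `PSL₂(2)`.
-/

namespace Cfsg.Agent.Helper58.StPLUS22

open Cfsg Cfsg.Agent.Helper5 Matrix
open scoped commutatorElement

section aux

variable {F : Type*} [Field F] [Fintype F]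

theorem mv_toIso58 {ι : Type} [Fintype ι] [DecidableEq ι] (Q : (ι → F) → F) (u : isoU F Q)
    (v : ι → F) :
    Helper45.mv Q (toIso F Q u) v =
      ((u : (Module.End F (ι → F))ˣ) : Module.End F (ι → F)) v := by
  show LinearMap.toMatrix' ((u : (Module.End F (ι → F))ˣ) : Module.End F (ι → F)) *ᵥ v = _
  rw [LinearMap.toMatrix'_mulVec]

/-- the vectors of norm one are the matrices of determinant one -/
noncomputable def levEquiv58 :
    Helper45.Lev (Cfsg.quadFormPlus 2 F) 1 ≃ Matrix.SpecialLinearGroup (Fin 2) F where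
  toFun x := ⟨m2C F x.val, by rw [← m2_quad, m2K_C]; exact x.prop⟩
  invFun A := ⟨m2K F A.1, by rw [m2_quad]; exact A.2⟩
  left_inv x := Helper45.Lev.ext' _ (m2K_C x.val)
  right_inv A := Subtype.ext (m2C_K A.1)

/-- `Ω` contains no involution of the second factor -/
theorem o4R_invol58 (hF : Fintype.card F = 2) (c : Matrix.SpecialLinearGroup (Fin 2) F)
    (hc : c * c = 1)
    (hmem : toIso F (Cfsg.quadFormPlus 2 F) (o4R F c) ∈
      commutator ↥(Cfsg.isometryGroup F (Cfsg.quadFormPlus 2 F))) : c = 1 := by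
  by_contra hne
  have hspin : Helper45.spin (Cfsg.quadFormPlus 2 F) 1
      (toIso F (Cfsg.quadFormPlus 2 F) (o4R F c)) = 1 := by
    have := Abelianization.commutator_subset_ker (Helper45.spin (Cfsg.quadFormPlus 2 F) 1) hmem
    exact MonoidHom.mem_ker.mp this
  have hGG : toIso F (Cfsg.quadFormPlus 2 F) (o4R F c) *
      toIso F (Cfsg.quadFormPlus 2 F) (o4R F c) = 1 := by
    rw [← map_mul, ← map_mul, hc, map_one, map_one]
  have hσ2 : Helper45.levHom (Cfsg.quadFormPlus 2 F) 1 (toIso F (Cfsg.quadFormPlus 2 F) (o4R F c)) *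
      Helper45.levHom (Cfsg.quadFormPlus 2 F) 1 (toIso F (Cfsg.quadFormPlus 2 F) (o4R F c)) = 1 := by
    rw [← map_mul, hGG, map_one]
  have hfpf : ∀ x, Helper45.levHom (Cfsg.quadFormPlus 2 F) 1
      (toIso F (Cfsg.quadFormPlus 2 F) (o4R F c)) x ≠ x := by
    intro x hx
    have hv : Helper45.mv (Cfsg.quadFormPlus 2 F) (toIso F (Cfsg.quadFormPlus 2 F) (o4R F c)) x.val =
        x.val := congrArg Helper45.Lev.val hx
    rw [mv_toIso58, o4R_coe, m2R_apply] at hv
    have h3 := congrArg (m2C F) hv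
    rw [m2C_K] at h3
    have hdet : (m2C F x.val).det = 1 := by
      rw [← m2_quad, m2K_C]
      exact x.prop
    have h4 : (m2C F x.val)⁻¹ * (m2C F x.val * (c : Matrix (Fin 2) (Fin 2) F)ᵀ) =
        (m2C F x.val)⁻¹ * m2C F x.val := by rw [h3]
    rw [← Matrix.mul_assoc, Matrix.nonsing_inv_mul _ (by rw [hdet]; exact isUnit_one),
      Matrix.one_mul] at h4
    apply hne
    apply Subtype.ext
    have h5 := congrArg Matrix.transpose h4
    rw [Matrix.transpose_transpose, Matrix.transpose_one] at h5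
    exact h5
  have hs := Helper45.sign_fpf _ hσ2 hfpf
  have hcard : Fintype.card (Helper45.Lev (Cfsg.quadFormPlus 2 F) 1) = 6 := by
    rw [← Nat.card_eq_fintype_card, Nat.card_congr levEquiv58, card_SL2, hF]
    norm_num
  rw [hcard] at hs
  rw [Helper45.spin_apply] at hspin
  have hs' : Equiv.Perm.sign (Helper45.levPerm (Cfsg.quadFormPlus 2 F) 1
      (toIso F (Cfsg.quadFormPlus 2 F) (o4R F c))) = (-1) ^ (6 / 2) := hs
  rw [hspin] at hs'
  revert hs'
  decide

theorem comm_le58 {G : Type*} [Group G] (N : Subgroup G) (h : N.index = 2) :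
    commutator G ≤ N := by
  have hN : N.Normal := Subgroup.normal_of_index_eq_two h
  rw [commutator_def, Subgroup.commutator_le]
  intro a _ b _
  rw [commutatorElement_def, Subgroup.mul_mem_iff_of_index_two h, inv_mem_iff]
  constructor
  · intro h1
    have := hN.conj_mem _ h1 a⁻¹
    simpa [mul_assoc] using this
  · intro h1
    exact hN.conj_mem b h1 a

theorem sl_center58 (hF : Fintype.card F = 2) (a : Matrix.SpecialLinearGroup (Fin 2) F)
    (h : a ∈ Subgroup.center (Matrix.SpecialLinearGroup (Fin 2) F)) : a = 1 := by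
  rw [Matrix.SpecialLinearGroup.mem_center_iff] at h
  obtain ⟨r, hr, hra⟩ := h
  have hr0 : r ≠ 0 := by
    rintro rfl
    simp at hr
  have hr1 : r = 1 := by
    have := FiniteField.pow_card_sub_one_eq_one r hr0
    rw [hF] at this
    simpa using this
  apply Subtype.ext
  rw [← hra, hr1]
  simp

/-- the left factor -/
noncomputable def fL58 (F : Type*) [Field F] :
    Matrix.SpecialLinearGroup (Fin 2) F →* ↥(Cfsg.isometryGroup F (Cfsg.quadFormPlus 2 F)) :=
  (toIso F (Cfsg.quadFormPlus 2 F)).comp (o4L F)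

/-- the right factor -/
noncomputable def gR58 (F : Type*) [Field F] :
    Matrix.SpecialLinearGroup (Fin 2) F →* ↥(Cfsg.isometryGroup F (Cfsg.quadFormPlus 2 F)) :=
  (toIso F (Cfsg.quadFormPlus 2 F)).comp (o4R F)

/-- the transposition -/
noncomputable def tau58 (F : Type*) [Field F] :
    ↥(Cfsg.isometryGroup F (Cfsg.quadFormPlus 2 F)) :=
  toIso F (Cfsg.quadFormPlus 2 F) (o4T F)

theorem struct58 (hF : Fintype.card F = 2) :
    ∃ π : ↥(commutator ↥(Cfsg.isometryGroup F (Cfsg.quadFormPlus 2 F))) →*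
        Matrix.ProjectiveSpecialLinearGroup (Fin 2) F,
      Function.Surjective π ∧
      Subgroup.center ↥(commutator ↥(Cfsg.isometryGroup F (Cfsg.quadFormPlus 2 F))) ≤ π.ker ∧
        ∀ ω, π ω = 1 → ω ^ 3 = 1 := by
  classical
  have h2 : (2 : F) = 0 := by
    have := Nat.cast_card_eq_zero F
    rw [hF] at this
    exact_mod_cast this
  have hcomm : ∀ a b, Commute (fL58 F a) (gR58 F b) := fun a b =>
    (o4_commute a b).map (toIso F (Cfsg.quadFormPlus 2 F))
  have hf : Function.Injective (fL58 F) := (toIso_injective _).comp o4L_injective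
  have hg : Function.Injective (gR58 F) := (toIso_injective _).comp o4R_injective
  have hdisj : Disjoint (fL58 F).range (gR58 F).range := by
    rw [Subgroup.disjoint_def]
    rintro x ⟨a, rfl⟩ ⟨b, hb⟩
    have h1 : o4L F a = o4R F b := (toIso_injective _ hb).symm
    show toIso F (Cfsg.quadFormPlus 2 F) (o4L F a) = 1
    rw [o4_disjoint h2 a b h1, map_one, map_one]
  obtain ⟨Φ, hΦ, hΦinj⟩ : ∃ Φ : Matrix.SpecialLinearGroup (Fin 2) F ×
      Matrix.SpecialLinearGroup (Fin 2) F →* ↥(Cfsg.isometryGroup F (Cfsg.quadFormPlus 2 F)),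
      (∀ a b, Φ (a, b) = fL58 F a * gR58 F b) ∧ Function.Injective Φ :=
    ⟨MonoidHom.noncommCoprod (fL58 F) (gR58 F) hcomm,
      fun a b => MonoidHom.noncommCoprod_apply _ _ _ _,
      (MonoidHom.noncommCoprod_injective _ _ hcomm).2 ⟨hf, hg, hdisj⟩⟩
  have hcardN : Nat.card Φ.range = 36 := by
    rw [← Nat.card_congr (MonoidHom.ofInjective hΦinj).toEquiv, Nat.card_prod, card_SL2, hF]
    norm_num
  have hcardO : Nat.card ↥(Cfsg.isometryGroup F (Cfsg.quadFormPlus 2 F)) = 72 := by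
    rw [card_GO_plus 2 (by norm_num), hF]
    simp
  have hidx : Φ.range.index = 2 := by
    have h1 := Subgroup.card_mul_index Φ.range
    rw [hcardN, hcardO] at h1
    omega
  have hΩ : commutator ↥(Cfsg.isometryGroup F (Cfsg.quadFormPlus 2 F)) ≤ Φ.range :=
    comm_le58 _ hidx
  have hcoord : ∀ ω : ↥(commutator ↥(Cfsg.isometryGroup F (Cfsg.quadFormPlus 2 F))),
      ∃ a b, (ω : ↥(Cfsg.isometryGroup F (Cfsg.quadFormPlus 2 F))) = fL58 F a * gR58 F b := by
    intro ω
    obtain ⟨⟨a, b⟩, hab⟩ := hΩ ω.2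
    exact ⟨a, b, by rw [← hΦ]; exact hab.symm⟩
  obtain ⟨π, hπ⟩ : ∃ π : ↥(commutator ↥(Cfsg.isometryGroup F (Cfsg.quadFormPlus 2 F))) →*
      Matrix.ProjectiveSpecialLinearGroup (Fin 2) F,
      ∀ (ω : ↥(commutator ↥(Cfsg.isometryGroup F (Cfsg.quadFormPlus 2 F)))) (a b),
        (ω : ↥(Cfsg.isometryGroup F (Cfsg.quadFormPlus 2 F))) = fL58 F a * gR58 F b →
          π ω = QuotientGroup.mk a := by
    refine ⟨(QuotientGroup.mk' (Subgroup.center (Matrix.SpecialLinearGroup (Fin 2) F))).comp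
      ((MonoidHom.fst _ _).comp ((MonoidHom.ofInjective hΦinj).symm.toMonoidHom.comp
        (Subgroup.inclusion hΩ))), ?_⟩
    intro ω a b h
    have h1 : (MonoidHom.ofInjective hΦinj).symm (Subgroup.inclusion hΩ ω) = (a, b) := by
      rw [MulEquiv.symm_apply_eq]
      apply Subtype.ext
      rw [MonoidHom.ofInjective_apply]
      show (ω : ↥(Cfsg.isometryGroup F (Cfsg.quadFormPlus 2 F))) = Φ (a, b)
      rw [hΦ, h]
    show QuotientGroup.mk ((MonoidHom.ofInjective hΦinj).symm (Subgroup.inclusion hΩ ω)).1 = _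
    rw [h1]
  have hconj : ∀ a, tau58 F * fL58 F a * (tau58 F)⁻¹ = gR58 F a := by
    intro a
    have h1 := congrArg (toIso F (Cfsg.quadFormPlus 2 F)) (o4_conj a)
    rw [map_mul, map_mul] at h1
    have h3 : tau58 F * fL58 F a = gR58 F a * tau58 F := h1
    rw [h3, mul_inv_cancel_right]
  have hωc : ∀ c, ∃ ω : ↥(commutator ↥(Cfsg.isometryGroup F (Cfsg.quadFormPlus 2 F))),
      (ω : ↥(Cfsg.isometryGroup F (Cfsg.quadFormPlus 2 F))) = fL58 F c * gR58 F c⁻¹ := by
    intro c
    have hω : ⁅fL58 F c, tau58 F⁆ = fL58 F c * gR58 F c⁻¹ := by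
      rw [commutatorElement_def, ← map_inv, mul_assoc, mul_assoc, ← mul_assoc (tau58 F), hconj]
    refine ⟨⟨⁅fL58 F c, tau58 F⁆, ?_⟩, hω⟩
    rw [commutator_def]
    exact Subgroup.commutator_mem_commutator (Subgroup.mem_top _) (Subgroup.mem_top _)
  refine ⟨π, ?_, ?_, ?_⟩
  · intro s
    obtain ⟨a, rfl⟩ := QuotientGroup.mk_surjective s
    obtain ⟨ω, hω⟩ := hωc a
    exact ⟨ω, hπ ω a a⁻¹ hω⟩
  · intro z hz
    rw [MonoidHom.mem_ker]
    obtain ⟨a, b, hab⟩ := hcoord z
    rw [hπ z a b hab, QuotientGroup.eq_one_iff, Subgroup.mem_center_iff]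
    intro c
    obtain ⟨ω, hω⟩ := hωc c
    have hz' := Subgroup.mem_center_iff.mp hz ω
    have h1 := congrArg Subtype.val hz'
    rw [Subgroup.coe_mul, Subgroup.coe_mul, hab, hω, ← hΦ, ← hΦ, ← map_mul, ← map_mul] at h1
    exact congrArg Prod.fst (hΦinj h1)
  · intro ω hω1
    obtain ⟨a, b, hab⟩ := hcoord ω
    rw [hπ ω a b hab, QuotientGroup.eq_one_iff] at hω1
    rw [sl_center58 hF a hω1, map_one, one_mul] at hab
    have hb6 : b ^ 6 = 1 := by
      have h1 := pow_card_eq_one' (G := Matrix.SpecialLinearGroup (Fin 2) F) (x := b)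
      rw [card_SL2, hF] at h1
      exact h1
    have hb3 : b ^ 3 = 1 := by
      apply o4R_invol58 hF (b ^ 3) (by rw [← pow_add]; exact hb6)
      have h1 : toIso F (Cfsg.quadFormPlus 2 F) (o4R F (b ^ 3)) =
          ((ω ^ 3 : ↥(commutator ↥(Cfsg.isometryGroup F (Cfsg.quadFormPlus 2 F)))) :
            ↥(Cfsg.isometryGroup F (Cfsg.quadFormPlus 2 F))) := by
        rw [Subgroup.coe_pow, hab, ← map_pow]
        rfl
      rw [h1]
      exact (ω ^ 3).2
    apply Subtype.ext
    rw [Subgroup.coe_pow, hab, ← map_pow, hb3, map_one]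
    rfl

end aux

theorem p_PLUS22 {F : Type*} [Field F] [Fintype F] (p : ℕ) [Fact p.Prime] [CharP F p]
    (hF : Fintype.card F = 2) :
    ∃ χ : Cfsg.POmega F (Cfsg.quadFormPlus 2 F) → ℂ,
      Cfsg.IsIrrCharacter (Cfsg.POmega F (Cfsg.quadFormPlus 2 F)) χ ∧
      ∀ P : Sylow p (Cfsg.POmega F (Cfsg.quadFormPlus 2 F)), χ 1 = Nat.card P ∧
        ∀ x : Cfsg.POmega F (Cfsg.quadFormPlus 2 F), x ∈ P → x ≠ 1 → χ x = 0 := by
  classical
  have hp2 : p = 2 := by
    have h2 : ((2 : ℕ) : F) = 0 := by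
      have := Nat.cast_card_eq_zero F
      rw [hF] at this
      exact this
    have := (CharP.cast_eq_zero_iff F p 2).mp h2
    exact (Nat.prime_dvd_prime_iff_eq Fact.out Nat.prime_two).mp this
  obtain ⟨π, hπs, hπz, hπk⟩ := struct58 (F := F) hF
  obtain ⟨St, hSt, hStP⟩ := Cfsg.Agent.S2544.result (F := F) p 2 le_rfl
  obtain ⟨πb, hπb⟩ : ∃ πb : Cfsg.POmega F (Cfsg.quadFormPlus 2 F) →*
      Matrix.ProjectiveSpecialLinearGroup (Fin 2) F,
      ∀ ω, πb (QuotientGroup.mk ω) = π ω :=
    ⟨QuotientGroup.lift _ π hπz, fun ω => rfl⟩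
  have hπbs : Function.Surjective πb := by
    intro s
    obtain ⟨ω, rfl⟩ := hπs s
    exact ⟨QuotientGroup.mk ω, hπb ω⟩
  have hπbk : ∀ x, πb x = 1 → x ^ 3 = 1 := by
    intro x hx
    obtain ⟨ω, rfl⟩ := QuotientGroup.mk_surjective x
    rw [hπb] at hx
    rw [← QuotientGroup.mk_pow, hπk ω hx]
    rfl
  refine ⟨fun x => St (πb x), Helper79.isIrrCharacter_comp πb hπbs hSt, fun P => ⟨?_, ?_⟩⟩
  · obtain ⟨P₀⟩ : Nonempty (Sylow p (Matrix.ProjectiveSpecialLinearGroup (Fin 2) F)) :=
      inferInstance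
    show St (πb 1) = _
    rw [map_one, (hStP P₀).1]
    congr 1
    rw [Sylow.card_eq_multiplicity, Sylow.card_eq_multiplicity]
    congr 1
    have hker : ¬ p ∣ Nat.card πb.ker := by
      intro hdvd
      obtain ⟨y, hy⟩ := exists_prime_orderOf_dvd_card' p hdvd
      have hy3 : y ^ 3 = 1 := Subtype.ext (by
        rw [Subgroup.coe_pow]
        exact hπbk y.1 (MonoidHom.mem_ker.mp y.2))
      have := orderOf_dvd_of_pow_eq_one hy3
      rw [hy, hp2] at this
      omega
    have hcard : Nat.card (Cfsg.POmega F (Cfsg.quadFormPlus 2 F)) =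
        Nat.card πb.ker * Nat.card (Matrix.ProjectiveSpecialLinearGroup (Fin 2) F) := by
      have h1 := Subgroup.card_mul_index πb.ker
      rw [Subgroup.index_ker, MonoidHom.range_eq_top.mpr hπbs, Subgroup.card_top] at h1
      exact h1.symm
    rw [hcard, Nat.factorization_mul Nat.card_pos.ne' Nat.card_pos.ne', Finsupp.add_apply,
      Nat.factorization_eq_zero_of_not_dvd hker, zero_add]
  · intro x hx hx1
    show St (πb x) = 0
    have hne : πb x ≠ 1 := by
      intro h
      have h3 := hπbk x h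
      obtain ⟨k, hk⟩ := P.isPGroup' ⟨x, hx⟩
      have hk' : x ^ p ^ k = 1 := by
        have := congrArg Subtype.val hk
        rw [Subgroup.coe_pow] at this
        exact this
      have hd := Nat.dvd_gcd (orderOf_dvd_of_pow_eq_one hk') (orderOf_dvd_of_pow_eq_one h3)
      rw [hp2, Nat.Coprime.gcd_eq_one (Nat.Coprime.pow_left k (by norm_num))] at hd
      exact hx1 (orderOf_eq_one_iff.mp (Nat.dvd_one.mp hd))
    obtain ⟨P₁, hP₁⟩ := (P.isPGroup'.map πb).exists_le_sylow
    exact (hStP P₁).2 (πb x) (hP₁ (Subgroup.mem_map_of_mem πb hx)) hne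

end Cfsg.Agent.Helper58.StPLUS22
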