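import Mathlib
import Cfsg.Agent.Helper58.InvSign

set_option autoImplicit false

/-!
A Sylow `p`-subgroup `P` of prime order `p` with exactly `p + 1` conjugates: `P` is regular on
the other `p` Sylow subgroups, and an involution of `N_G(P)` not centralising `P` fixes exactly
two Sylow subgroups, so it acts on them with sign `(-1)^((p-1)/2)`.
-/

namespace Cfsg.Agent.Helper58

open Equiv

variable {G : Type*} [Group G] [Finite G]

theorem sylow_prime_inf_normalizer (p : ℕ) [Fact p.Prime] (P Q : Sylow p G)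
    (hP : Nat.card P = p) (hne : Q ≠ P) :
    (P : Subgroup G) ⊓ Subgroup.normalizer (Q : Set G) = ⊥ := by
  have hpp : p.Prime := Fact.out
  rw [IsPGroup.inf_normalizer_sylow P.isPGroup' Q]
  by_contra hbot
  have hdvd : Nat.card ((P : Subgroup G) ⊓ (Q : Subgroup G) : Subgroup G) ∣ p := by
    have h0 : Nat.card ((P : Subgroup G) ⊓ (Q : Subgroup G) : Subgroup G) ∣ Nat.card (P : Subgroup G) :=
      Subgroup.card_dvd_of_le inf_le_left
    rwa [hP] at h0
  rcases (Nat.dvd_prime hpp).mp hdvd with h1 | h1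
  · exact hbot (Subgroup.card_eq_one.mp h1)
  · have hPQ : (P : Subgroup G) ⊓ (Q : Subgroup G) = (P : Subgroup G) :=
      Subgroup.eq_of_le_of_card_ge inf_le_left (by rw [h1]; exact hP.le)
    have hle : (P : Subgroup G) ≤ (Q : Subgroup G) := by rw [← hPQ]; exact inf_le_right
    have hQ : Nat.card Q = p := by
      rw [Sylow.card_eq_multiplicity] at hP ⊢; exact hP
    have : (P : Subgroup G) = (Q : Subgroup G) :=
      Subgroup.eq_of_le_of_card_ge hle (by rw [hQ]; exact hP.ge)
    exact hne (Sylow.ext this.symm)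

theorem sylow_prime_exists_smul (p : ℕ) [Fact p.Prime] (P : Sylow p G)
    (hP : Nat.card P = p) (hn : Nat.card (Sylow p G) = p + 1) (Q1 Q2 : Sylow p G)
    (h1 : Q1 ≠ P) (h2 : Q2 ≠ P) : ∃ x ∈ (P : Subgroup G), x • Q1 = Q2 := by
  have hmem : ∀ x : (P : Subgroup G), (x : G) • Q1 ≠ P := by
    intro x hx
    apply h1
    have hx' : Q1 = (x : G)⁻¹ • P := eq_inv_smul_iff.mpr hx
    rw [hx']
    exact Sylow.smul_eq_iff_mem_normalizer.mpr
      (Subgroup.le_normalizer ((P : Subgroup G).inv_mem x.2))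
  let f : ↥(P : Subgroup G) → {Q : Sylow p G // Q ≠ P} := fun x => ⟨(x : G) • Q1, hmem x⟩
  have hinj : Function.Injective f := by
    intro x y hxy
    have hxy' : (x : G) • Q1 = (y : G) • Q1 := congrArg Subtype.val hxy
    have h3 : ((y : G)⁻¹ * (x : G)) • Q1 = Q1 := by
      rw [mul_smul, hxy', inv_smul_smul]
    have h4 : (y : G)⁻¹ * (x : G) ∈ (P : Subgroup G) ⊓ Subgroup.normalizer (Q1 : Set G) :=
      ⟨(P : Subgroup G).mul_mem ((P : Subgroup G).inv_mem y.2) x.2,
        Sylow.smul_eq_iff_mem_normalizer.mp h3⟩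
    rw [sylow_prime_inf_normalizer p P Q1 hP h1, Subgroup.mem_bot] at h4
    have : (x : G) = (y : G) := by
      have := inv_mul_eq_one.mp h4
      exact this.symm
    exact Subtype.ext this
  have hcard : Nat.card {Q : Sylow p G // Q ≠ P} = p := by
    have h := Set.ncard_add_ncard_compl ({P} : Set (Sylow p G))
    rw [Set.ncard_singleton, hn] at h
    have e : Nat.card {Q : Sylow p G // Q ≠ P} = (({P} : Set (Sylow p G))ᶜ).ncard := by
      rw [← Nat.card_coe_set_eq]
      rfl
    rw [e]; omega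
  have hbij : Function.Bijective f :=
    hinj.bijective_of_nat_card_le (by rw [hcard]; exact hP.ge)
  obtain ⟨x, hx⟩ := hbij.2 ⟨Q2, h2⟩
  exact ⟨x, x.2, congrArg Subtype.val hx⟩

theorem sylow_prime_sign (p : ℕ) [Fact p.Prime] (hp2 : p ≠ 2) (P : Sylow p G)
    (hP : Nat.card P = p) (hn : Nat.card (Sylow p G) = p + 1)
    [Fintype (Sylow p G)] [DecidableEq (Sylow p G)] (t : G) (ht : t * t = 1)
    (htN : t ∈ Subgroup.normalizer (P : Set G)) (x0 : G) (hx0 : x0 ∈ (P : Subgroup G))
    (hne : t * x0 ≠ x0 * t) :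
    Perm.sign (MulAction.toPerm t : Perm (Sylow p G)) = (-1 : ℤˣ) ^ ((p - 1) / 2) := by
  have hpp : p.Prime := Fact.out
  have hpodd : Odd p := hpp.odd_of_ne_two hp2
  have hsq : (MulAction.toPerm t : Perm (Sylow p G)) * MulAction.toPerm t = 1 := by
    ext Q
    simp only [Perm.coe_mul, Function.comp_apply, MulAction.toPerm_apply, Perm.coe_one, id_eq]
    rw [← mul_smul, ht, one_smul]
  obtain ⟨m, hm, hs⟩ := involution_sign (MulAction.toPerm t : Perm (Sylow p G)) hsq
  set F := Finset.univ.filter (fun Q : Sylow p G => (MulAction.toPerm t : Perm (Sylow p G)) Q = Q)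
    with hF
  have hmemF : ∀ Q : Sylow p G, Q ∈ F ↔ t • Q = Q := by
    intro Q; rw [hF]; simp
  have hPF : P ∈ F := (hmemF P).mpr (Sylow.smul_eq_iff_mem_normalizer.mpr htN)
  have htinv : t⁻¹ = t := inv_eq_of_mul_eq_one_left ht
  have huniq : ∀ Q1 ∈ F, ∀ Q2 ∈ F, Q1 ≠ P → Q2 ≠ P → Q1 = Q2 := by
    intro Q1 hQ1 Q2 hQ2 h1 h2
    obtain ⟨x, hxP, hx⟩ := sylow_prime_exists_smul p P hP hn Q1 Q2 h1 h2
    have ht1 : t • Q1 = Q1 := (hmemF Q1).mp hQ1
    have ht2 : t • Q2 = Q2 := (hmemF Q2).mp hQ2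
    have hc1 : (t⁻¹ * (x⁻¹ * t * x)) • Q1 = Q1 := by
      rw [mul_smul, mul_smul, mul_smul, hx, ht2, ← hx, inv_smul_smul, htinv, ht1]
    have hc2 : t⁻¹ * (x⁻¹ * t * x) ∈ (P : Subgroup G) := by
      have h3 : t⁻¹ * x⁻¹ * t⁻¹⁻¹ ∈ (P : Subgroup G) :=
        (Subgroup.mem_normalizer_iff.mp ((Subgroup.normalizer (P : Set G)).inv_mem htN) x⁻¹).mp
          ((P : Subgroup G).inv_mem hxP)
      have h4 : t⁻¹ * (x⁻¹ * t * x) = t⁻¹ * x⁻¹ * t⁻¹⁻¹ * x := by group
      rw [h4]
      exact (P : Subgroup G).mul_mem h3 hxP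
    have hc3 : t⁻¹ * (x⁻¹ * t * x) ∈ (P : Subgroup G) ⊓ Subgroup.normalizer (Q1 : Set G) :=
      ⟨hc2, Sylow.smul_eq_iff_mem_normalizer.mp hc1⟩
    rw [sylow_prime_inf_normalizer p P Q1 hP h1, Subgroup.mem_bot] at hc3
    have hcomm : t * x = x * t := by
      have h5 : x⁻¹ * t * x = t := by
        have := inv_mul_eq_one.mp hc3
        exact this.symm
      calc t * x = x * (x⁻¹ * t * x) := by group
        _ = x * t := by rw [h5]
    by_cases hx1 : x = 1
    · rw [← hx, hx1, one_smul]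
    · exfalso
      have hox : orderOf x = p := by
        have hd : orderOf x ∣ p := by
          have := orderOf_dvd_natCard (⟨x, hxP⟩ : (P : Subgroup G))
          rwa [Subgroup.orderOf_mk, hP] at this
        rcases (Nat.dvd_prime hpp).mp hd with h | h
        · exact absurd (orderOf_eq_one_iff.mp h) hx1
        · exact h
      have hzp : Subgroup.zpowers x = (P : Subgroup G) :=
        Subgroup.eq_of_le_of_card_ge ((Subgroup.zpowers_le).mpr hxP)
          (by rw [Nat.card_zpowers, hox]; exact hP.le)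
      rw [← hzp] at hx0
      obtain ⟨k, hk⟩ := Subgroup.mem_zpowers_iff.mp hx0
      have hc : Commute t x := hcomm
      have := (hc.zpow_right k).eq
      rw [hk] at this
      exact hne this
  have hle : F.card ≤ 2 := by
    by_contra hgt
    push Not at hgt
    obtain ⟨a, b, c, ha, hb, hc, hab, hac, hbc⟩ := Finset.two_lt_card_iff.mp hgt
    by_cases haP : a = P
    · exact hbc (huniq b hb c hc (fun h => hab (haP.trans h.symm)) (fun h => hac (haP.trans h.symm)))
    · by_cases hbP : b = P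
      · exact hac (huniq a ha c hc haP (fun h => hbc (hbP.trans h.symm)))
      · exact hab (huniq a ha b hb haP hbP)
  have hcardS : Fintype.card (Sylow p G) = p + 1 := by rw [← hn, Nat.card_eq_fintype_card]
  have hpos : 1 ≤ F.card := Finset.card_pos.mpr ⟨P, hPF⟩
  rw [hcardS] at hm
  obtain ⟨k, hk⟩ := hpodd
  have hm' : m = (p - 1) / 2 := by omega
  rw [hs, hm']

end Cfsg.Agent.Helper58
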