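import Mathlib
import Cfsg.Prelude.Def_GeometricClasses
import Cfsg.Agent.Helper71.T4Defs
import Cfsg.Agent.Helper71.T4Main
import Cfsg.Agent.Helper97.OForm
import Cfsg.Agent.Helper96.T5Defs
import Cfsg.Agent.Helper4.T4CRCore

/-!
# CALL S5704 (helper96), PIECE T1W, with local copies of NSV and L6P and small general tools
(`mat_ext_mulVec`, `tv_mul_tv_neg`, `rk_sq_zero`).
-/

set_option autoImplicit false
set_option linter.unusedVariables false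

namespace Cfsg.Agent.Helper58.T5T1W

open Matrix Cfsg Cfsg.Geo Cfsg.Agent.Helper71.T4 Cfsg.Agent.Helper96.T5
open scoped Kronecker

/-- two square matrices with the same action on vectors are equal -/
theorem mat_ext_mulVec {F : Type*} [Field F] {ι : Type*} [Fintype ι] [DecidableEq ι]
    {A B : Matrix ι ι F} (h : ∀ w, A *ᵥ w = B *ᵥ w) : A = B := by
  ext i j
  have := congrFun (h (Pi.single j 1)) i
  simpa using this

/-- local form of PIECE NSV -/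
theorem nsv_loc {F : Type*} [Field F] {n : ℕ} (A : Matrix (Fin n) (Fin n) F)
    (hA : ¬ ∃ c : F, A = c • (1 : Matrix (Fin n) (Fin n) F)) :
    ∃ e : Fin n → F, e ≠ 0 ∧ ∀ c : F, A *ᵥ e ≠ c • e := by
  have hn : 1 ≤ n := by
    by_contra h
    have h0 : n = 0 := by omega
    subst h0
    exact hA ⟨0, by ext i; exact i.elim0⟩
  obtain ⟨u, α, h0, h1⟩ := Cfsg.Agent.Helper4.T4CRCore.exists_of_not_scalar hn A hA
  refine ⟨u, ?_, ?_⟩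
  · rintro rfl
    simp at h1
  · intro c hc
    rw [hc, dotProduct_smul, h0] at h1
    simp at h1

variable {F : Type*} [Field F] {a b : ℕ}

theorem rk_sq_zero {ι : Type*} [Fintype ι] [DecidableEq ι] (J : Matrix ι ι F)
    (halt : ∀ x, bf J x x = 0) (e : ι → F) : rk J e e * rk J e e = 0 := by
  rw [rk_mul_rk, halt, zero_smul]

theorem tv_mul_tv_neg {ι : Type*} [Fintype ι] [DecidableEq ι] (J : Matrix ι ι F)
    (halt : ∀ x, bf J x x = 0) (e : ι → F) (c : F) : tv J e c * tv J e (-c) = 1 := by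
  rw [tv, tv, add_mul, mul_add, mul_add, one_mul, mul_one, one_mul, Matrix.smul_mul,
    Matrix.mul_smul, rk_sq_zero J halt]
  simp

/-- local form of PIECE L6P -/
theorem l6p_loc (J₁ : Matrix (Fin a) (Fin a) F) (A : Matrix (Fin a) (Fin a) F)
    (hself : ∀ x y, bf J₁ (A *ᵥ x) y = bf J₁ x (A *ᵥ y)) (hA : ∀ x, bf J₁ (A *ᵥ x) x = 0)
    (e : Fin a → F) (c : F) :
    tv J₁ e c * A * tv J₁ e (-c) - A = c • dm J₁ e (A *ᵥ e) := by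
  apply mat_ext_mulVec
  intro w
  rw [Matrix.sub_mulVec, ← Matrix.mulVec_mulVec, ← Matrix.mulVec_mulVec, Matrix.smul_mulVec,
    dm_mulVec, tv_mulVec, tv_mulVec, Matrix.mulVec_add, Matrix.mulVec_smul, bf_add_left,
    bf_smul_left, hA e, hself w e]
  ext i
  simp only [Pi.add_apply, Pi.sub_apply, Pi.smul_apply, smul_eq_mul]
  ring

variable {J₁ : Matrix (Fin a) (Fin a) F} {J₂ : Matrix (Fin b) (Fin b) F}
  {Q : (Fin a × Fin b → F) → F}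

/-- PIECE T1W -/
theorem t1w (hT : TQ J₁ J₂ Q) (M : Subgroup (GL (Fin a × Fin b) F))
    (hMO : M ≤ isometryGroup F Q) (hR : HasR J₁ J₂ M)
    (S : Matrix (Fin a) (Fin a) F) (d : Fin b → F) (hd : d ≠ 0)
    (hS : InM M (1 + S ⊗ₖ rk J₂ d d))
    (hns : ¬ ∃ c : F, S = c • (1 : Matrix (Fin a) (Fin a) F)) :
    ∃ u u' : Fin a → F, u ≠ 0 ∧ (∀ c : F, u' ≠ c • u) ∧ bf J₁ u u' = 0 ∧
      InM M (1 + dm J₁ u u' ⊗ₖ rk J₂ d d) := by
  obtain ⟨g, hgM, hg⟩ := hS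
  have hQ := (Cfsg.Agent.Helper97.Gen.mem_isometryGroup_iff Q g).mp (hMO hgM)
  obtain ⟨y0, hy0⟩ := exists_bf_eq_one J₂ hT.det₂ d hd
  have hyd : bf J₂ (-y0) d = 1 := by rw [bf_neg_left, bf_swap J₂ hT.alt₂, neg_neg, hy0]
  have hgpt : ∀ u, g.1 *ᵥ pt u (-y0) = pt u (-y0) + pt (S *ᵥ u) d := by
    intro u
    rw [hg, Matrix.add_mulVec, Matrix.one_mulVec, kron_mulVec_pt, rk_mulVec, hyd, one_smul]
  have hal : ∀ u, bf J₁ u (S *ᵥ u) = 0 := by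
    intro u
    have h1 := hQ (pt u (-y0))
    rw [hgpt, hT.pure] at h1
    have h2 : Q (pt u (-y0) + pt (S *ᵥ u) d) = Q (pt u (-y0)) + Q (pt (S *ᵥ u) d) +
        QuadraticMap.polar Q (pt u (-y0)) (pt (S *ᵥ u) d) := by
      simp [QuadraticMap.polar]
    rw [h2, hT.pure, hT.pure, hT.polar, bf_kron_pt, hyd] at h1
    simpa using h1
  have hA : ∀ x, bf J₁ (S *ᵥ x) x = 0 := by
    intro x; rw [bf_swap J₁ hT.alt₁, hal, neg_zero]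
  have hself : ∀ x z, bf J₁ (S *ᵥ x) z = bf J₁ x (S *ᵥ z) := by
    intro x z
    have h := hA (x + z)
    rw [Matrix.mulVec_add, bf_add_left, bf_add_right, bf_add_right, hA x, hA z] at h
    rw [bf_swap J₁ hT.alt₁ x (S *ᵥ z)]
    linear_combination h
  obtain ⟨e, he0, hne⟩ := nsv_loc S hns
  refine ⟨e, S *ᵥ e, he0, hne, hal e, ?_⟩
  have hl := l6p_loc J₁ S hself hA e 1
  rw [one_smul] at hl
  have hTST : tv J₁ e 1 * S * tv J₁ e (-1) = S + dm J₁ e (S *ᵥ e) := by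
    rw [← hl]; abel
  have hττ : rk J₂ d d * rk J₂ d d = 0 := rk_sq_zero J₂ hT.alt₂ d
  have ht := hR.2 e 1
  have ht' := hR.2 e (-1)
  have hginv : InM M (1 - S ⊗ₖ rk J₂ d d) := by
    refine InM.inv ⟨g, hgM, hg⟩ ?_
    have hXX : (S ⊗ₖ rk J₂ d d) * (S ⊗ₖ rk J₂ d d) = 0 := by
      rw [← Matrix.mul_kronecker_mul, hττ, Matrix.kronecker_zero]
    calc (1 + S ⊗ₖ rk J₂ d d) * (1 - S ⊗ₖ rk J₂ d d)
        = 1 - (S ⊗ₖ rk J₂ d d) * (S ⊗ₖ rk J₂ d d) := by noncomm_ring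
      _ = 1 := by rw [hXX, sub_zero]
  have hfin := ((ht.mul ⟨g, hgM, hg⟩).mul ht').mul hginv
  have hA1 : (tv J₁ e 1 ⊗ₖ (1 : Matrix (Fin b) (Fin b) F)) *
      (tv J₁ e (-1) ⊗ₖ (1 : Matrix (Fin b) (Fin b) F)) = 1 := by
    rw [← Matrix.mul_kronecker_mul, tv_mul_tv_neg J₁ hT.alt₁, mul_one, Matrix.one_kronecker_one]
  have hA2 : (tv J₁ e 1 ⊗ₖ (1 : Matrix (Fin b) (Fin b) F)) * (S ⊗ₖ rk J₂ d d) *
      (tv J₁ e (-1) ⊗ₖ (1 : Matrix (Fin b) (Fin b) F)) =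
      (S + dm J₁ e (S *ᵥ e)) ⊗ₖ rk J₂ d d := by
    rw [← Matrix.mul_kronecker_mul, ← Matrix.mul_kronecker_mul, one_mul, mul_one, hTST]
  have e1 : (tv J₁ e 1 ⊗ₖ (1 : Matrix (Fin b) (Fin b) F)) * (1 + S ⊗ₖ rk J₂ d d) *
      (tv J₁ e (-1) ⊗ₖ (1 : Matrix (Fin b) (Fin b) F)) =
      1 + (S + dm J₁ e (S *ᵥ e)) ⊗ₖ rk J₂ d d := by
    calc (tv J₁ e 1 ⊗ₖ (1 : Matrix (Fin b) (Fin b) F)) * (1 + S ⊗ₖ rk J₂ d d) *
          (tv J₁ e (-1) ⊗ₖ (1 : Matrix (Fin b) (Fin b) F))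
        = (tv J₁ e 1 ⊗ₖ (1 : Matrix (Fin b) (Fin b) F)) *
            (tv J₁ e (-1) ⊗ₖ (1 : Matrix (Fin b) (Fin b) F)) +
          (tv J₁ e 1 ⊗ₖ (1 : Matrix (Fin b) (Fin b) F)) * (S ⊗ₖ rk J₂ d d) *
            (tv J₁ e (-1) ⊗ₖ (1 : Matrix (Fin b) (Fin b) F)) := by noncomm_ring
      _ = _ := by rw [hA1, hA2]
  rw [e1] at hfin
  have hXY : ((S + dm J₁ e (S *ᵥ e)) ⊗ₖ rk J₂ d d) * (S ⊗ₖ rk J₂ d d) = 0 := by
    rw [← Matrix.mul_kronecker_mul, hττ, Matrix.kronecker_zero]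
  have e2 : (1 + (S + dm J₁ e (S *ᵥ e)) ⊗ₖ rk J₂ d d) * (1 - S ⊗ₖ rk J₂ d d) =
      1 + dm J₁ e (S *ᵥ e) ⊗ₖ rk J₂ d d := by
    calc (1 + (S + dm J₁ e (S *ᵥ e)) ⊗ₖ rk J₂ d d) * (1 - S ⊗ₖ rk J₂ d d)
        = 1 + ((S + dm J₁ e (S *ᵥ e)) ⊗ₖ rk J₂ d d - S ⊗ₖ rk J₂ d d) -
          ((S + dm J₁ e (S *ᵥ e)) ⊗ₖ rk J₂ d d) * (S ⊗ₖ rk J₂ d d) := by noncomm_ring
      _ = _ := by rw [hXY, sub_zero, Matrix.add_kronecker, add_sub_cancel_left]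
  rwa [e2] at hfin

end Cfsg.Agent.Helper58.T5T1W
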