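import Mathlib
import Cfsg.Prelude.Def_GeometricClasses
import Cfsg.Agent.Helper71.T4Defs
import Cfsg.Agent.Helper71.T4Main
import Cfsg.Agent.Helper97.OForm
import Cfsg.Agent.Helper96.T5Defs
import Cfsg.Agent.Helper58.T5T1W

/-!
# CALL S5704 (helper96), PIECE TWU, with general tools: conjugation of `rk`, `dm` by a
transvection (`tv_conj_rk`, `tv_conj_dm`), Kronecker sign rules, the commutator identity
`comm_sq_zero`, and `exists_dual_pair` (a vector pairing to `1` with `u` and to `0` with `u'`).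
-/

set_option autoImplicit false
set_option linter.unusedVariables false

namespace Cfsg.Agent.Helper58.T5TWU

open Matrix Cfsg Cfsg.Geo Cfsg.Agent.Helper71.T4 Cfsg.Agent.Helper96.T5
open Cfsg.Agent.Helper58.T5T1W
open scoped Kronecker

variable {F : Type*} [Field F] {a b : ℕ}

theorem neg_kron {l m n p : Type*} (A : Matrix l m F) (B : Matrix n p F) :
    (-A) ⊗ₖ B = -(A ⊗ₖ B) := by
  ext ⟨i, k⟩ ⟨j, l⟩
  simp [Matrix.kroneckerMap_apply]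

theorem kron_neg {l m n p : Type*} (A : Matrix l m F) (B : Matrix n p F) :
    A ⊗ₖ (-B) = -(A ⊗ₖ B) := by
  ext ⟨i, k⟩ ⟨j, l⟩
  simp [Matrix.kroneckerMap_apply]

theorem kron_sub {l m n p : Type*} (A : Matrix l m F) (B B' : Matrix n p F) :
    A ⊗ₖ (B - B') = A ⊗ₖ B - A ⊗ₖ B' := by
  ext ⟨i, k⟩ ⟨j, l⟩
  simp [Matrix.kroneckerMap_apply, mul_sub]

theorem sub_kron {l m n p : Type*} (A A' : Matrix l m F) (B : Matrix n p F) :
    (A - A') ⊗ₖ B = A ⊗ₖ B - A' ⊗ₖ B := by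
  ext ⟨i, k⟩ ⟨j, l⟩
  simp [Matrix.kroneckerMap_apply, sub_mul]

/-- conjugating a rank one operator by a transvection -/
theorem tv_conj_rk {ι : Type*} [Fintype ι] [DecidableEq ι] (J : Matrix ι ι F)
    (halt : ∀ x, bf J x x = 0) (z : ι → F) (c : F) (x y : ι → F) :
    tv J z c * rk J x y * tv J z (-c) = rk J (tv J z c *ᵥ x) (tv J z c *ᵥ y) := by
  apply mat_ext_mulVec
  intro w
  rw [← Matrix.mulVec_mulVec, ← Matrix.mulVec_mulVec, rk_mulVec, rk_mulVec, Matrix.mulVec_smul]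
  congr 1
  rw [tv_mulVec, tv_mulVec, bf_add_left, bf_add_right, bf_smul_left, bf_smul_right,
    bf_swap J halt z y]
  ring

theorem tv_conj_dm {ι : Type*} [Fintype ι] [DecidableEq ι] (J : Matrix ι ι F)
    (halt : ∀ x, bf J x x = 0) (z : ι → F) (c : F) (x y : ι → F) :
    tv J z c * dm J x y * tv J z (-c) = dm J (tv J z c *ᵥ x) (tv J z c *ᵥ y) := by
  rw [dm, mul_sub, sub_mul, tv_conj_rk J halt, tv_conj_rk J halt, dm]

/-- the commutator of `1 + P` and `1 + P'` when `P² = P'² = 0` and `P P' P = P' P P' = 0` -/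
theorem comm_sq_zero {R : Type*} [Ring R] (P P' : R) (h1 : P * P = 0) (h2 : P' * P' = 0)
    (h3 : P * P' * P = 0) (h4 : P' * P * P' = 0) :
    (1 + P) * (1 + P') * (1 - P) * (1 - P') = 1 + P * P' - P' * P := by
  have e : (1 + P) * (1 + P') * (1 - P) * (1 - P') =
      1 + P * P' - P' * P - P * P + (P * P) * P' - P' * P' + P' * P * P' - P * P' * P
        - P * (P' * P') + (P * P' * P) * P' := by noncomm_ring
  rw [e, h1, h2, h3, h4]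
  simp

/-- for independent `u`, `u'` there is `f` with `bf u f = 1`, `bf u' f = 0` -/
theorem exists_dual_pair {ι : Type*} [Fintype ι] [DecidableEq ι] (J : Matrix ι ι F)
    (hdet : J.det ≠ 0) (u u' : ι → F) (hu : u ≠ 0) (hind : ∀ c : F, u' ≠ c • u) :
    ∃ f : ι → F, bf J u f = 1 ∧ bf J u' f = 0 := by
  obtain ⟨f₀, hf₀⟩ := exists_bf_eq_one J hdet u hu
  have hv : u' - bf J u' f₀ • u ≠ 0 := by
    intro h
    exact hind _ (sub_eq_zero.mp h)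
  obtain ⟨g, hg⟩ := exists_bf_eq_one J hdet _ hv
  rw [bf_sub_left, bf_smul_left] at hg
  refine ⟨f₀ - bf J u' f₀ • (g - bf J u g • f₀), ?_, ?_⟩
  · rw [bf_sub_right, bf_smul_right, bf_sub_right, bf_smul_right, hf₀]
    ring
  · rw [bf_sub_right, bf_smul_right, bf_sub_right, bf_smul_right]
    linear_combination (- bf J u' f₀) * hg

variable {J₁ : Matrix (Fin a) (Fin a) F} {J₂ : Matrix (Fin b) (Fin b) F}
  {Q : (Fin a × Fin b → F) → F}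

/-- PIECE TWU -/
theorem twu (hT : TQ J₁ J₂ Q) (hb : 3 ≤ b) (M : Subgroup (GL (Fin a × Fin b) F))
    (hR : HasR J₁ J₂ M) (u u' : Fin a → F) (hu : u ≠ 0) (hind : ∀ c : F, u' ≠ c • u)
    (huu : bf J₁ u u' = 0) (d : Fin b → F) (hd : d ≠ 0)
    (h : InM M (1 + dm J₁ u u' ⊗ₖ rk J₂ d d)) : ¬ NSU J₁ M := by
  intro hNSU
  obtain ⟨f₁, hf1, hf2⟩ := exists_dual_pair J₁ hT.det₁ u u' hu hind
  obtain ⟨d₂, hd2⟩ := exists_bf_eq_one J₂ hT.det₂ d hd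
  have hu'0 : u' ≠ 0 := by
    intro h0
    exact hind 0 (by rw [h0, zero_smul])
  have hu'u : bf J₁ u' u = 0 := by rw [bf_swap J₁ hT.alt₁, huu, neg_zero]
  have hf1u : bf J₁ f₁ u = -1 := by rw [bf_swap J₁ hT.alt₁, hf1]
  have hf1u' : bf J₁ f₁ u' = 0 := by rw [bf_swap J₁ hT.alt₁, hf2, neg_zero]
  have hd2d : bf J₂ d₂ d = -1 := by rw [bf_swap J₂ hT.alt₂, hd2]
  -- the conjugating transvections
  have ht1u : tv J₁ (u - f₁) 1 *ᵥ u = f₁ := by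
    rw [tv_mulVec, bf_sub_right, hT.alt₁, hf1]
    ext i; simp
  have ht1u' : tv J₁ (u - f₁) 1 *ᵥ u' = u' := by
    rw [tv_mulVec, bf_sub_right, hu'u, hf2]
    simp
  have ht2d : tv J₂ (d - d₂) 1 *ᵥ d = d₂ := by
    rw [tv_mulVec, bf_sub_right, hT.alt₂, hd2]
    ext i; simp
  have hD' : tv J₁ (u - f₁) 1 * dm J₁ u u' * tv J₁ (u - f₁) (-1) = dm J₁ f₁ u' := by
    rw [tv_conj_dm J₁ hT.alt₁, ht1u, ht1u']
  have hτ' : tv J₂ (d - d₂) 1 * rk J₂ d d * tv J₂ (d - d₂) (-1) = rk J₂ d₂ d₂ := by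
    rw [tv_conj_rk J₂ hT.alt₂, ht2d]
  -- Y ∈ M
  have hY : InM M (1 + dm J₁ f₁ u' ⊗ₖ rk J₂ d₂ d₂) := by
    have h1 := (((hR.1 (d - d₂) 1).mul (hR.2 (u - f₁) 1)).mul h).mul
      ((hR.2 (u - f₁) (-1)).mul (hR.1 (d - d₂) (-1)))
    have e : ((1 : Matrix (Fin a) (Fin a) F) ⊗ₖ tv J₂ (d - d₂) 1) *
        (tv J₁ (u - f₁) 1 ⊗ₖ (1 : Matrix (Fin b) (Fin b) F)) *
        (1 + dm J₁ u u' ⊗ₖ rk J₂ d d) *
        ((tv J₁ (u - f₁) (-1) ⊗ₖ (1 : Matrix (Fin b) (Fin b) F)) *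
          ((1 : Matrix (Fin a) (Fin a) F) ⊗ₖ tv J₂ (d - d₂) (-1))) =
        1 + dm J₁ f₁ u' ⊗ₖ rk J₂ d₂ d₂ := by
      rw [← Matrix.mul_kronecker_mul, ← Matrix.mul_kronecker_mul, one_mul, mul_one, one_mul,
        mul_one, mul_add, mul_one, add_mul, ← Matrix.mul_kronecker_mul,
        ← Matrix.mul_kronecker_mul, ← Matrix.mul_kronecker_mul, tv_mul_tv_neg J₁ hT.alt₁,
        tv_mul_tv_neg J₂ hT.alt₂, Matrix.one_kronecker_one, hD', hτ']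
    rwa [e] at h1
  -- inverses
  have hττ : rk J₂ d d * rk J₂ d d = 0 := rk_sq_zero J₂ hT.alt₂ d
  have hττ' : rk J₂ d₂ d₂ * rk J₂ d₂ d₂ = 0 := rk_sq_zero J₂ hT.alt₂ d₂
  have hPP : (dm J₁ u u' ⊗ₖ rk J₂ d d) * (dm J₁ u u' ⊗ₖ rk J₂ d d) = 0 := by
    rw [← Matrix.mul_kronecker_mul, hττ, Matrix.kronecker_zero]
  have hP'P' : (dm J₁ f₁ u' ⊗ₖ rk J₂ d₂ d₂) * (dm J₁ f₁ u' ⊗ₖ rk J₂ d₂ d₂) = 0 := by
    rw [← Matrix.mul_kronecker_mul, hττ', Matrix.kronecker_zero]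
  have hXi : InM M (1 - dm J₁ u u' ⊗ₖ rk J₂ d d) := by
    refine InM.inv h ?_
    calc (1 + dm J₁ u u' ⊗ₖ rk J₂ d d) * (1 - dm J₁ u u' ⊗ₖ rk J₂ d d)
        = 1 - (dm J₁ u u' ⊗ₖ rk J₂ d d) * (dm J₁ u u' ⊗ₖ rk J₂ d d) := by noncomm_ring
      _ = 1 := by rw [hPP, sub_zero]
  have hYi : InM M (1 - dm J₁ f₁ u' ⊗ₖ rk J₂ d₂ d₂) := by
    refine InM.inv hY ?_
    calc (1 + dm J₁ f₁ u' ⊗ₖ rk J₂ d₂ d₂) * (1 - dm J₁ f₁ u' ⊗ₖ rk J₂ d₂ d₂)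
        = 1 - (dm J₁ f₁ u' ⊗ₖ rk J₂ d₂ d₂) * (dm J₁ f₁ u' ⊗ₖ rk J₂ d₂ d₂) := by noncomm_ring
      _ = 1 := by rw [hP'P', sub_zero]
  -- products of the `U`-parts
  have hDf : dm J₁ u u' *ᵥ f₁ = u' := by
    rw [dm_mulVec, hf1u', hf1u]; simp
  have hDu' : dm J₁ u u' *ᵥ u' = 0 := by
    rw [dm_mulVec, hT.alt₁, hu'u]; simp
  have hD'u : dm J₁ f₁ u' *ᵥ u = -u' := by
    rw [dm_mulVec, huu, hf1]; simp
  have hD'u' : dm J₁ f₁ u' *ᵥ u' = 0 := by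
    rw [dm_mulVec, hT.alt₁, hf2]; simp
  have hDD' : dm J₁ u u' * dm J₁ f₁ u' = rk J₁ u' u' := by
    apply mat_ext_mulVec
    intro w
    rw [← Matrix.mulVec_mulVec, dm_mulVec J₁ f₁ u', Matrix.mulVec_sub, Matrix.mulVec_smul,
      Matrix.mulVec_smul, hDf, hDu', rk_mulVec]
    simp
  have hD'D : dm J₁ f₁ u' * dm J₁ u u' = -rk J₁ u' u' := by
    apply mat_ext_mulVec
    intro w
    rw [← Matrix.mulVec_mulVec, dm_mulVec J₁ u u', Matrix.mulVec_sub, Matrix.mulVec_smul,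
      Matrix.mulVec_smul, hD'u, hD'u', Matrix.neg_mulVec, rk_mulVec]
    simp
  have hρD : rk J₁ u' u' * dm J₁ u u' = 0 := by
    apply mat_ext_mulVec
    intro w
    rw [← Matrix.mulVec_mulVec, rk_mulVec, dm_mulVec, bf_sub_left, bf_smul_left, bf_smul_left,
      huu, hT.alt₁]
    simp
  have hρD' : rk J₁ u' u' * dm J₁ f₁ u' = 0 := by
    apply mat_ext_mulVec
    intro w
    rw [← Matrix.mulVec_mulVec, rk_mulVec, dm_mulVec, bf_sub_left, bf_smul_left, bf_smul_left,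
      hf1u', hT.alt₁]
    simp
  have hPP' : (dm J₁ u u' ⊗ₖ rk J₂ d d) * (dm J₁ f₁ u' ⊗ₖ rk J₂ d₂ d₂) =
      -(rk J₁ u' u' ⊗ₖ rk J₂ d d₂) := by
    rw [← Matrix.mul_kronecker_mul, hDD', rk_mul_rk, hd2d, neg_one_smul, kron_neg]
  have hP'P : (dm J₁ f₁ u' ⊗ₖ rk J₂ d₂ d₂) * (dm J₁ u u' ⊗ₖ rk J₂ d d) =
      -(rk J₁ u' u' ⊗ₖ rk J₂ d₂ d) := by
    rw [← Matrix.mul_kronecker_mul, hD'D, rk_mul_rk, hd2, one_smul, neg_kron]
  have h3 : (dm J₁ u u' ⊗ₖ rk J₂ d d) * (dm J₁ f₁ u' ⊗ₖ rk J₂ d₂ d₂) *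
      (dm J₁ u u' ⊗ₖ rk J₂ d d) = 0 := by
    rw [← Matrix.mul_kronecker_mul, ← Matrix.mul_kronecker_mul, hDD', hρD, Matrix.zero_kronecker]
  have h4 : (dm J₁ f₁ u' ⊗ₖ rk J₂ d₂ d₂) * (dm J₁ u u' ⊗ₖ rk J₂ d d) *
      (dm J₁ f₁ u' ⊗ₖ rk J₂ d₂ d₂) = 0 := by
    rw [← Matrix.mul_kronecker_mul, ← Matrix.mul_kronecker_mul, hD'D, neg_mul, hρD', neg_zero,
      Matrix.zero_kronecker]
  have hcomm := ((h.mul hY).mul hXi).mul hYi
  rw [comm_sq_zero _ _ hPP hP'P' h3 h4, hPP', hP'P] at hcomm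
  have e : (1 : Matrix (Fin a × Fin b) (Fin a × Fin b) F) + -(rk J₁ u' u' ⊗ₖ rk J₂ d d₂) -
      -(rk J₁ u' u' ⊗ₖ rk J₂ d₂ d) = 1 + rk J₁ u' u' ⊗ₖ (-(dm J₂ d d₂)) := by
    rw [dm, kron_neg, kron_sub]
    abel
  rw [e] at hcomm
  obtain ⟨c, hc⟩ := hNSU _ u' hu'0 hcomm
  -- `dm J₂ d d₂` is not scalar
  obtain ⟨β, hβ0, hβ1, hβ2⟩ := exists_perp2 hb (J₂ *ᵥ d) (J₂ *ᵥ d₂)
  have hc1 := congrArg (fun A => A *ᵥ β) hc
  simp only [Matrix.neg_mulVec, dm_mulVec, Matrix.smul_mulVec, Matrix.one_mulVec] at hc1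
  have hb1 : bf J₂ β d = 0 := hβ1
  have hb2 : bf J₂ β d₂ = 0 := hβ2
  rw [hb1, hb2] at hc1
  have hc0 : c = 0 := by
    by_contra hcne
    apply hβ0
    have : c • β = 0 := by rw [← hc1]; simp
    exact (smul_eq_zero.mp this).resolve_left hcne
  have hc2 := congrArg (fun A => A *ᵥ d) hc
  simp only [Matrix.neg_mulVec, dm_mulVec, Matrix.smul_mulVec, Matrix.one_mulVec] at hc2
  rw [hd2, hT.alt₂, hc0] at hc2
  apply hd
  simpa using hc2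

end Cfsg.Agent.Helper58.T5TWU
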