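import Mathlib
import Cfsg.Agent.Helper58.TSDefs
import Cfsg.Agent.Helper13.TSEG
import Cfsg.Agent.Helper35.TSSTDM
import Cfsg.Agent.Helper35.TSSTDP
import Cfsg.Agent.Helper43.TSEB
import Cfsg.Agent.Helper43.TSOB
import Cfsg.Agent.Helper48.TSCOUNT
import Cfsg.Agent.Helper7.TSAE0
import Cfsg.Agent.Helper7.TSAE1
import Cfsg.Agent.Helper80.TSNONSCAL
import Cfsg.Agent.Helper80.TSSCAL
import Cfsg.Agent.Helper86.TSAO0
import Cfsg.Agent.Helper86.TSAO1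
import Cfsg.Agent.Helper86.TSORD
import Cfsg.Agent.Helper90.TSR2Main
import Cfsg.Agent.Helper98.TSOG

set_option autoImplicit false

/-!
# S5973 / S5987: top-level assembly (helper58)
-/

namespace Cfsg.Agent.Helper58.TS

open Module Cfsg Cfsg.Geo
open Cfsg.Agent.Helper13.TS5973 (ts_even_good)
open Cfsg.Agent.Helper35.TS5973 (ts_std_plus ts_std_minus)
open Cfsg.Agent.Helper43.TS5973 (ts_odd_bad ts_even_bad)
open Cfsg.Agent.Helper48.TS5973 (ts_count)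
open Cfsg.Agent.Helper7.TS5973 (ts_arith_even_plus ts_arith_even_minus)
open Cfsg.Agent.Helper80.TS5973 (ts_scal ts_nonscalar)
open Cfsg.Agent.Helper86.TS5973 (ts_ord ts_arith_odd_plus ts_arith_odd_minus)
open Cfsg.Agent.Helper90.TS5973 (ts_two_good_plus ts_two_bad_plus_a ts_two_bad_plus_b ts_two_good_minus ts_two_bad_minus)
open Cfsg.Agent.Helper98.TS5973 (ts_odd_good)
open scoped MatrixGroups

section generic

variable {ι : Type} [Fintype ι] [DecidableEq ι] {F : Type*} [Field F] [Fintype F]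

omit [Fintype F] in
theorem omega_le_iso58 (Q : (ι → F) → F) {x : GL ι F} (hx : x ∈ Cfsg.Geo.omegaGL Q) :
    x ∈ Cfsg.isometryGroup F Q := by
  obtain ⟨y, -, rfl⟩ := hx
  exact y.2

omit [Fintype F] in
theorem one_smul_mat58 (x : GL ι F) (k : ℕ) (h : x ^ k = 1) :
    ∃ z : F, ((x ^ k : GL ι F) : Matrix ι ι F) = z • (1 : Matrix ι ι F) :=
  ⟨1, by rw [h, one_smul]; rfl⟩

theorem not_dvd_card58 (p : ℕ) [Fact p.Prime] [CharP F p] (q : ℕ) (hq : Fintype.card F = q)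
    (r : ℕ) [Fact r.Prime] (hrp : r ≠ p) : ¬ r ∣ q := by
  intro h
  obtain ⟨n, hp, hn⟩ := FiniteField.card F p
  rw [hq] at hn
  rw [hn] at h
  have h1 := (Fact.out : r.Prime).dvd_of_dvd_pow h
  exact hrp ((Nat.prime_dvd_prime_iff_eq Fact.out hp).mp h1)

theorem odd_card58 (p : ℕ) [Fact p.Prime] [CharP F p] (q : ℕ) (hq : Fintype.card F = q)
    (hp2 : p ≠ 2) : Odd q := by
  obtain ⟨n, hp, hn⟩ := FiniteField.card F p
  rw [hq] at hn
  rw [hn]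
  exact (hp.odd_of_ne_two hp2).pow

/-- the model theorem for `i` odd. -/
theorem ts_model_odd (Q : (ι → F) → F) (hQ : IsNondegenerateQuadraticForm Q) (d δ : ℕ) (hd : 4 ≤ d)
    (hcard : Fintype.card ι = 2 * d) (hδ : TypeDefect Q δ) (p : ℕ) [Fact p.Prime] [CharP F p]
    (q : ℕ) (hq : Fintype.card F = q) (m : ℕ) (hmd : m < d) (r : ℕ) [Fact r.Prime] (hr2 : 2 < r)
    (hrp : r ≠ p) (i : ℕ) (hi : i = orderOf ((q : ℕ) : ZMod r)) (hodd : Odd i) :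
    (∀ x : GL ι F, x ∈ Cfsg.Geo.omegaGL Q →
      (∃ z : F, ((x ^ r : GL ι F) : Matrix ι ι F) = z • (1 : Matrix ι ι F)) →
      (∀ z : F, (x : Matrix ι ι F) ≠ z • (1 : Matrix ι ι F)) → InvTS Q (x : Matrix ι ι F) m) ↔
    (∀ a, 1 ≤ a → i * a + δ ≤ d → ∃ s w, s ≤ a ∧ w + i * a + δ ≤ d ∧ m = i * s + w) := by
  have hrodd : Odd r := (Fact.out : r.Prime).odd_of_ne_two (by omega)
  have hδ1 := hδ.le_one
  constructor
  · intro h a ha had
    obtain ⟨x, hxΩ, hxr, hx1, hall⟩ :=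
      ts_odd_bad Q hQ d δ hd hcard hδ p q hq r hr2 hrp i hi hodd a ha had
    have hxI := omega_le_iso58 Q hxΩ
    exact hall m (h x hxΩ (one_smul_mat58 x r hxr) (ts_nonscalar Q hQ r hrodd x hxI hxr hx1))
  · rintro h x hxΩ ⟨z, hz⟩ hns
    have hxI := omega_le_iso58 Q hxΩ
    obtain ⟨x', hx'I, hx'r, hinv⟩ := ts_scal Q hQ r hrodd x hxI z hz
    obtain ⟨a, had, hall⟩ :=
      ts_odd_good Q hQ d δ hcard hδ p q hq r hr2 hrp i hi hodd x' hx'I hx'r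
    apply hinv
    rcases Nat.eq_zero_or_pos a with rfl | ha
    · have h0 := hall 0 m (le_refl _) (by omega)
      simpa using h0
    · obtain ⟨s, w, hs, hw, hm⟩ := h a ha had
      rw [hm]
      exact hall s w hs hw

/-- the model theorem for `i` even. -/
theorem ts_model_even (Q : (ι → F) → F) (hQ : IsNondegenerateQuadraticForm Q) (d δ : ℕ)
    (hd : 4 ≤ d) (hcard : Fintype.card ι = 2 * d) (hδ : TypeDefect Q δ) (p : ℕ) [Fact p.Prime]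
    [CharP F p] (q : ℕ) (hq : Fintype.card F = q) (m : ℕ) (hmd : m < d) (r : ℕ) [Fact r.Prime]
    (hr2 : 2 < r) (hrp : r ≠ p) (i : ℕ) (hi : i = orderOf ((q : ℕ) : ZMod r)) (heven : Even i) :
    (∀ x : GL ι F, x ∈ Cfsg.Geo.omegaGL Q →
      (∃ z : F, ((x ^ r : GL ι F) : Matrix ι ι F) = z • (1 : Matrix ι ι F)) →
      (∀ z : F, (x : Matrix ι ι F) ≠ z • (1 : Matrix ι ι F)) → InvTS Q (x : Matrix ι ι F) m) ↔
    (∀ A o, 1 ≤ A → o ≤ (r - 1) / i → o ≤ A → Even (A - o) →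
      i * A + 2 * ((δ + A) % 2) ≤ 2 * d →
      ∃ s w, 2 * s + o ≤ A ∧ 2 * w + i * A + 2 * ((δ + A) % 2) ≤ 2 * d ∧ m = i * s + w) := by
  have hrodd : Odd r := (Fact.out : r.Prime).odd_of_ne_two (by omega)
  have hδ1 := hδ.le_one
  constructor
  · intro h A o hA ho hoA hpar hadm
    obtain ⟨x, hxΩ, hxr, hx1, hall⟩ :=
      ts_even_bad Q hQ d δ hd hcard hδ p q hq r hr2 hrp i hi heven A o hA ho hoA hpar hadm
    have hxI := omega_le_iso58 Q hxΩ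
    exact hall m (h x hxΩ (one_smul_mat58 x r hxr) (ts_nonscalar Q hQ r hrodd x hxI hxr hx1))
  · rintro h x hxΩ ⟨z, hz⟩ hns
    have hxI := omega_le_iso58 Q hxΩ
    obtain ⟨x', hx'I, hx'r, hinv⟩ := ts_scal Q hQ r hrodd x hxI z hz
    obtain ⟨A, o, ho, hoA, hpar, hadm, hall⟩ :=
      ts_even_good Q hQ d δ hcard hδ p q hq r hr2 hrp i hi heven x' hx'I hx'r
    apply hinv
    rcases Nat.eq_zero_or_pos A with rfl | hA
    · have ho0 : o = 0 := by omega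
      subst ho0
      have h0 := hall 0 m (by omega) (by
        have : (δ + 0) % 2 = δ := by omega
        rw [this]
        omega)
      simpa using h0
    · obtain ⟨s, w, hs, hw, hm⟩ := h A o hA ho hoA hpar hadm
      rw [hm]
      exact hall s w hs hw

end generic

section plus

variable {F : Type*} [Field F] [Fintype F]

/-- **S5973** (assembly). -/
theorem s5973_main {p : ℕ} [Fact p.Prime] [CharP F p] {q : ℕ} (hq : Fintype.card F = q)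
    (d m : ℕ) (hd : 4 ≤ d) (hm : 1 ≤ m) (hmd : m < d)
    (r : ℕ) [Fact r.Prime]
    (hrΩ : r ∣ Nat.card {W : Submodule F (Fin d ⊕ Fin d → F) // Module.finrank F ↥W = m ∧ (∀ w ∈ W, Cfsg.quadFormPlus d F w = 0)})
    (i c : ℕ) (hi : i = orderOf (q : ZMod r)) (hc : c = if Even i then i else 2 * i) :
    (∀ x : GL (Fin d ⊕ Fin d) F, x ∈ Cfsg.Geo.omegaGL (Cfsg.quadFormPlus d F) →
      (∃ z : F, ((x ^ r : GL (Fin d ⊕ Fin d) F) : Matrix (Fin d ⊕ Fin d) (Fin d ⊕ Fin d) F) = z • (1 : Matrix (Fin d ⊕ Fin d) (Fin d ⊕ Fin d) F)) →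
      (∀ z : F, (x : Matrix (Fin d ⊕ Fin d) (Fin d ⊕ Fin d) F) ≠ z • (1 : Matrix (Fin d ⊕ Fin d) (Fin d ⊕ Fin d) F)) →
      ∃ W : Submodule F (Fin d ⊕ Fin d → F), Module.finrank F ↥W = m ∧ (∀ w ∈ W, Cfsg.quadFormPlus d F w = 0) ∧
        W.map (Matrix.toLin' (x : Matrix (Fin d ⊕ Fin d) (Fin d ⊕ Fin d) F)) ≤ W) ↔
    ((r = 2 ∧ p ≠ 2 ∧ (q % 4 = 1 ∨ (q % 4 = 3 ∧ m + 2 ≤ d ∧ (Even m ∨ (2 * d) % 4 = 2)))) ∨
     (r ≠ p ∧ 2 < r ∧ Odd i ∧ i ≤ m ∧ 2 * (m % i) ≤ (2 * d) % c) ∨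
     (r ≠ p ∧ 2 < r ∧ Even i ∧ i ≤ m ∧ (r - 1) / i + 2 * (m / i) ≤ (2 * d) / i ∧
       ((2 * (m % i) ≤ i ∧ (2 * d) % c = 0 ∧ Odd ((2 * d) / i) ∧ (r - 1) / i + 2 * (m / i) < (2 * d) / i) ∨
        (2 * (m % i) ≤ (2 * d) % c ∧ Even ((2 * d) / i)) ∨
        (2 * (m % i) < (2 * d) % c ∧ Odd ((2 * d) / i))))) := by
  obtain ⟨hQ, hplus⟩ := ts_std_plus (F := F) d
  have hcard : Fintype.card (Fin d ⊕ Fin d) = 2 * d := by
    rw [Fintype.card_sum, Fintype.card_fin]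
    ring
  have hδ := typeDefect_plus hplus
  obtain ⟨hrp, j, hj, hH⟩ := ts_count _ hQ d 0 hcard hδ p q hq m hm hmd r hrΩ
  have hrpr : r.Prime := Fact.out
  change (∀ x : GL (Fin d ⊕ Fin d) F, x ∈ Cfsg.Geo.omegaGL (Cfsg.quadFormPlus d F) →
      (∃ z : F, ((x ^ r : GL (Fin d ⊕ Fin d) F) : Matrix (Fin d ⊕ Fin d) (Fin d ⊕ Fin d) F) = z • (1 : Matrix (Fin d ⊕ Fin d) (Fin d ⊕ Fin d) F)) →
      (∀ z : F, (x : Matrix (Fin d ⊕ Fin d) (Fin d ⊕ Fin d) F) ≠ z • (1 : Matrix (Fin d ⊕ Fin d) (Fin d ⊕ Fin d) F)) →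
      InvTS (Cfsg.quadFormPlus d F) (x : Matrix (Fin d ⊕ Fin d) (Fin d ⊕ Fin d) F) m) ↔ _
  by_cases h2 : r = 2
  · subst h2
    have hp2 : p ≠ 2 := fun h => hrp h.symm
    have hqodd := odd_card58 (F := F) p q hq hp2
    constructor
    · intro h
      left
      refine ⟨rfl, hp2, ?_⟩
      by_cases h1 : q % 4 = 1
      · exact Or.inl h1
      · right
        have h3 : q % 4 = 3 := by
          obtain ⟨k, hk⟩ := hqodd
          omega
        refine ⟨h3, ?_, ?_⟩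
        · obtain ⟨x, hxΩ, hx2, hns, hall⟩ := ts_two_bad_plus_a _ hQ d hd hcard hplus q hq h3
          exact hall m (h x hxΩ (one_smul_mat58 x 2 hx2) hns)
        · by_cases hde : Even d
          · obtain ⟨x, hxΩ, hx2, hns, hall⟩ :=
              ts_two_bad_plus_b _ hQ d hd hcard hplus q hq h3 hde
            exact Or.inl (hall m (h x hxΩ ⟨-1, hx2⟩ hns))
          · right
            obtain ⟨k, hk⟩ := Nat.not_even_iff_odd.mp hde
            omega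
    · rintro (⟨-, -, hcrit⟩ | ⟨-, h, -⟩ | ⟨-, h, -⟩)
      · rintro x hxΩ ⟨z, hz⟩ hns
        obtain ⟨g1, g2⟩ := ts_two_good_plus _ hQ d hd hcard hplus q hq hqodd x hxΩ z hz hns
        rcases hcrit with h1 | ⟨h3, hm2, hpar⟩
        · exact g1 h1 m hmd.le
        · refine g2 m hm2 (hpar.imp id fun h => ?_)
          rcases Nat.even_or_odd d with ⟨k, hk⟩ | ho
          · omega
          · exact ho
      · omega
      · omega
  · have hr2 : 2 < r := lt_of_le_of_ne hrpr.two_le (Ne.symm h2)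
    have hrq := not_dvd_card58 (F := F) p q hq r hrp
    obtain ⟨hi0, hir, hord1, hord2⟩ := ts_ord r q hr2 hrq i hi
    rcases Nat.even_or_odd i with heven | hodd
    · have hmodel := ts_model_even _ hQ d 0 hd hcard hδ p q hq m hmd r hr2 hrp i hi heven
      simp only [zero_add] at hmodel
      have hHi : ∃ j, j < m ∧ (i ∣ d - j ∨ (d - j - 1) % i = i / 2) := by
        refine ⟨j, hj, ?_⟩
        rcases hH with ⟨-, h | h⟩ | ⟨h, -⟩
        · exact Or.inl ((hord1 _).mp h)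
        · exact Or.inr ((hord2 _).mp h).2
        · omega
      have ht : 1 ≤ (r - 1) / i := Nat.div_pos (Nat.le_of_dvd (by omega) hir) hi0
      have harith := ts_arith_even_plus i ((r - 1) / i) d m heven hi0 ht hm hmd hHi
      rw [if_pos heven] at hc
      subst hc
      rw [hmodel, harith]
      constructor
      · intro hcrit
        exact Or.inr (Or.inr ⟨hrp, hr2, heven, hcrit⟩)
      · rintro (⟨h, -⟩ | ⟨-, -, ho, -⟩ | ⟨-, -, -, hcrit⟩)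
        · exact absurd h h2
        · exact absurd heven (Nat.not_even_iff_odd.mpr ho)
        · exact hcrit
    · have hmodel := ts_model_odd _ hQ d 0 hd hcard hδ p q hq m hmd r hr2 hrp i hi hodd
      simp only [add_zero] at hmodel
      have hHi : ∃ j, j < m ∧ i ∣ d - j := by
        refine ⟨j, hj, ?_⟩
        rcases hH with ⟨-, h | h⟩ | ⟨h, -⟩
        · exact (hord1 _).mp h
        · exact absurd ((hord2 _).mp h).1 (Nat.not_even_iff_odd.mpr hodd)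
        · omega
      have harith := ts_arith_odd_plus i d m hodd hm hmd hHi
      rw [if_neg (Nat.not_even_iff_odd.mpr hodd)] at hc
      subst hc
      rw [hmodel, harith]
      constructor
      · intro hcrit
        exact Or.inr (Or.inl ⟨hrp, hr2, hodd, hcrit⟩)
      · rintro (⟨h, -⟩ | ⟨-, -, -, hcrit⟩ | ⟨-, -, he, -⟩)
        · exact absurd h h2
        · exact hcrit
        · exact absurd he (Nat.not_even_iff_odd.mpr hodd)

end plus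

section minus

variable {F : Type*} [Field F] [Fintype F]

/-- **S5987** (assembly). -/
theorem s5987_main {p : ℕ} [Fact p.Prime] [CharP F p] {q : ℕ} (hq : Fintype.card F = q)
    (d m : ℕ) (hd : 4 ≤ d) (hm : 1 ≤ m) (hmd : m + 1 ≤ d) (a b : F) (hab : ∀ x y : F, x ^ 2 + a * x * y + b * y ^ 2 = 0 → x = 0 ∧ y = 0)
    (r : ℕ) [Fact r.Prime]
    (hrΩ : r ∣ Nat.card {W : Submodule F ((Fin (d - 1) ⊕ Fin (d - 1)) ⊕ Fin 2 → F) // Module.finrank F ↥W = m ∧ Cfsg.Geo.IsTotallySingularQuad (Cfsg.quadFormMinus (d - 1) F a b) W})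
    (i c : ℕ) (hi : i = orderOf (q : ZMod r)) (hc : c = if Even i then i else 2 * i) :
    (∀ x : GL ((Fin (d - 1) ⊕ Fin (d - 1)) ⊕ Fin 2) F, x ∈ Cfsg.Geo.omegaGL (Cfsg.quadFormMinus (d - 1) F a b) →
      (∃ z : F, ((x ^ r : GL ((Fin (d - 1) ⊕ Fin (d - 1)) ⊕ Fin 2) F) : Matrix ((Fin (d - 1) ⊕ Fin (d - 1)) ⊕ Fin 2) ((Fin (d - 1) ⊕ Fin (d - 1)) ⊕ Fin 2) F) = z • (1 : Matrix ((Fin (d - 1) ⊕ Fin (d - 1)) ⊕ Fin 2) ((Fin (d - 1) ⊕ Fin (d - 1)) ⊕ Fin 2) F)) →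
      (∀ z : F, (x : Matrix ((Fin (d - 1) ⊕ Fin (d - 1)) ⊕ Fin 2) ((Fin (d - 1) ⊕ Fin (d - 1)) ⊕ Fin 2) F) ≠ z • (1 : Matrix ((Fin (d - 1) ⊕ Fin (d - 1)) ⊕ Fin 2) ((Fin (d - 1) ⊕ Fin (d - 1)) ⊕ Fin 2) F)) →
      ∃ W : Submodule F ((Fin (d - 1) ⊕ Fin (d - 1)) ⊕ Fin 2 → F), (Module.finrank F ↥W = m ∧ Cfsg.Geo.IsTotallySingularQuad (Cfsg.quadFormMinus (d - 1) F a b) W) ∧ W.map (Matrix.toLin' (x : Matrix ((Fin (d - 1) ⊕ Fin (d - 1)) ⊕ Fin 2) ((Fin (d - 1) ⊕ Fin (d - 1)) ⊕ Fin 2) F)) ≤ W) ↔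
    ((r = 2 ∧ p ≠ 2 ∧ (Even d ∨ Even m ∨ q % 8 ≠ 7)) ∨
     (r ≠ p ∧ 2 < r ∧ Odd i ∧ i ≤ m ∧ ((2 * d) % c = 0 ∨ 2 * (m % i) < (2 * d) % c)) ∨
     (r ≠ p ∧ 2 < r ∧ Even i ∧ i ≤ m ∧ (r - 1) / i + 2 * (m / i) ≤ (2 * d) / i ∧
       ((2 * (m % i) ≤ i ∧ (2 * d) % c = 0 ∧ Even ((2 * d) / i) ∧ (r - 1) / i + 2 * (m / i) < (2 * d) / i) ∨
        (2 * (m % i) ≤ (2 * d) % c ∧ Odd ((2 * d) / i)) ∨
        (2 * (m % i) < (2 * d) % c ∧ Even ((2 * d) / i))))) := by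
  obtain ⟨hQ, hminus⟩ := ts_std_minus (F := F) (d - 1) a b hab
  have hcard : Fintype.card ((Fin (d - 1) ⊕ Fin (d - 1)) ⊕ Fin 2) = 2 * d := by
    rw [Fintype.card_sum, Fintype.card_sum, Fintype.card_fin, Fintype.card_fin]
    omega
  have hδ := typeDefect_minus hminus
  have hmd' : m < d := by omega
  obtain ⟨hrp, j, hj, hH⟩ := ts_count _ hQ d 1 hcard hδ p q hq m hm hmd' r hrΩ
  have hrpr : r.Prime := Fact.out
  have hLHS : (∀ x : GL ((Fin (d - 1) ⊕ Fin (d - 1)) ⊕ Fin 2) F, x ∈ Cfsg.Geo.omegaGL (Cfsg.quadFormMinus (d - 1) F a b) →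
      (∃ z : F, ((x ^ r : GL ((Fin (d - 1) ⊕ Fin (d - 1)) ⊕ Fin 2) F) : Matrix ((Fin (d - 1) ⊕ Fin (d - 1)) ⊕ Fin 2) ((Fin (d - 1) ⊕ Fin (d - 1)) ⊕ Fin 2) F) = z • (1 : Matrix ((Fin (d - 1) ⊕ Fin (d - 1)) ⊕ Fin 2) ((Fin (d - 1) ⊕ Fin (d - 1)) ⊕ Fin 2) F)) →
      (∀ z : F, (x : Matrix ((Fin (d - 1) ⊕ Fin (d - 1)) ⊕ Fin 2) ((Fin (d - 1) ⊕ Fin (d - 1)) ⊕ Fin 2) F) ≠ z • (1 : Matrix ((Fin (d - 1) ⊕ Fin (d - 1)) ⊕ Fin 2) ((Fin (d - 1) ⊕ Fin (d - 1)) ⊕ Fin 2) F)) →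
      ∃ W : Submodule F ((Fin (d - 1) ⊕ Fin (d - 1)) ⊕ Fin 2 → F), (Module.finrank F ↥W = m ∧ Cfsg.Geo.IsTotallySingularQuad (Cfsg.quadFormMinus (d - 1) F a b) W) ∧ W.map (Matrix.toLin' (x : Matrix ((Fin (d - 1) ⊕ Fin (d - 1)) ⊕ Fin 2) ((Fin (d - 1) ⊕ Fin (d - 1)) ⊕ Fin 2) F)) ≤ W) ↔
    (∀ x : GL ((Fin (d - 1) ⊕ Fin (d - 1)) ⊕ Fin 2) F, x ∈ Cfsg.Geo.omegaGL (Cfsg.quadFormMinus (d - 1) F a b) →
      (∃ z : F, ((x ^ r : GL ((Fin (d - 1) ⊕ Fin (d - 1)) ⊕ Fin 2) F) : Matrix ((Fin (d - 1) ⊕ Fin (d - 1)) ⊕ Fin 2) ((Fin (d - 1) ⊕ Fin (d - 1)) ⊕ Fin 2) F) = z • (1 : Matrix ((Fin (d - 1) ⊕ Fin (d - 1)) ⊕ Fin 2) ((Fin (d - 1) ⊕ Fin (d - 1)) ⊕ Fin 2) F)) →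
      (∀ z : F, (x : Matrix ((Fin (d - 1) ⊕ Fin (d - 1)) ⊕ Fin 2) ((Fin (d - 1) ⊕ Fin (d - 1)) ⊕ Fin 2) F) ≠ z • (1 : Matrix ((Fin (d - 1) ⊕ Fin (d - 1)) ⊕ Fin 2) ((Fin (d - 1) ⊕ Fin (d - 1)) ⊕ Fin 2) F)) →
      InvTS (Cfsg.quadFormMinus (d - 1) F a b) (x : Matrix ((Fin (d - 1) ⊕ Fin (d - 1)) ⊕ Fin 2) ((Fin (d - 1) ⊕ Fin (d - 1)) ⊕ Fin 2) F) m) := by
    refine forall_congr' fun x => imp_congr_right fun _ => imp_congr_right fun _ =>
      imp_congr_right fun _ => ?_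
    constructor
    · rintro ⟨W, ⟨h1, h2⟩, h3⟩
      exact ⟨W, h1, h2, h3⟩
    · rintro ⟨W, h1, h2, h3⟩
      exact ⟨W, ⟨h1, h2⟩, h3⟩
  rw [hLHS]
  by_cases h2 : r = 2
  · subst h2
    have hp2 : p ≠ 2 := fun h => hrp h.symm
    have hqodd := odd_card58 (F := F) p q hq hp2
    constructor
    · intro h
      left
      refine ⟨rfl, hp2, ?_⟩
      by_contra hcon
      push Not at hcon
      obtain ⟨hdo, hmo, h7⟩ := hcon
      obtain ⟨x, hxΩ, hx2, hns, hall⟩ :=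
        ts_two_bad_minus _ hQ d hd hcard hminus q hq h7 (Nat.not_even_iff_odd.mp hdo)
      exact hmo (hall m (h x hxΩ ⟨-1, hx2⟩ hns))
    · rintro (⟨-, -, hcrit⟩ | ⟨-, h, -⟩ | ⟨-, h, -⟩)
      · rintro x hxΩ ⟨z, hz⟩ hns
        exact ts_two_good_minus _ hQ d hd hcard hminus q hq hqodd x hxΩ z hz hns m hmd hcrit
      · omega
      · omega
  · have hr2 : 2 < r := lt_of_le_of_ne hrpr.two_le (Ne.symm h2)
    have hrq := not_dvd_card58 (F := F) p q hq r hrp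
    obtain ⟨hi0, hir, hord1, hord2⟩ := ts_ord r q hr2 hrq i hi
    rcases Nat.even_or_odd i with heven | hodd
    · have hmodel := ts_model_even _ hQ d 1 hd hcard hδ p q hq m hmd' r hr2 hrp i hi heven
      have hHi : ∃ j, j < m ∧ ((d - j) % i = i / 2 ∨ i ∣ d - j - 1) := by
        refine ⟨j, hj, ?_⟩
        rcases hH with ⟨h, -⟩ | ⟨-, h | h⟩
        · omega
        · exact Or.inl ((hord2 _).mp h).2
        · exact Or.inr ((hord1 _).mp h)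
      have ht : 1 ≤ (r - 1) / i := Nat.div_pos (Nat.le_of_dvd (by omega) hir) hi0
      have harith := ts_arith_even_minus i ((r - 1) / i) d m heven hi0 ht hm hmd' hHi
      rw [if_pos heven] at hc
      subst hc
      rw [hmodel, harith]
      constructor
      · intro hcrit
        exact Or.inr (Or.inr ⟨hrp, hr2, heven, hcrit⟩)
      · rintro (⟨h, -⟩ | ⟨-, -, ho, -⟩ | ⟨-, -, -, hcrit⟩)
        · exact absurd h h2
        · exact absurd heven (Nat.not_even_iff_odd.mpr ho)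
        · exact hcrit
    · have hmodel := ts_model_odd _ hQ d 1 hd hcard hδ p q hq m hmd' r hr2 hrp i hi hodd
      have hHi : ∃ j, j < m ∧ i ∣ d - j - 1 := by
        refine ⟨j, hj, ?_⟩
        rcases hH with ⟨h, -⟩ | ⟨-, h | h⟩
        · omega
        · exact absurd ((hord2 _).mp h).1 (Nat.not_even_iff_odd.mpr hodd)
        · exact (hord1 _).mp h
      have harith := ts_arith_odd_minus i d m hodd hm hmd' hHi
      rw [if_neg (Nat.not_even_iff_odd.mpr hodd)] at hc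
      subst hc
      rw [hmodel, harith]
      constructor
      · intro hcrit
        exact Or.inr (Or.inl ⟨hrp, hr2, hodd, hcrit⟩)
      · rintro (⟨h, -⟩ | ⟨-, -, -, hcrit⟩ | ⟨-, -, he, -⟩)
        · exact absurd h h2
        · exact hcrit
        · exact absurd he (Nat.not_even_iff_odd.mpr hodd)

end minus

end Cfsg.Agent.Helper58.TS
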