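import Cfsg.Agent.Helper58.TT3Type
import Cfsg.Prelude.Def_Solvable

set_option autoImplicit false

/-!
# Components of the first kind (helper58)

When the components are of the first kind, the products `p q` of two commuting neighbours of a
member of `D` commute pairwise and generate a normal elementary abelian 3-subgroup `N`.  If the
largest normal 3-subgroup of every centraliser `C(x)`, `x ∈ D`, has order three, then the
component of `d` is all of `D`.
-/

namespace Cfsg.Agent.Helper58.TT3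

variable {G : Type*} [Group G]

/-- Products of two commuting neighbours of a member of `D`. -/
def Pi (D : Set G) : Set G := {g | ∃ y ∈ D, ∃ p ∈ Dn D y, ∃ q ∈ Dn D y, g = p * q}

namespace Loc

variable {D : Set G} (h : Loc D)

include h

theorem qpqp {p q : G} (hp : p ∈ D) (hq : q ∈ D) (h3 : (p * q) ^ 3 = 1) :
    q * p * (q * p) = p * q := by
  have e0 : q * p = (p * q)⁻¹ := by rw [mul_inv_rev, h.inv_eq hq, h.inv_eq hp]
  have h3' : (p * q) * (p * q) * (p * q) = 1 := by rw [← h3]; simp [pow_succ]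
  rw [e0]
  calc (p * q)⁻¹ * (p * q)⁻¹ = (p * q)⁻¹ * (p * q)⁻¹ * ((p * q) * (p * q) * (p * q)) := by
        rw [h3', mul_one]
    _ = p * q := by group

/-- Products of pairs of commuting neighbours in different components commute. -/
theorem comm_diff [Finite G] (hW : ∀ y ∈ D, TypeI D y) {d e p q p' q' : G} (hd : d ∈ D)
    (he : e ∈ D) (hne : e ∉ B D d) (hp : p ∈ Dn D d) (hq : q ∈ Dn D d) (hp' : p' ∈ Dn D e)
    (hq' : q' ∈ Dn D e) : Commute (p * q) (p' * q') := by
  by_cases hpq : p = q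
  · rw [hpq, h.inv q hq.1]; exact Commute.one_left _
  by_cases hpq' : p' = q'
  · rw [hpq', h.inv q' hq'.1]; exact Commute.one_right _
  obtain ⟨hi, hii, -⟩ := h.typeI_struct hd (hW d hd) hp
  obtain ⟨s, hs, hsd⟩ := h.exists_ne (y := d) hp.1
  have hdp : d ∈ Dn D p := Dn_symm hd hp
  have hdq : d ∈ Dn D q := Dn_symm hd hq
  have hsq : s ∈ Dn D q := by rw [hi q hq]; exact hs
  have hpB : p ∈ B D d := Dn_sub_B hd hp
  have hqB : q ∈ B D d := Dn_sub_B hd hq
  have hsB : s ∈ B D d := h.B_closed hd hpB hs.1 hs.2.2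
  have hρ3 : (p * q) ^ 3 = 1 := h.pow3 hp.1 hq.1 (h.nc d hd p hp q hq hpq)
  have hσ3 : (d * s) ^ 3 = 1 := h.pow3 hd hs.1 (h.nc p hp.1 d hdp s hs (Ne.symm hsd))
  have hρσ : Commute (p * q) (d * s) :=
    (hdp.2.2.mul_right hs.2.2).mul_left (hdq.2.2.mul_right hsq.2.2)
  have hp'B : p' ∈ B D e := Dn_sub_B he hp'
  have hp'n : p' ∉ B D d := h.not_mem_of_mem hd he hne hp'B
  have hnρ : ∀ x ∈ B D p', p * q * x * (p * q)⁻¹ ∈ B D p' := fun x hx =>
    h.norm hd hpB hqB hp'.1 hp'n hx
  have hnσ : ∀ x ∈ B D p', d * s * x * (d * s)⁻¹ ∈ B D p' := fun x hx =>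
    h.norm hd (mem_B_self hd) hsB hp'.1 hp'n hx
  have hcard : (B D p').ncard < 9 :=
    lt_of_le_of_lt (h.B_ncard_le hp'.1 (hW _ hp'.1)) (by norm_num)
  have hpig := pigeon9 hcard hρ3 hσ3 hρσ hnρ hnσ (mem_B_self hp'.1)
  have hnc : ∀ t ∈ B D d, ¬ Commute t p' := fun t ht =>
    h.not_comm_of_not_mem hd ht hp'.1 hp'n
  have hnρ' : ¬ Commute (p * q) p' :=
    h.not_comm_mul hp.1 hq.1 hp'.1 (hnc p hpB) (hnc q hqB) hpq
  have hnσ' : ¬ Commute (d * s) p' :=
    h.not_comm_mul hd hs.1 hp'.1 (hnc d (mem_B_self hd)) (hnc s hsB) (Ne.symm hsd)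
  have main : ∀ τ : G, (τ = d * s ∨ τ = (d * s)⁻¹) → Commute (p * q * τ) p' →
      Commute (p * q) (p' * q') := by
    intro τ hτ hζ
    have hτρ : Commute (p * q) τ := by
      rcases hτ with e1 | e1 <;> rw [e1]
      · exact hρσ
      · exact hρσ.inv_right
    have hτ3 : τ ^ 3 = 1 := by
      rcases hτ with e1 | e1 <;> rw [e1]
      · exact hσ3
      · rw [inv_pow, hσ3, inv_one]
    have hσp : Commute (d * s) p := hdp.2.2.symm.mul_left hs.2.2.symm
    have hτp : Commute τ p := by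
      rcases hτ with e1 | e1 <;> rw [e1]
      · exact hσp
      · exact hσp.inv_left
    have hζ3 : (p * q * τ) ^ 3 = 1 := by rw [hτρ.mul_pow, hρ3, hτ3, one_mul]
    obtain ⟨ζ, hζdef⟩ : ∃ ζ, ζ = p * q * τ := ⟨_, rfl⟩
    rw [← hζdef] at hζ hζ3
    have hfix : ζ * p' * ζ⁻¹ = p' := by rw [hζ.eq]; group
    have hζq' : Commute ζ q' := by
      have h1 : ζ * e * ζ⁻¹ ∈ Dn D p' := by
        have := h.Dn_conj ζ (Dn_symm he hp')
        rwa [hfix] at this
      obtain ⟨-, hii', -⟩ := h.typeI_struct he (hW e he) hp'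
      have h2 : ζ * q' * ζ⁻¹ ∈ Dn D e := by
        have := h.Dn_conj ζ hq'
        rwa [hii' _ h1] at this
      rcases h.three e he p' hp' q' hq' hpq' _ h2 with e1 | e1 | e1
      · exfalso
        apply hpq'
        have e2 : q' = ζ⁻¹ * (ζ * q' * ζ⁻¹) * ζ := by group
        have e3 : ζ⁻¹ * p' * ζ = p' := by
          rw [mul_assoc, ← hζ.eq, ← mul_assoc, inv_mul_cancel, one_mul]
        rw [e2, e1, e3]
      · show ζ * q' = q' * ζ
        calc ζ * q' = (ζ * q' * ζ⁻¹) * ζ := by group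
          _ = q' * ζ := by rw [e1]
      · have e2 : ζ * (p' * q' * p') * ζ⁻¹ = q' := by
          calc ζ * (p' * q' * p') * ζ⁻¹
              = (ζ * p' * ζ⁻¹) * (ζ * q' * ζ⁻¹) * (ζ * p' * ζ⁻¹) := by group
            _ = p' * (p' * q' * p') * p' := by rw [hfix, e1]
            _ = q' := h.cc hp'.1 _
        have e3 : ζ * ζ * q' * (ζ * ζ)⁻¹ = q' := by
          calc ζ * ζ * q' * (ζ * ζ)⁻¹ = ζ * (ζ * q' * ζ⁻¹) * ζ⁻¹ := by group
            _ = q' := by rw [e1, e2]
        have e4 : ζ * ζ = ζ⁻¹ := by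
          apply eq_inv_of_mul_eq_one_left
          rw [← hζ3]; simp [pow_succ]
        rw [e4, inv_inv] at e3
        show ζ * q' = q' * ζ
        calc ζ * q' = ζ * (ζ⁻¹ * q' * ζ) := by rw [e3]
          _ = q' * ζ := by group
    have hζpq' : Commute ζ (p' * q') := hζ.mul_right hζq'
    have hpBd : B D p = B D d := h.B_eq hd hpB
    have hy1 : p' * (p * e * p) * p' ∈ B D d := by
      have := h.F1 hp.1 hp'.1 (by rw [hpBd]; exact hp'n) (B_symm he hp'B)
      rwa [hpBd] at this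
    have hP1 : p' * (p * p' * p) * p' ∈ Dn D (p' * (p * e * p) * p') :=
      h.Dn_cm hp'.1 (h.Dn_cm hp.1 hp')
    have hQ1 : p' * (p * q' * p) * p' ∈ Dn D (p' * (p * e * p) * p') :=
      h.Dn_cm hp'.1 (h.Dn_cm hp.1 hq')
    have c1 : Commute (p * q) (p' * (p * p' * p) * p' * (p' * (p * q' * p) * p')) :=
      h.comm_same hW hd hy1 hp hq hP1 hQ1
    have c2 : Commute (d * s) (p' * (p * p' * p) * p' * (p' * (p * q' * p) * p')) :=
      h.comm_same hW hp.1 (by rw [hpBd]; exact hy1) hdp hs hP1 hQ1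
    have c3 : Commute τ (p' * (p * p' * p) * p' * (p' * (p * q' * p) * p')) := by
      rcases hτ with e1 | e1 <;> rw [e1]
      · exact c2
      · exact c2.inv_left
    have c4 : Commute ζ (p' * (p * p' * p) * p' * (p' * (p * q' * p) * p')) := by
      rw [hζdef]; exact c1.mul_left c3
    have eprod : p' * (p * p' * p) * p' * (p' * (p * q' * p) * p') =
        p' * (p * (p' * q') * p) * p' := by
      calc p' * (p * p' * p) * p' * (p' * (p * q' * p) * p')
          = p' * p * p' * p * (p' * p') * p * q' * p * p' := by group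
        _ = p' * p * p' * (p * p) * q' * p * p' := by rw [h.inv p' hp'.1]; group
        _ = p' * (p * (p' * q') * p) * p' := by rw [h.inv p hp.1]; group
    rw [eprod] at c4
    have c5 : Commute ζ (p * (p' * q') * p) := by
      have := (hζ.mul_right c4).mul_right hζ
      have e1 : p' * (p' * (p * (p' * q') * p) * p') * p' = p * (p' * q') * p :=
        h.cc hp'.1 _
      rwa [e1] at this
    have c6 : Commute (p * ζ * p) (p' * q') := by
      have := h.comm_cm hp.1 c5
      have e1 : p * (p * (p' * q') * p) * p = p' * q' := h.cc hp.1 _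
      rwa [e1] at this
    have c7 : Commute (p * ζ * p * ζ⁻¹) (p' * q') := c6.mul_left hζpq'.inv_left
    have efin : p * ζ * p * ζ⁻¹ = p * q := by
      rw [hζdef]
      calc p * (p * q * τ) * p * (p * q * τ)⁻¹
          = (p * p) * q * (τ * p) * (τ⁻¹ * q⁻¹ * p⁻¹) := by group
        _ = q * (p * τ) * (τ⁻¹ * q * p) := by
            rw [h.inv p hp.1, hτp.eq, h.inv_eq hq.1, h.inv_eq hp.1, one_mul]
        _ = q * p * (q * p) := by group
        _ = p * q := h.qpqp hp.1 hq.1 hρ3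
    rwa [efin] at c7
  rcases hpig with h1 | h1 | h1 | h1
  · exact absurd h1 hnρ'
  · exact absurd h1 hnσ'
  · exact main _ (Or.inl rfl) h1
  · exact main _ (Or.inr rfl) h1

theorem comm_all [Finite G] (hW : ∀ y ∈ D, TypeI D y) {u v : G} (hu : u ∈ Pi D)
    (hv : v ∈ Pi D) : Commute u v := by
  obtain ⟨y, hy, p, hp, q, hq, rfl⟩ := hu
  obtain ⟨y', hy', p', hp', q', hq', rfl⟩ := hv
  by_cases hB : y' ∈ B D y
  · exact h.comm_same hW hy hB hp hq hp' hq'
  · exact h.comm_diff hW hy hy' hB hp hq hp' hq'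

theorem Pi_conj (g : G) {u : G} (hu : u ∈ Pi D) : g * u * g⁻¹ ∈ Pi D := by
  obtain ⟨y, hy, p, hp, q, hq, rfl⟩ := hu
  exact ⟨g * y * g⁻¹, h.conj g y hy, _, h.Dn_conj g hp, _, h.Dn_conj g hq, by group⟩

theorem Pi_pow3 {u : G} (hu : u ∈ Pi D) : u ^ 3 = 1 := by
  obtain ⟨y, hy, p, hp, q, hq, rfl⟩ := hu
  by_cases hpq : p = q
  · rw [hpq, h.inv q hq.1, one_pow]
  · exact h.pow3 hp.1 hq.1 (h.nc y hy p hp q hq hpq)

theorem N_comm [Finite G] (hW : ∀ y ∈ D, TypeI D y) :
    ∀ u ∈ Subgroup.closure (Pi D), ∀ v ∈ Subgroup.closure (Pi D), Commute u v := by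
  have h1 : Subgroup.closure (Pi D) ≤ Subgroup.centralizer (Pi D) := by
    rw [Subgroup.closure_le]
    intro u hu
    rw [SetLike.mem_coe, Subgroup.mem_centralizer_iff]
    intro v hv
    exact (h.comm_all hW hv hu).eq
  have h2 : Subgroup.closure (Pi D) ≤
      Subgroup.centralizer (Subgroup.closure (Pi D) : Set G) := by
    rw [Subgroup.closure_le]
    intro u hu
    rw [SetLike.mem_coe, Subgroup.mem_centralizer_iff]
    intro v hv
    have := h1 hv
    rw [Subgroup.mem_centralizer_iff] at this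
    exact (this u hu).symm
  intro u hu v hv
  have := h2 hv
  rw [Subgroup.mem_centralizer_iff] at this
  exact this u hu

theorem N_pow3 [Finite G] (hW : ∀ y ∈ D, TypeI D y) :
    ∀ u ∈ Subgroup.closure (Pi D), u ^ 3 = 1 := by
  intro u hu
  induction hu using Subgroup.closure_induction with
  | mem x hx => exact h.Pi_pow3 hx
  | one => exact one_pow _
  | mul x y hx hy ihx ihy => rw [(h.N_comm hW x hx y hy).mul_pow, ihx, ihy, one_mul]
  | inv x hx ih => rw [inv_pow, ih, inv_one]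

theorem N_normal : (Subgroup.closure (Pi D)).Normal := by
  constructor
  intro n hn g
  induction hn using Subgroup.closure_induction with
  | mem x hx => exact Subgroup.subset_closure (h.Pi_conj g hx)
  | one => simp
  | mul x y _ _ ihx ihy =>
    have : g * (x * y) * g⁻¹ = (g * x * g⁻¹) * (g * y * g⁻¹) := by group
    rw [this]; exact mul_mem ihx ihy
  | inv x _ ih =>
    have : g * x⁻¹ * g⁻¹ = (g * x * g⁻¹)⁻¹ := by group
    rw [this]; exact inv_mem ih

/-- The members of `N` centralising `x ∈ D` are `1, p q, (p q)⁻¹`. -/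
theorem O3 [Finite G] (hW : ∀ y ∈ D, TypeI D y)
    (hO : ∀ x ∈ D, Nat.card (Cfsg.pCore 3 ↥(Subgroup.centralizer ({x} : Set G))) = 3)
    {x p q g : G} (hx : x ∈ D) (hp : p ∈ Dn D x) (hq : q ∈ Dn D x) (hpq : p ≠ q)
    (hg : g ∈ Subgroup.closure (Pi D)) (hgx : Commute g x) :
    g = 1 ∨ g = p * q ∨ g = (p * q)⁻¹ := by
  classical
  haveI : (Subgroup.closure (Pi D)).Normal := h.N_normal
  have hK3 : IsPGroup 3 ((Subgroup.closure (Pi D)).subgroupOf
      (Subgroup.centralizer ({x} : Set G))) := by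
    intro k
    refine ⟨1, ?_⟩
    apply Subtype.ext
    apply Subtype.ext
    rw [pow_one]
    have hk : (k.1.1 : G) ∈ Subgroup.closure (Pi D) := Subgroup.mem_subgroupOf.1 k.2
    simpa using h.N_pow3 hW _ hk
  have hle : (Subgroup.closure (Pi D)).subgroupOf (Subgroup.centralizer ({x} : Set G)) ≤
      Cfsg.pCore 3 ↥(Subgroup.centralizer ({x} : Set G)) := le_sSup ⟨inferInstance, hK3⟩
  have hmemC : ∀ z : G, Commute z x → z ∈ Subgroup.centralizer ({x} : Set G) := by
    intro z hz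
    rw [Subgroup.mem_centralizer_iff]
    intro w hw
    rw [Set.mem_singleton_iff] at hw
    rw [hw]; exact hz.eq.symm
  have hu : Commute (p * q) x := hp.2.2.symm.mul_left hq.2.2.symm
  have huN : p * q ∈ Subgroup.closure (Pi D) :=
    Subgroup.subset_closure ⟨x, hx, p, hp, q, hq, rfl⟩
  obtain ⟨u', hu'def⟩ : ∃ u' : ↥(Subgroup.centralizer ({x} : Set G)), u' = ⟨p * q, hmemC _ hu⟩ :=
    ⟨_, rfl⟩
  obtain ⟨g', hg'def⟩ : ∃ g' : ↥(Subgroup.centralizer ({x} : Set G)), g' = ⟨g, hmemC _ hgx⟩ :=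
    ⟨_, rfl⟩
  have hu'v : (u' : G) = p * q := by rw [hu'def]
  have hg'v : (g' : G) = g := by rw [hg'def]
  have hu' : u' ∈ Cfsg.pCore 3 ↥(Subgroup.centralizer ({x} : Set G)) :=
    hle (Subgroup.mem_subgroupOf.2 (by rw [hu'v]; exact huN))
  have hg' : g' ∈ Cfsg.pCore 3 ↥(Subgroup.centralizer ({x} : Set G)) :=
    hle (Subgroup.mem_subgroupOf.2 (by rw [hg'v]; exact hg))
  have hρ3 : (p * q) ^ 3 = 1 := h.pow3 hp.1 hq.1 (h.nc x hx p hp q hq hpq)
  have hu1 : p * q ≠ 1 := by
    intro e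
    apply hpq
    have := eq_inv_of_mul_eq_one_left e
    rw [this, h.inv_eq hq.1]
  have hne1 : (1 : ↥(Subgroup.centralizer ({x} : Set G))) ≠ u' := by
    intro e
    apply hu1
    rw [← hu'v, ← e]; rfl
  have hne2 : (1 : ↥(Subgroup.centralizer ({x} : Set G))) ≠ u'⁻¹ := by
    intro e
    apply hne1
    rw [← inv_inj, inv_one]; exact e
  have hne3 : u' ≠ u'⁻¹ := by
    intro e
    have e' : p * q = (p * q)⁻¹ := by
      have := congrArg Subtype.val e
      rw [Subgroup.coe_inv, hu'v] at this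
      exact this
    apply hu1
    have h2 : (p * q) * (p * q) = 1 := by
      nth_rewrite 2 [e']
      exact mul_inv_cancel _
    have h3 : (p * q) ^ 3 = (p * q) * (p * q) * (p * q) := by simp [pow_succ]
    rw [h3, h2, one_mul] at hρ3
    exact hρ3
  have hS : ({1, u', u'⁻¹} : Set ↥(Subgroup.centralizer ({x} : Set G))) =
      ↑(Cfsg.pCore 3 ↥(Subgroup.centralizer ({x} : Set G))) := by
    refine Set.eq_of_subset_of_ncard_le ?_ ?_ (Set.toFinite _)
    · intro z hz
      rcases hz with rfl | rfl | rfl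
      · exact one_mem _
      · exact hu'
      · exact inv_mem hu'
    · rw [Set.ncard_eq_three.2 ⟨1, u', u'⁻¹, hne1, hne2, hne3, rfl⟩]
      have := hO x hx
      rw [← Nat.card_coe_set_eq]
      exact le_of_eq this
  have hmem : g' ∈ ({1, u', u'⁻¹} : Set ↥(Subgroup.centralizer ({x} : Set G))) := by
    rw [hS]; exact hg'
  rcases hmem with e | e | e
  · left
    rw [← hg'v, e]; rfl
  · right; left
    rw [← hg'v, e, hu'v]
  · right; right
    rw [← hg'v, e, Subgroup.coe_inv, hu'v]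

/-- In a component of the first kind, under the hypothesis on `O₃(C(x))`, there is nothing
outside the component. -/
theorem caseI_all [Finite G]
    (hO : ∀ x ∈ D, Nat.card (Cfsg.pCore 3 ↥(Subgroup.centralizer ({x} : Set G))) = 3)
    {d : G} (hd : d ∈ D) (hI : TypeI D d) : ∀ e ∈ D, e ∈ B D d := by
  intro e he
  by_contra hne
  have hW := h.typeI_all hd hI
  obtain ⟨p, hp, q, hq, hpqc⟩ := h.two d hd
  have hpq : p ≠ q := by rintro rfl; exact hpqc (Commute.refl _)
  obtain ⟨hi, hii, -⟩ := h.typeI_struct hd hI hp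
  obtain ⟨s, hs, hsd⟩ := h.exists_ne (y := d) hp.1
  have hdp : d ∈ Dn D p := Dn_symm hd hp
  have hdq : d ∈ Dn D q := Dn_symm hd hq
  have hsq : s ∈ Dn D q := by rw [hi q hq]; exact hs
  have hpB : p ∈ B D d := Dn_sub_B hd hp
  have hqB : q ∈ B D d := Dn_sub_B hd hq
  have hsB : s ∈ B D d := h.B_closed hd hpB hs.1 hs.2.2
  have hρ3 : (p * q) ^ 3 = 1 := h.pow3 hp.1 hq.1 (h.nc d hd p hp q hq hpq)
  have hσ3 : (d * s) ^ 3 = 1 := h.pow3 hd hs.1 (h.nc p hp.1 d hdp s hs (Ne.symm hsd))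
  have hρσ : Commute (p * q) (d * s) :=
    (hdp.2.2.mul_right hs.2.2).mul_left (hdq.2.2.mul_right hsq.2.2)
  obtain ⟨h', hh', -⟩ := h.two e he
  obtain ⟨e', he', hee'⟩ := h.exists_ne (y := e) hh'.1
  have heh : e ∈ Dn D h' := Dn_symm he hh'
  have hh'B : h' ∈ B D e := Dn_sub_B he hh'
  have hnρ : ∀ x ∈ B D e, p * q * x * (p * q)⁻¹ ∈ B D e := fun x hx =>
    h.norm hd hpB hqB he hne hx
  have hnσ : ∀ x ∈ B D e, d * s * x * (d * s)⁻¹ ∈ B D e := fun x hx =>
    h.norm hd (mem_B_self hd) hsB he hne hx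
  have hcard : (B D e).ncard < 9 :=
    lt_of_le_of_lt (h.B_ncard_le he (hW e he)) (by norm_num)
  have pig1 := pigeon9 hcard hρ3 hσ3 hρσ hnρ hnσ hh'B
  have pig2 := pigeon9 hcard hρ3 hσ3 hρσ hnρ hnσ (mem_B_self he)
  have hnc : ∀ z ∈ B D e, ∀ t ∈ B D d, ¬ Commute t z := fun z hz t ht =>
    h.not_comm_of_not_mem hd ht hz.1 (h.not_mem_of_mem hd he hne hz)
  have hnρz : ∀ z ∈ B D e, ¬ Commute (p * q) z := fun z hz =>
    h.not_comm_mul hp.1 hq.1 hz.1 (hnc z hz p hpB) (hnc z hz q hqB) hpq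
  have hnσz : ∀ z ∈ B D e, ¬ Commute (d * s) z := fun z hz =>
    h.not_comm_mul hd hs.1 hz.1 (hnc z hz d (mem_B_self hd)) (hnc z hz s hsB) (Ne.symm hsd)
  have main : ∀ τ1 τ2 : G, (τ1 = d * s ∨ τ1 = (d * s)⁻¹) → (τ2 = τ1 ∨ τ2 = τ1⁻¹) →
      Commute (p * q * τ1) h' → Commute (p * q * τ2) e → False := by
    intro τ1 τ2 hτ1 hτ2 hc1 hc2
    have hτρ : Commute (p * q) τ1 := by
      rcases hτ1 with e1 | e1 <;> rw [e1]
      · exact hρσ
      · exact hρσ.inv_right
    have hτ3 : τ1 ^ 3 = 1 := by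
      rcases hτ1 with e1 | e1 <;> rw [e1]
      · exact hσ3
      · rw [inv_pow, hσ3, inv_one]
    have hσp : Commute (d * s) p := hdp.2.2.symm.mul_left hs.2.2.symm
    have hτp : Commute τ1 p := by
      rcases hτ1 with e1 | e1 <;> rw [e1]
      · exact hσp
      · exact hσp.inv_left
    have hρN : p * q ∈ Subgroup.closure (Pi D) :=
      Subgroup.subset_closure ⟨d, hd, p, hp, q, hq, rfl⟩
    have hσN : d * s ∈ Subgroup.closure (Pi D) :=
      Subgroup.subset_closure ⟨p, hp.1, d, hdp, s, hs, rfl⟩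
    have hτN : τ1 ∈ Subgroup.closure (Pi D) := by
      rcases hτ1 with e1 | e1 <;> rw [e1]
      · exact hσN
      · exact inv_mem hσN
    have hζN : p * q * τ1 ∈ Subgroup.closure (Pi D) := mul_mem hρN hτN
    have ho := h.O3 hW hO hh'.1 heh he' (Ne.symm hee') hζN hc1
    have hA : e * (p * q * τ1) * e = (p * q * τ1)⁻¹ := by
      rcases ho with e1 | e1 | e1 <;> rw [e1]
      · rw [mul_one, h.inv e he, inv_one]
      · rw [mul_inv_rev, h.inv_eq he, h.inv_eq he'.1, h.cl he]
      · rw [inv_inv, mul_inv_rev, h.inv_eq he, h.inv_eq he'.1, ← mul_assoc e e' e, h.cr he]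
    have hB : e * (p * q * τ2) * e = p * q * τ2 := by rw [← hc2.eq, h.cr he]
    rcases hτ2 with e2 | e2
    · rw [e2] at hB
      rw [hA] at hB
      have hζ3 : (p * q * τ1) ^ 3 = 1 := by rw [hτρ.mul_pow, hρ3, hτ3, one_mul]
      have hζ1 : p * q * τ1 = 1 := by
        have h2 : (p * q * τ1) * (p * q * τ1) = 1 := by
          nth_rewrite 1 [← hB]
          exact inv_mul_cancel _
        have h3 : (p * q * τ1) ^ 3 = (p * q * τ1) * (p * q * τ1) * (p * q * τ1) := by
          simp [pow_succ]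
        rw [h3, h2, one_mul] at hζ3
        exact hζ3
      have hρτ : p * q = τ1⁻¹ := eq_inv_of_mul_eq_one_left hζ1
      apply h.rho_not_comm hd hp hq hpq hp
      rw [hρτ]; exact hτp.inv_left
    · rw [e2] at hB
      have hprod : (p * q * τ1) * (p * q * τ1⁻¹) = (p * q) * (p * q) := by
        have := hτρ.eq
        calc p * q * τ1 * (p * q * τ1⁻¹) = p * q * (τ1 * (p * q)) * τ1⁻¹ := by group
          _ = p * q * (p * q * τ1) * τ1⁻¹ := by rw [← this]
          _ = p * q * (p * q) := by group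
      have hconj : e * ((p * q) * (p * q)) * e = τ1⁻¹ * τ1⁻¹ := by
        rw [← hprod]
        calc e * (p * q * τ1 * (p * q * τ1⁻¹)) * e
            = (e * (p * q * τ1) * e) * (e * (p * q * τ1⁻¹) * e) := by
              have e3 : e * (p * q * τ1) * e * (e * (p * q * τ1⁻¹) * e) =
                  e * (p * q * τ1) * (e * e) * (p * q * τ1⁻¹) * e := by group
              rw [e3, h.inv e he]; group
          _ = (p * q * τ1)⁻¹ * (p * q * τ1⁻¹) := by rw [hA, hB]
          _ = τ1⁻¹ * τ1⁻¹ := by group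
      have hc3 : Commute (e * ((p * q) * (p * q)) * e) p := by
        rw [hconj]; exact hτp.inv_left.mul_left hτp.inv_left
      have hc4 : Commute ((p * q) * (p * q)) (e * p * e) := by
        have := h.comm_cm he hc3
        have e3 : e * (e * ((p * q) * (p * q)) * e) * e = (p * q) * (p * q) := h.cc he _
        rwa [e3] at this
      have hnpe : ¬ Commute e p := fun hc => hnc e (mem_B_self he) p hpB hc.symm
      rw [h.braid he hp.1 hnpe] at hc4
      have hc5 : Commute (p * ((p * q) * (p * q)) * p) e := by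
        have := h.comm_cm hp.1 hc4
        have e3 : p * (p * e * p) * p = e := h.cc hp.1 _
        rwa [e3] at this
      have e4 : p * ((p * q) * (p * q)) * p = p * q := by
        calc p * (p * q * (p * q)) * p = (p * p) * q * p * q * p := by group
          _ = q * p * (q * p) := by rw [h.inv p hp.1]; group
          _ = p * q := h.qpqp hp.1 hq.1 hρ3
      rw [e4] at hc5
      exact hnρz e (mem_B_self he) hc5
  rcases pig1 with h1 | h1 | h1 | h1
  · exact hnρz h' hh'B h1
  · exact hnσz h' hh'B h1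
  · rcases pig2 with h2 | h2 | h2 | h2
    · exact hnρz e (mem_B_self he) h2
    · exact hnσz e (mem_B_self he) h2
    · exact main _ _ (Or.inl rfl) (Or.inl rfl) h1 h2
    · exact main _ _ (Or.inl rfl) (Or.inr rfl) h1 h2
  · rcases pig2 with h2 | h2 | h2 | h2
    · exact hnρz e (mem_B_self he) h2
    · exact hnσz e (mem_B_self he) h2
    · exact main _ _ (Or.inr rfl) (Or.inr (inv_inv _).symm) h1 h2
    · exact main _ _ (Or.inr rfl) (Or.inl rfl) h1 h2

end Loc

end Cfsg.Agent.Helper58.TT3
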