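import Cfsg.Agent.Helper58.TT3Core
import Cfsg.Agent.Helper58.PresS5

set_option autoImplicit false

/-!
# Identification of the group generated by `D` (helper58)

The local hypotheses from the isomorphisms `⟨D_d⟩ ≅ S₃`, and the two isomorphisms
`⟨D⟩ ≅ S₅` (components of the second kind) and `⟨D⟩ ≅ S₃ × S₃` (first kind).
-/

namespace Cfsg.Agent.Helper58.TT3

variable {G : Type*} [Group G]

open Equiv

theorem s3_nc : ∀ x y : Perm (Fin 3), x * x = 1 → y * y = 1 → x ≠ 1 → y ≠ 1 → x ≠ y →
    x * y ≠ y * x := by decide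

set_option maxRecDepth 100000 in
theorem s3_three' : ∀ x y z : Perm (Fin 3), (x * x = 1 ∧ y * y = 1 ∧ z * z = 1 ∧ x ≠ 1 ∧
    y ≠ 1 ∧ z ≠ 1 ∧ x ≠ y) → (z = x ∨ z = y ∨ z = x * y * x) := by decide

theorem s3_three (x y z : Perm (Fin 3)) (hx : x * x = 1) (hy : y * y = 1) (hz : z * z = 1)
    (hx1 : x ≠ 1) (hy1 : y ≠ 1) (hz1 : z ≠ 1) (hxy : x ≠ y) :
    z = x ∨ z = y ∨ z = x * y * x :=
  s3_three' x y z ⟨hx, hy, hz, hx1, hy1, hz1, hxy⟩

theorem s3_center : ∀ t : Perm (Fin 3), (∀ g, t * g = g * t) → t = 1 := by decide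

/-- The local hypotheses from the statement's hypotheses. -/
theorem loc_of {D : Set G} (hord : ∀ d ∈ D, orderOf d = 2)
    (h23 : ∀ d ∈ D, ∀ e ∈ D, (d * e) ^ 2 = 1 ∨ (d * e) ^ 3 = 1)
    (hconj : ∀ g : G, ∀ d ∈ D, g * d * g⁻¹ ∈ D)
    (hloc : ∀ d ∈ D, Nonempty (↥(Subgroup.closure (Dn D d)) ≃* Perm (Fin 3))) : Loc D := by
  have hinv : ∀ a ∈ D, a * a = 1 := by
    intro a ha
    have := pow_orderOf_eq_one a
    rwa [hord a ha, sq] at this
  have hne1 : ∀ a ∈ D, a ≠ 1 := by
    intro a ha e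
    have := hord a ha
    rw [e, orderOf_one] at this
    exact absurd this (by norm_num)
  have hinv_eq : ∀ a ∈ D, a⁻¹ = a := fun a ha => inv_eq_of_mul_eq_one_left (hinv a ha)
  have key : ∀ d ∈ D, ∀ φ : ↥(Subgroup.closure (Dn D d)) ≃* Perm (Fin 3),
      ∀ y (hy : y ∈ Dn D d), φ ⟨y, Subgroup.subset_closure hy⟩ *
        φ ⟨y, Subgroup.subset_closure hy⟩ = 1 ∧ φ ⟨y, Subgroup.subset_closure hy⟩ ≠ 1 := by
    intro d _ φ y hy
    constructor
    · rw [← map_mul]
      have : (⟨y, Subgroup.subset_closure hy⟩ : ↥(Subgroup.closure (Dn D d))) *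
          ⟨y, Subgroup.subset_closure hy⟩ = 1 := Subtype.ext (hinv y hy.1)
      rw [this, map_one]
    · intro e
      rw [MulEquiv.map_eq_one_iff] at e
      exact hne1 y hy.1 (congrArg Subtype.val e)
  refine ⟨hinv, ?_, hconj, ?_, ?_, ?_⟩
  · intro a ha b hb
    rcases h23 a ha b hb with h2 | h3
    · left
      show a * b = b * a
      have h4 : a * b * (a * b) = 1 := by rw [← sq]; exact h2
      have h5 := eq_inv_of_mul_eq_one_left h4
      rw [h5, mul_inv_rev, hinv_eq a ha, hinv_eq b hb]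
    · right; exact h3
  · intro d hd
    obtain ⟨φ⟩ := hloc d hd
    by_contra hcon
    push Not at hcon
    have h1 : Subgroup.closure (Dn D d) ≤ Subgroup.centralizer (Dn D d) := by
      rw [Subgroup.closure_le]
      intro u hu
      rw [SetLike.mem_coe, Subgroup.mem_centralizer_iff]
      intro v hv
      exact (hcon v hv u hu).eq
    have h2 : Subgroup.closure (Dn D d) ≤
        Subgroup.centralizer (Subgroup.closure (Dn D d) : Set G) := by
      rw [Subgroup.closure_le]
      intro u hu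
      rw [SetLike.mem_coe, Subgroup.mem_centralizer_iff]
      intro v hv
      have := h1 hv
      rw [Subgroup.mem_centralizer_iff] at this
      exact (this u hu).symm
    have hcomm : ∀ u v : ↥(Subgroup.closure (Dn D d)), u * v = v * u := by
      intro u v
      have := h2 v.2
      rw [Subgroup.mem_centralizer_iff] at this
      exact Subtype.ext (this u u.2)
    have hx : (swap (0 : Fin 3) 1) * swap 1 2 ≠ swap 1 2 * swap 0 1 := by decide
    apply hx
    have h3 := congrArg φ (hcomm (φ.symm (swap 0 1)) (φ.symm (swap 1 2)))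
    simpa using h3
  · intro d hd p hp q hq hpq hc
    obtain ⟨φ⟩ := hloc d hd
    obtain ⟨hp1, hp2⟩ := key d hd φ p hp
    obtain ⟨hq1, hq2⟩ := key d hd φ q hq
    have hne : φ ⟨p, Subgroup.subset_closure hp⟩ ≠ φ ⟨q, Subgroup.subset_closure hq⟩ := by
      intro e
      exact hpq (congrArg Subtype.val (φ.injective e))
    apply s3_nc _ _ hp1 hq1 hp2 hq2 hne
    rw [← map_mul, ← map_mul]
    congr 1
    exact Subtype.ext hc.eq
  · intro d hd p hp q hq hpq r hr
    obtain ⟨φ⟩ := hloc d hd
    obtain ⟨hp1, hp2⟩ := key d hd φ p hp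
    obtain ⟨hq1, hq2⟩ := key d hd φ q hq
    obtain ⟨hr1, hr2⟩ := key d hd φ r hr
    have hne : φ ⟨p, Subgroup.subset_closure hp⟩ ≠ φ ⟨q, Subgroup.subset_closure hq⟩ := by
      intro e
      exact hpq (congrArg Subtype.val (φ.injective e))
    rcases s3_three _ _ _ hp1 hq1 hr1 hp2 hq2 hr2 hne with e | e | e
    · left; exact congrArg Subtype.val (φ.injective e)
    · right; left; exact congrArg Subtype.val (φ.injective e)
    · right; right
      have e' : (⟨r, Subgroup.subset_closure hr⟩ : ↥(Subgroup.closure (Dn D d))) =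
          ⟨p, Subgroup.subset_closure hp⟩ * ⟨q, Subgroup.subset_closure hq⟩ *
            ⟨p, Subgroup.subset_closure hp⟩ := by
        apply φ.injective
        rw [e, map_mul, map_mul]
      exact congrArg Subtype.val e'

namespace Loc

variable {D : Set G} (h : Loc D)

include h

/-- Components of the second kind: `⟨D⟩ ≅ S₅`. -/
theorem iso_S5 [Finite G] {d : G} (hd : d ∈ D) (hII : ¬ TypeI D d) :
    Nonempty (↥(Subgroup.closure D) ≃* Perm (Fin 5)) := by
  have hall := h.caseII_all hd hII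
  obtain ⟨a, ha, c, hc, hac⟩ := h.two d hd
  have hac' : a ≠ c := by rintro rfl; exact hac (Commute.refl _)
  obtain ⟨d1, hd1, hd1d⟩ := h.exists_ne (y := d) ha.1
  have hda : d ∈ Dn D a := Dn_symm hd ha
  have hcd1 : ¬ Commute c d1 := by
    intro hcc
    apply hII
    refine ⟨d1, hd1.1, hd1d, ?_⟩
    intro w hw
    rcases h.three d hd a ha c hc hac' w hw with e | e | e <;> rw [e]
    · exact hd1.2.2.symm
    · exact hcc.symm
    · exact (hd1.2.2.symm.mul_right hcc.symm).mul_right hd1.2.2.symm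
  have r1 : (a * c) ^ 3 = 1 := h.pow3 ha.1 hc.1 hac
  have r2 : (c * d1) ^ 3 = 1 := h.pow3 hc.1 hd1.1 hcd1
  have r3 : (d1 * d) ^ 3 = 1 := h.pow3 hd1.1 hd (h.nc a ha.1 d1 hd1 d hda hd1d)
  have sqc : ∀ x y : G, x * x = 1 → y * y = 1 → Commute x y → (x * y) ^ 2 = 1 := by
    intro x y hx hy hxy
    rw [hxy.mul_pow, sq, sq, hx, hy, one_mul]
  have r4 : (a * d1) ^ 2 = 1 := sqc _ _ (h.inv a ha.1) (h.inv d1 hd1.1) hd1.2.2
  have r5 : (a * d) ^ 2 = 1 := sqc _ _ (h.inv a ha.1) (h.inv d hd) ha.2.2.symm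
  have r6 : (c * d) ^ 2 = 1 := sqc _ _ (h.inv c hc.1) (h.inv d hd) hc.2.2.symm
  obtain ⟨f, f1, f2, f3, f4⟩ := PresS5.s5_hom a c d1 d (h.inv a ha.1) (h.inv c hc.1)
    (h.inv d1 hd1.1) (h.inv d hd) r1 r2 r3 r4 r5 r6
  have hinj : Function.Injective f := by
    apply PresS5.s5_inj f
    rw [map_mul, f1, f2]
    intro e
    apply hac'
    have := eq_inv_of_mul_eq_one_left e
    rw [this, h.inv_eq hc.1]
  have haH : a ∈ f.range := ⟨_, f1⟩
  have hcH : c ∈ f.range := ⟨_, f2⟩
  have hd1H : d1 ∈ f.range := ⟨_, f3⟩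
  have hdH : d ∈ f.range := ⟨_, f4⟩
  have hbH : a * c * a ∈ f.range := mul_mem (mul_mem haH hcH) haH
  have hDd : ∀ w ∈ Dn D d, w ∈ f.range := by
    intro w hw
    rcases h.three d hd a ha c hc hac' w hw with e | e | e <;> rw [e]
    · exact haH
    · exact hcH
    · exact hbH
  have hDa : ∀ w ∈ Dn D a, w ∈ f.range := by
    intro w hw
    rcases h.three a ha.1 d hda d1 hd1 (Ne.symm hd1d) w hw with e | e | e <;> rw [e]
    · exact hdH
    · exact hd1H
    · exact mul_mem (mul_mem hdH hd1H) hdH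
  have htr : ∀ t ∈ D, t ∈ f.range → ∀ y : G, t * y * t = a → ∀ w ∈ Dn D y, w ∈ f.range := by
    intro t ht htH y hty w hw
    have h1 := h.Dn_cm ht hw
    rw [hty] at h1
    have h2 := hDa _ h1
    have e : w = t * (t * w * t) * t := (h.cc ht w).symm
    rw [e]
    exact mul_mem (mul_mem htH h2) htH
  have hbr : a * c * a = c * a * c := h.braid ha.1 hc.1 hac
  have hDy : ∀ y ∈ Dn D d, ∀ w ∈ Dn D y, w ∈ f.range := by
    intro y hy
    rcases h.three d hd a ha c hc hac' y hy with e | e | e <;> rw [e]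
    · exact hDa
    · -- y = c : (a c a) c (a c a) = a
      apply htr (a * c * a) (h.cm ha.1 hc.1) hbH
      calc a * c * a * c * (a * c * a) = a * c * (a * c * a) * c * a := by group
        _ = a * c * (c * a * c) * c * a := by rw [hbr]
        _ = a * (c * c) * a * (c * c) * a := by group
        _ = a := by rw [h.inv c hc.1, mul_one, mul_one, h.inv a ha.1, one_mul]
    · -- y = a c a : c (a c a) c = a
      apply htr c hc.1 hcH
      calc c * (a * c * a) * c = (c * a * c) * a * c := by group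
        _ = (a * c * a) * a * c := by rw [hbr]
        _ = a * c * (a * a) * c := by group
        _ = a := by rw [h.inv a ha.1, mul_one, mul_assoc, h.inv c hc.1, mul_one]
  have hDH : ∀ x ∈ D, x ∈ f.range := by
    intro x hx
    obtain ⟨-, y, hy, hdy, hyx⟩ := hall x hx
    by_cases hyd : y = d
    · rw [hyd] at hyx
      by_cases hxd : x = d
      · rw [hxd]; exact hdH
      · exact hDd x ⟨hx, hxd, hyx⟩
    · have hyDn : y ∈ Dn D d := ⟨hy, hyd, hdy⟩
      by_cases hxy : x = y
      · rw [hxy]; exact hDd y hyDn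
      · exact hDy y hyDn x ⟨hx, hxy, hyx⟩
  have hgen : ∀ i : Fin 4, f (swap i.castSucc i.succ) ∈ Subgroup.closure D := by
    intro i
    have hcases : swap i.castSucc i.succ = swap (0 : Fin 5) 1 ∨
        swap i.castSucc i.succ = swap (1 : Fin 5) 2 ∨
        swap i.castSucc i.succ = swap (2 : Fin 5) 3 ∨
        swap i.castSucc i.succ = swap (3 : Fin 5) 4 := by
      revert i; decide
    rcases hcases with e | e | e | e <;> rw [e]
    · rw [f1]; exact Subgroup.subset_closure ha.1
    · rw [f2]; exact Subgroup.subset_closure hc.1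
    · rw [f3]; exact Subgroup.subset_closure hd1.1
    · rw [f4]; exact Subgroup.subset_closure hd
  have hrange : f.range = Subgroup.closure D := by
    apply le_antisymm
    · rintro _ ⟨π, rfl⟩
      have hπ : π ∈ (⊤ : Submonoid (Perm (Fin 5))) := Submonoid.mem_top π
      rw [← Equiv.Perm.mclosure_swap_castSucc_succ 4] at hπ
      induction hπ using Submonoid.closure_induction with
      | mem x hx =>
        obtain ⟨i, rfl⟩ := hx
        exact hgen i
      | one => rw [map_one]; exact one_mem _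
      | mul x y _ _ ihx ihy => rw [map_mul]; exact mul_mem ihx ihy
    · rw [Subgroup.closure_le]
      exact hDH
  exact ⟨((MonoidHom.ofInjective hinj).trans (MulEquiv.subgroupCongr hrange)).symm⟩

/-- Components of the first kind: `⟨D⟩ ≅ S₃ × S₃`. -/
theorem iso_S3S3 [Finite G]
    (hO : ∀ x ∈ D, Nat.card (Cfsg.pCore 3 ↥(Subgroup.centralizer ({x} : Set G))) = 3)
    (hloc : ∀ d ∈ D, Nonempty (↥(Subgroup.closure (Dn D d)) ≃* Perm (Fin 3)))
    {d : G} (hd : d ∈ D) (hI : TypeI D d) :
    Nonempty (↥(Subgroup.closure D) ≃* Perm (Fin 3) × Perm (Fin 3)) := by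
  have hall := h.caseI_all hO hd hI
  obtain ⟨a, ha, -⟩ := h.two d hd
  obtain ⟨hi, hii, hiii⟩ := h.typeI_struct hd hI ha
  obtain ⟨φ1⟩ := hloc d hd
  obtain ⟨φ2⟩ := hloc a ha.1
  have hgen : ∀ x ∈ Dn D d, ∀ w ∈ Dn D a, Commute x w := by
    intro x hx w hw
    rw [← hi x hx] at hw
    exact hw.2.2
  have h1 : Subgroup.closure (Dn D d) ≤ Subgroup.centralizer (Dn D a) := by
    rw [Subgroup.closure_le]
    intro x hx
    rw [SetLike.mem_coe, Subgroup.mem_centralizer_iff]
    intro w hw
    exact (hgen x hx w hw).eq.symm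
  have h2 : Subgroup.closure (Dn D a) ≤
      Subgroup.centralizer (Subgroup.closure (Dn D d) : Set G) := by
    rw [Subgroup.closure_le]
    intro w hw
    rw [SetLike.mem_coe, Subgroup.mem_centralizer_iff]
    intro x hx
    have := h1 hx
    rw [Subgroup.mem_centralizer_iff] at this
    exact (this w hw).symm
  have hcomm : ∀ (m : ↥(Subgroup.closure (Dn D d))) (n : ↥(Subgroup.closure (Dn D a))),
      Commute ((Subgroup.closure (Dn D d)).subtype m) ((Subgroup.closure (Dn D a)).subtype n) := by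
    intro m n
    have := h2 n.2
    rw [Subgroup.mem_centralizer_iff] at this
    exact this m m.2
  have hψinj : Function.Injective (MonoidHom.noncommCoprod (Subgroup.closure (Dn D d)).subtype
      (Subgroup.closure (Dn D a)).subtype hcomm) := by
    rw [MonoidHom.noncommCoprod_injective]
    refine ⟨Subtype.val_injective, Subtype.val_injective, ?_⟩
    rw [Subgroup.range_subtype, Subgroup.range_subtype, Subgroup.disjoint_def]
    intro z hz1 hz2
    have hcen : ∀ m : ↥(Subgroup.closure (Dn D d)),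
        (⟨z, hz1⟩ : ↥(Subgroup.closure (Dn D d))) * m = m * ⟨z, hz1⟩ := fun m =>
      Subtype.ext (hcomm m ⟨z, hz2⟩).eq.symm
    have h3 : φ1 ⟨z, hz1⟩ = 1 := by
      apply s3_center
      intro g
      have h4 := congrArg φ1 (hcen (φ1.symm g))
      simpa using h4
    rw [MulEquiv.map_eq_one_iff] at h3
    exact congrArg Subtype.val h3
  have hψrange : (MonoidHom.noncommCoprod (Subgroup.closure (Dn D d)).subtype
      (Subgroup.closure (Dn D a)).subtype hcomm).range = Subgroup.closure D := by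
    rw [MonoidHom.noncommCoprod_range, Subgroup.range_subtype, Subgroup.range_subtype,
      ← Subgroup.closure_union]
    congr 1
    apply Set.Subset.antisymm
    · rintro x (hx | hx)
      · exact hx.1
      · exact hx.1
    · intro x hx
      exact hiii (hall x hx)
  exact ⟨(((MonoidHom.ofInjective hψinj).trans (MulEquiv.subgroupCongr hψrange)).symm).trans
    (MulEquiv.prodCongr φ1 φ2)⟩

end Loc

end Cfsg.Agent.Helper58.TT3
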