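import Mathlib

set_option autoImplicit false

/-!
# 3-transpositions whose commuting neighbourhoods are triples (helper58)

`D` is a conjugation-invariant set of 3-transpositions in which the members commuting with a given
member `d` (other than `d`) are three pairwise non-commuting members `p, q, p q p`.  The set
`B D d` of members at commuting distance at most two from `d` is a connected component of the
commuting graph, and products of two members of one component normalise every other component.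
-/

namespace Cfsg.Agent.Helper58.TT3

variable {G : Type*} [Group G]

/-- The members of `D` other than `d` commuting with `d`. -/
def Dn (D : Set G) (d : G) : Set G := {y : G | y ∈ D ∧ y ≠ d ∧ Commute d y}

/-- The members of `D` at commuting distance at most two from `d`. -/
def B (D : Set G) (d : G) : Set G := {y : G | y ∈ D ∧ ∃ x ∈ D, Commute d x ∧ Commute x y}

/-- The local hypotheses. -/
structure Loc (D : Set G) : Prop where
  inv : ∀ a ∈ D, a * a = 1
  ord : ∀ a ∈ D, ∀ b ∈ D, Commute a b ∨ (a * b) ^ 3 = 1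
  conj : ∀ g : G, ∀ a ∈ D, g * a * g⁻¹ ∈ D
  two : ∀ d ∈ D, ∃ p ∈ Dn D d, ∃ q ∈ Dn D d, ¬ Commute p q
  nc : ∀ d ∈ D, ∀ p ∈ Dn D d, ∀ q ∈ Dn D d, p ≠ q → ¬ Commute p q
  three : ∀ d ∈ D, ∀ p ∈ Dn D d, ∀ q ∈ Dn D d, p ≠ q →
    ∀ r ∈ Dn D d, r = p ∨ r = q ∨ r = p * q * p

theorem comm_conj {a b : G} (g : G) (hc : Commute a b) :
    Commute (g * a * g⁻¹) (g * b * g⁻¹) := by
  have h1 := hc.eq
  show g * a * g⁻¹ * (g * b * g⁻¹) = g * b * g⁻¹ * (g * a * g⁻¹)
  calc g * a * g⁻¹ * (g * b * g⁻¹) = g * (a * b) * g⁻¹ := by group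
    _ = g * (b * a) * g⁻¹ := by rw [h1]
    _ = g * b * g⁻¹ * (g * a * g⁻¹) := by group

namespace Loc

variable {D : Set G} (h : Loc D)

include h

theorem inv_eq {a : G} (ha : a ∈ D) : a⁻¹ = a := inv_eq_of_mul_eq_one_left (h.inv a ha)

theorem cm {a x : G} (ha : a ∈ D) (hx : x ∈ D) : a * x * a ∈ D := by
  have := h.conj a x hx
  rwa [h.inv_eq ha] at this

theorem pow3 {a b : G} (ha : a ∈ D) (hb : b ∈ D) (hn : ¬ Commute a b) : (a * b) ^ 3 = 1 :=
  (h.ord a ha b hb).resolve_left hn

theorem braid {a b : G} (ha : a ∈ D) (hb : b ∈ D) (hn : ¬ Commute a b) :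
    a * b * a = b * a * b := by
  have hab := h.pow3 ha hb hn
  have h1 : a * b * a * (b * a * b) = 1 := by
    rw [← hab]; simp [pow_succ, mul_assoc]
  have h2 := eq_inv_of_mul_eq_one_left h1
  rw [h2, mul_inv_rev, mul_inv_rev, h.inv_eq ha, h.inv_eq hb, mul_assoc]

/-- cancellation `a (a x) = x` -/
theorem cl {a : G} (ha : a ∈ D) (x : G) : a * (a * x) = x := by
  rw [← mul_assoc, h.inv a ha, one_mul]

/-- cancellation `(x a) a = x` -/
theorem cr {a : G} (ha : a ∈ D) (x : G) : x * a * a = x := by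
  rw [mul_assoc, h.inv a ha, mul_one]

/-- double conjugation cancels -/
theorem cc {a : G} (ha : a ∈ D) (x : G) : a * (a * x * a) * a = x := by
  calc a * (a * x * a) * a = (a * a) * x * (a * a) := by group
    _ = x := by rw [h.inv a ha, one_mul, mul_one]

theorem comm_cm {a b t : G} (ht : t ∈ D) (hc : Commute a b) :
    Commute (t * a * t) (t * b * t) := by
  have := comm_conj t hc
  rwa [h.inv_eq ht] at this

theorem Dn_conj (g : G) {d y : G} (hy : y ∈ Dn D d) : g * y * g⁻¹ ∈ Dn D (g * d * g⁻¹) := by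
  refine ⟨h.conj g y hy.1, ?_, comm_conj g hy.2.2⟩
  intro he
  apply hy.2.1
  have : y = g⁻¹ * (g * y * g⁻¹) * g := by group
  rw [this, he]; group

theorem Dn_cm {t d y : G} (ht : t ∈ D) (hy : y ∈ Dn D d) : t * y * t ∈ Dn D (t * d * t) := by
  have := h.Dn_conj t hy
  rwa [h.inv_eq ht] at this

omit h in
theorem Dn_symm {d y : G} (hd : d ∈ D) (hy : y ∈ Dn D d) : d ∈ Dn D y :=
  ⟨hd, hy.2.1.symm, hy.2.2.symm⟩

theorem third_mem {d p q : G} (hp : p ∈ Dn D d) (hq : q ∈ Dn D d) :
    p * q * p ∈ Dn D d := by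
  refine ⟨h.cm hp.1 hq.1, ?_, (hp.2.2.mul_right hq.2.2).mul_right hp.2.2⟩
  intro he
  apply hq.2.1
  have h1 : q = p * (p * q * p) * p := by
    rw [mul_assoc p q p, h.cl hp.1, h.cr hp.1]
  rw [h1, he, ← hp.2.2.eq, h.cr hp.1]

theorem third_ne_left {d p q : G} (hp : p ∈ Dn D d) (hq : q ∈ Dn D d) (hpq : p ≠ q) :
    p * q * p ≠ p := by
  intro he
  apply hpq
  have h1 : q = p * (p * q * p) * p := by
    rw [mul_assoc p q p, h.cl hp.1, h.cr hp.1]
  rw [h1, he, h.inv p hp.1, one_mul]

theorem third_ne_right {d : G} (hd : d ∈ D) {p q : G} (hp : p ∈ Dn D d) (hq : q ∈ Dn D d)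
    (hpq : p ≠ q) : p * q * p ≠ q := by
  intro he
  apply h.nc d hd p hp q hq hpq
  show p * q = q * p
  have : p * q = p * q * p * p := by rw [h.cr hp.1]
  rw [this, he]

theorem Dn_eq_of_subset {d d' : G} (hd : d ∈ D) (hd' : d' ∈ D) (hs : Dn D d ⊆ Dn D d') :
    Dn D d = Dn D d' := by
  obtain ⟨p, hp, q, hq, hpq⟩ := h.two d hd
  have hne : p ≠ q := by
    rintro rfl; exact hpq (Commute.refl _)
  apply Set.Subset.antisymm hs
  intro r hr
  rcases h.three d' hd' p (hs hp) q (hs hq) hne r hr with rfl | rfl | rfl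
  · exact hp
  · exact hq
  · exact h.third_mem hp hq

/-- A member of `D` commuting with neither `a` nor `b` does not commute with `a b`. -/
theorem not_comm_mul {a b y : G} (ha : a ∈ D) (hb : b ∈ D) (hy : y ∈ D) (hay : ¬ Commute a y)
    (hby : ¬ Commute b y) (hab : a ≠ b) : ¬ Commute (a * b) y := by
  intro hc
  have e1 : y * a * y = a * y * a := h.braid hy ha (fun hh => hay hh.symm)
  have e2 : y * b * y = b * y * b := h.braid hy hb (fun hh => hby hh.symm)
  have h1 : a * y * a * (b * y * b) = a * b := by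
    rw [← e1, ← e2]
    calc y * a * y * (y * b * y) = y * a * (y * y) * b * y := by group
      _ = y * (a * b * y) := by rw [h.inv y hy]; group
      _ = y * (y * (a * b)) := by rw [hc.eq]
      _ = a * b := h.cl hy _
  have h2 : y * a * b * y = 1 := by
    have e3 : y * a * b * y = a * (a * y * a * (b * y * b)) * b := by
      calc y * a * b * y = (a * a) * y * a * b * y * (b * b) := by
            rw [h.inv a ha, h.inv b hb, one_mul, mul_one]
        _ = a * (a * y * a * (b * y * b)) * b := by group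
    rw [e3, h1]
    calc a * (a * b) * b = (a * a) * (b * b) := by group
      _ = 1 := by rw [h.inv a ha, h.inv b hb, one_mul]
  have h3 : a * b = 1 := by
    have e4 : a * b = y * (y * a * b * y) * y := by
      calc a * b = (y * y) * a * b * (y * y) := by rw [h.inv y hy, one_mul, mul_one]
        _ = y * (y * a * b * y) * y := by group
    rw [e4, h2, mul_one, h.inv y hy]
  apply hab
  have := eq_inv_of_mul_eq_one_left h3
  rw [this, h.inv_eq hb]

/-! ### The component -/

omit h in
theorem mem_B_self {d : G} (hd : d ∈ D) : d ∈ B D d :=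
  ⟨hd, d, hd, Commute.refl d, Commute.refl d⟩

omit h in
theorem Dn_sub_B {d y : G} (hd : d ∈ D) (hy : y ∈ Dn D d) : y ∈ B D d :=
  ⟨hy.1, d, hd, Commute.refl d, hy.2.2⟩

omit h in
theorem B_symm {d y : G} (hd : d ∈ D) (hy : y ∈ B D d) : d ∈ B D y := by
  obtain ⟨-, x, hx, h1, h2⟩ := hy
  exact ⟨hd, x, hx, h2.symm, h1.symm⟩

theorem B_conj (g : G) {d y : G} (hy : y ∈ B D d) : g * y * g⁻¹ ∈ B D (g * d * g⁻¹) := by
  obtain ⟨hyD, x, hx, h1, h2⟩ := hy
  exact ⟨h.conj g y hyD, g * x * g⁻¹, h.conj g x hx, comm_conj g h1, comm_conj g h2⟩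

theorem B_closed {d y z : G} (hd : d ∈ D) (hy : y ∈ B D d) (hz : z ∈ D) (hyz : Commute y z) :
    z ∈ B D d := by
  obtain ⟨hyD, x, hx, hdx, hxy⟩ := hy
  by_cases hdy : Commute d y
  · exact ⟨hz, y, hyD, hdy, hyz⟩
  have hxd : x ≠ d := by rintro rfl; exact hdy hxy
  have hxy' : x ≠ y := by rintro rfl; exact hdy hdx
  have hyd : y ≠ d := by rintro rfl; exact hdy (Commute.refl _)
  by_cases hzy : z = y
  · subst hzy; exact ⟨hyD, x, hx, hdx, hxy⟩
  by_cases hzx : z = x
  · subst hzx; exact ⟨hz, z, hz, hdx, Commute.refl _⟩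
  have hxDd : x ∈ Dn D d := ⟨hx, hxd, hdx⟩
  have hdDx : d ∈ Dn D x := ⟨hd, hxd.symm, hdx.symm⟩
  have hyDx : y ∈ Dn D x := ⟨hyD, hxy'.symm, hxy⟩
  have hzDy : z ∈ Dn D y := ⟨hz, hzy, hyz⟩
  have hbr : d * y * d = y * d * y := h.braid hd hyD hdy
  have hyy' : d * y * d * d * (d * y * d) = y := by
    calc d * y * d * d * (d * y * d) = d * y * (d * d) * (d * y * d) := by group
      _ = d * (y * d * y) * d := by rw [h.inv d hd]; group
      _ = d * (d * y * d) * d := by rw [hbr]
      _ = (d * d) * y * (d * d) := by group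
      _ = y := by rw [h.inv d hd, one_mul, mul_one]
  have key : ∀ y', y' ∈ Dn D x → y' * d * y' = y → z ∈ B D d := by
    intro y' hy'D hyy'
    have hy'2 : y' * y' = 1 := h.inv _ hy'D.1
    have h2 : y' * y * y' = d := by
      rw [← hyy']
      calc y' * (y' * d * y') * y' = (y' * y') * d * (y' * y') := by group
        _ = d := by rw [hy'2, one_mul, mul_one]
    have hx''0 : y' * z * y' ∈ Dn D d := by
      have h1 := h.Dn_cm hy'D.1 hzDy
      rwa [h2] at h1
    have key2 : ∀ x'', x'' ∈ Dn D d → z = y' * x'' * y' → z ∈ B D d := by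
      intro x'' hx'' hz'
      by_cases hxx : x'' = x
      · exfalso
        apply hzx
        rw [hz', hxx, ← hy'D.2.2.eq, mul_assoc, hy'2, mul_one]
      by_cases hc : Commute y' x''
      · have hzz : z = x'' := by rw [hz', hc.eq, mul_assoc, hy'2, mul_one]
        refine ⟨hz, x'', hx''.1, hx''.2.2, ?_⟩
        rw [hzz]
      · have hbr2 := h.braid hy'D.1 hx''.1 hc
        have hx3 := h.third_mem hx'' hxDd
        refine ⟨hz, _, hx3.1, hx3.2.2, ?_⟩
        rw [hz', hbr2]
        exact h.comm_cm hx''.1 hy'D.2.2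
    refine key2 (y' * z * y') hx''0 ?_
    calc z = (y' * y') * z * (y' * y') := by rw [hy'2, one_mul, mul_one]
      _ = y' * (y' * z * y') * y' := by group
  exact key (d * y * d) (h.third_mem hdDx hyDx) hyy'

theorem B_sub {d y z : G} (hd : d ∈ D) (hy : y ∈ B D d) (hz : z ∈ B D y) : z ∈ B D d := by
  obtain ⟨hzD, x, hx, h1, h2⟩ := hz
  exact h.B_closed hd (h.B_closed hd hy hx h1) hzD h2

theorem B_eq {d y : G} (hd : d ∈ D) (hy : y ∈ B D d) : B D y = B D d :=
  Set.Subset.antisymm (fun _ hz => h.B_sub hd hy hz)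
    (fun _ hz => h.B_sub hy.1 (B_symm hd hy) hz)

theorem not_comm_of_not_mem {d t e : G} (hd : d ∈ D) (ht : t ∈ B D d) (he : e ∈ D)
    (hne : e ∉ B D d) : ¬ Commute t e :=
  fun hc => hne (h.B_closed hd ht he hc)

theorem not_mem_B_swap {d t e : G} (hd : d ∈ D) (ht : t ∈ B D d) (he : e ∈ D)
    (hne : e ∉ B D d) : t ∉ B D e := by
  intro hte
  apply hne
  have h1 := h.B_eq he hte
  have h2 := h.B_eq hd ht
  rw [← h2, h1]
  exact mem_B_self he

theorem not_mem_of_mem {d e z : G} (hd : d ∈ D) (he : e ∈ D) (hne : e ∉ B D d)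
    (hz : z ∈ B D e) : z ∉ B D d := by
  intro hzd
  apply hne
  have h1 := h.B_eq he hz
  have h2 := h.B_eq hd hzd
  rw [← h2, h1]
  exact mem_B_self he

/-- `x` and `y` in different components: conjugation by `x` on the component of `y` agrees with
conjugation by `y` on the component of `x`. -/
theorem F1 {x y z : G} (hx : x ∈ D) (hy : y ∈ D) (hny : y ∉ B D x) (hz : z ∈ B D y) :
    y * (x * z * x) * y ∈ B D x := by
  have hn : ¬ Commute x y := h.not_comm_of_not_mem hx (mem_B_self hx) hy hny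
  have h1 := h.B_conj x hz
  rw [h.inv_eq hx, h.braid hx hy hn] at h1
  have h2 := h.B_conj y⁻¹ h1
  rw [inv_inv, h.inv_eq hy] at h2
  have e : y * (y * x * y) * y = x := by
    calc y * (y * x * y) * y = (y * y) * x * (y * y) := by group
      _ = x := by rw [h.inv y hy, one_mul, mul_one]
  rwa [e] at h2

/-- The product of two members of a component normalises every other component. -/
theorem norm {d t t' e z : G} (hd : d ∈ D) (ht : t ∈ B D d) (ht' : t' ∈ B D d) (he : e ∈ D)
    (hne : e ∉ B D d) (hz : z ∈ B D e) : t * t' * z * (t * t')⁻¹ ∈ B D e := by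
  have hBt' := h.B_eq hd ht'
  have hBt := h.B_eq hd ht
  have hw : e * (t' * z * t') * e ∈ B D t' := h.F1 ht'.1 he (by rw [hBt']; exact hne) hz
  rw [hBt', ← hBt] at hw
  have h2 := h.F1 he ht.1 (h.not_mem_B_swap hd ht he hne) hw
  have e1 : t * (e * (e * (t' * z * t') * e) * e) * t = t * t' * z * (t * t')⁻¹ := by
    rw [mul_inv_rev, h.inv_eq ht.1, h.inv_eq ht'.1]
    calc t * (e * (e * (t' * z * t') * e) * e) * t
        = t * ((e * e) * (t' * z * t') * (e * e)) * t := by group
      _ = t * t' * z * (t' * t) := by rw [h.inv e he]; group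
  rwa [e1] at h2

/-- Non-commuting members of `D` are conjugate. -/
theorem conj_eq {d y : G} (hd : d ∈ D) (hy : y ∈ D) (hn : ¬ Commute d y) :
    d * y * d * (d * y)⁻¹ = y := by
  rw [mul_inv_rev, h.inv_eq hd, h.inv_eq hy]
  have hbr := h.braid hd hy hn
  calc d * y * d * (y * d) = d * (y * d * y) * d := by group
    _ = d * (d * y * d) * d := by rw [hbr]
    _ = (d * d) * y * (d * d) := by group
    _ = y := by rw [h.inv d hd, one_mul, mul_one]

end Loc

end Cfsg.Agent.Helper58.TT3
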