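import Cfsg.Agent.Helper58.TT3Local

set_option autoImplicit false

/-!
# Two kinds of components (helper58)

Counting lemmas (a pigeonhole for a group of order nine and fixed points modulo three), and the
two kinds of components of the commuting graph of `D`: in the first kind some other member has the
same commuting neighbours as `d`.  In the second kind the component of `d` is all of `D`; in the
first kind the products `p q` of members with a common commuting neighbour commute pairwise.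
-/

namespace Cfsg.Agent.Helper58.TT3

variable {G : Type*} [Group G]

/-- Some other member of `D` commutes with all commuting neighbours of `d`. -/
def TypeI (D : Set G) (d : G) : Prop := ∃ s ∈ D, s ≠ d ∧ ∀ x ∈ Dn D d, Commute s x

theorem triple_comm {p q r r' : G} (hP : p * p = 1) (hQ : q * q = 1)
    (hr : r = p ∨ r = q ∨ r = p * q * p) (hr' : r' = p ∨ r' = q ∨ r' = p * q * p) :
    Commute (p * q) (r * r') := by
  have e0 : q * p = (p * q)⁻¹ := by
    rw [mul_inv_rev, inv_eq_of_mul_eq_one_left hQ, inv_eq_of_mul_eq_one_left hP]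
  have c0 : Commute (p * q) (q * p) := by
    rw [e0]; exact (Commute.refl _).inv_right
  rcases hr with e | e | e <;> rcases hr' with e' | e' | e' <;> rw [e, e']
  · rw [hP]; exact Commute.one_right _
  · have e1 : p * (p * q * p) = q * p := by rw [mul_assoc p q p, ← mul_assoc p p, hP, one_mul]
    rw [e1]; exact c0
  · exact c0
  · rw [hQ]; exact Commute.one_right _
  · have e1 : q * (p * q * p) = (q * p) * (q * p) := by simp only [mul_assoc]
    rw [e1]; exact c0.mul_right c0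
  · have e1 : p * q * p * p = p * q := by rw [mul_assoc (p * q) p p, hP, mul_one]
    rw [e1]
  · have e1 : p * q * p * q = (p * q) * (p * q) := by simp only [mul_assoc]
    rw [e1]; exact (Commute.refl _).mul_right (Commute.refl _)
  · have e1 : p * q * p * (p * q * p) = 1 := by
      calc p * q * p * (p * q * p) = p * q * (p * p) * q * p := by group
        _ = p * (q * q) * p := by rw [hP]; group
        _ = 1 := by rw [hQ, mul_one, hP]
    rw [e1]; exact Commute.one_right _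

theorem pow_cases3 {ρ : G} (hρ : ρ ^ 3 = 1) (m : ℕ) :
    (ρ ^ m = 1 ∧ m % 3 = 0) ∨ (ρ ^ m = ρ ∧ m % 3 = 1) ∨ (ρ ^ m = ρ⁻¹ ∧ m % 3 = 2) := by
  have h2 : ρ ^ 2 = ρ⁻¹ := by
    apply eq_inv_of_mul_eq_one_left
    rw [← pow_succ]; exact hρ
  rw [pow_eq_pow_mod m hρ]
  have hlt : m % 3 < 3 := Nat.mod_lt _ (by norm_num)
  obtain ⟨r, hr⟩ : ∃ r, r = m % 3 := ⟨_, rfl⟩
  rw [← hr] at hlt ⊢
  interval_cases r
  · left; exact ⟨pow_zero _, rfl⟩
  · right; left; exact ⟨pow_one _, rfl⟩
  · right; right; exact ⟨h2, rfl⟩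

/-- A pigeonhole: two commuting elements of order three normalising a set with fewer than nine
members; some non-trivial product of them fixes a given member. -/
theorem pigeon9 [Finite G] {X : Set G} (hX : X.ncard < 9) {ρ σ h : G} (hρ : ρ ^ 3 = 1)
    (hσ : σ ^ 3 = 1) (hc : Commute ρ σ) (hρX : ∀ x ∈ X, ρ * x * ρ⁻¹ ∈ X)
    (hσX : ∀ x ∈ X, σ * x * σ⁻¹ ∈ X) (hh : h ∈ X) :
    Commute ρ h ∨ Commute σ h ∨ Commute (ρ * σ) h ∨ Commute (ρ * σ⁻¹) h := by
  classical
  have h1 : ∀ j : ℕ, ∀ x ∈ X, σ ^ j * x * (σ ^ j)⁻¹ ∈ X := by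
    intro j
    induction j with
    | zero => intro x hx; simpa using hx
    | succ j ih =>
      intro x hx
      have := hσX _ (ih x hx)
      have e : σ * (σ ^ j * x * (σ ^ j)⁻¹) * σ⁻¹ = σ ^ (j + 1) * x * (σ ^ (j + 1))⁻¹ := by
        rw [pow_succ']; group
      rwa [e] at this
  have h2 : ∀ j : ℕ, ∀ x ∈ X, ρ ^ j * x * (ρ ^ j)⁻¹ ∈ X := by
    intro j
    induction j with
    | zero => intro x hx; simpa using hx
    | succ j ih =>
      intro x hx
      have := hρX _ (ih x hx)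
      have e : ρ * (ρ ^ j * x * (ρ ^ j)⁻¹) * ρ⁻¹ = ρ ^ (j + 1) * x * (ρ ^ (j + 1))⁻¹ := by
        rw [pow_succ']; group
      rwa [e] at this
  have h3 : ∀ i j : ℕ, ρ ^ i * σ ^ j * h * (ρ ^ i * σ ^ j)⁻¹ ∈ X := by
    intro i j
    have := h2 i _ (h1 j h hh)
    have e : ρ ^ i * (σ ^ j * h * (σ ^ j)⁻¹) * (ρ ^ i)⁻¹ =
        ρ ^ i * σ ^ j * h * (ρ ^ i * σ ^ j)⁻¹ := by group
    rwa [e] at this
  haveI : Fintype X := Fintype.ofFinite X
  let f : Fin 3 × Fin 3 → X := fun ij => ⟨_, h3 ij.1.val ij.2.val⟩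
  have hcard : Fintype.card X < Fintype.card (Fin 3 × Fin 3) := by
    have e1 : Fintype.card X = X.ncard := by
      rw [← Nat.card_eq_fintype_card, Nat.card_coe_set_eq]
    rw [e1]
    simpa using hX
  obtain ⟨⟨i, j⟩, ⟨i', j'⟩, hne, heq⟩ := Fintype.exists_ne_map_eq_of_card_lt f hcard
  have heq' : ρ ^ i.val * σ ^ j.val * h * (ρ ^ i.val * σ ^ j.val)⁻¹ =
      ρ ^ i'.val * σ ^ j'.val * h * (ρ ^ i'.val * σ ^ j'.val)⁻¹ := congrArg Subtype.val heq
  have hi := i.2
  have hi' := i'.2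
  have hj := j.2
  have hj' := j'.2
  obtain ⟨m, hm⟩ : ∃ m, m = i'.val + 3 - i.val := ⟨_, rfl⟩
  obtain ⟨n, hn⟩ : ∃ n, n = j'.val + 3 - j.val := ⟨_, rfl⟩
  have hu : ρ ^ i'.val * σ ^ j'.val = ρ ^ i.val * σ ^ j.val * (ρ ^ m * σ ^ n) := by
    have e1 : ρ ^ i.val * σ ^ j.val * (ρ ^ m * σ ^ n) = ρ ^ (i.val + m) * σ ^ (j.val + n) := by
      rw [pow_add, pow_add]
      have := (hc.pow_pow m j.val).eq
      calc ρ ^ i.val * σ ^ j.val * (ρ ^ m * σ ^ n)
          = ρ ^ i.val * (σ ^ j.val * ρ ^ m) * σ ^ n := by group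
        _ = ρ ^ i.val * (ρ ^ m * σ ^ j.val) * σ ^ n := by rw [this]
        _ = ρ ^ i.val * ρ ^ m * (σ ^ j.val * σ ^ n) := by group
    have e2 : i.val + m = i'.val + 3 := by omega
    have e3 : j.val + n = j'.val + 3 := by omega
    rw [e1, e2, e3, pow_add, pow_add, hρ, hσ, mul_one, mul_one]
  have hw : Commute (ρ ^ m * σ ^ n) h := by
    rw [hu] at heq'
    generalize ρ ^ m * σ ^ n = w at heq' ⊢
    generalize ρ ^ i.val * σ ^ j.val = u at heq'
    show w * h = h * w
    have e : w * h * w⁻¹ = h := by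
      calc w * h * w⁻¹ = u⁻¹ * (u * w * h * (u * w)⁻¹) * u := by group
        _ = u⁻¹ * (u * h * u⁻¹) * u := by rw [heq']
        _ = h := by group
    calc w * h = (w * h * w⁻¹) * w := by group
      _ = h * w := by rw [e]
  have hnz : ¬ (m % 3 = 0 ∧ n % 3 = 0) := by
    rintro ⟨hm0, hn0⟩
    apply hne
    have e1 : i = i' := Fin.ext (by omega)
    have e2 : j = j' := Fin.ext (by omega)
    rw [e1, e2]
  rcases pow_cases3 hρ m with ⟨e1, m1⟩ | ⟨e1, m1⟩ | ⟨e1, m1⟩ <;>
    rcases pow_cases3 hσ n with ⟨e2, n1⟩ | ⟨e2, n1⟩ | ⟨e2, n1⟩ <;> rw [e1, e2] at hw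
  · exact absurd ⟨m1, n1⟩ hnz
  · right; left; simpa using hw
  · right; left
    have := hw.inv_left
    simpa using this
  · left; simpa using hw
  · right; right; left; exact hw
  · right; right; right; exact hw
  · left
    have := hw.inv_left
    simpa using this
  · right; right; right
    have := hw.inv_left
    have e : (ρ⁻¹ * σ)⁻¹ = ρ * σ⁻¹ := by
      rw [mul_inv_rev, inv_inv]; exact (hc.inv_right).eq.symm
    rwa [e] at this
  · right; right; left
    have := hw.inv_left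
    have e : (ρ⁻¹ * σ⁻¹)⁻¹ = ρ * σ := by
      rw [mul_inv_rev, inv_inv, inv_inv]; exact hc.eq.symm
    rwa [e] at this

/-- Fixed points modulo three of an element of order three normalising a set. -/
theorem card_mod3 [Finite G] {X : Set G} {g : G} (hg : g ^ 3 = 1)
    (hX : ∀ x ∈ X, g * x * g⁻¹ ∈ X) :
    X.ncard ≡ {x | x ∈ X ∧ g * x * g⁻¹ = x}.ncard [MOD 3] := by
  classical
  haveI : Fintype X := Fintype.ofFinite X
  haveI : Fact (Nat.Prime 3) := ⟨by norm_num⟩
  let f : Function.End X := fun x => ⟨g * x.1 * g⁻¹, hX x.1 x.2⟩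
  have hf : f ^ 3 ^ 1 = 1 := by
    have e : f ^ 3 ^ 1 = f * (f * f) := by
      rw [pow_one, pow_succ, pow_succ, pow_one, mul_assoc]
    rw [e]
    funext x
    apply Subtype.ext
    show g * (g * (g * x.1 * g⁻¹) * g⁻¹) * g⁻¹ = x.1
    have hg' : g * g * g = 1 := by rw [← hg]; simp [pow_succ]
    generalize x.1 = y
    calc g * (g * (g * y * g⁻¹) * g⁻¹) * g⁻¹ = (g * g * g) * y * (g * g * g)⁻¹ := by group
      _ = y := by rw [hg']; group
  have key := Equiv.Perm.card_fixedPoints_modEq (p := 3) (n := 1) hf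
  have e1 : Fintype.card X = X.ncard := by
    rw [← Nat.card_eq_fintype_card, Nat.card_coe_set_eq]
  have e2 : Fintype.card (Function.fixedPoints f) = {x | x ∈ X ∧ g * x * g⁻¹ = x}.ncard := by
    rw [← Nat.card_eq_fintype_card, ← Nat.card_coe_set_eq]
    apply Nat.card_congr
    exact
      { toFun := fun x => ⟨x.1.1, x.1.2, congrArg Subtype.val x.2⟩
        invFun := fun x => ⟨⟨x.1, x.2.1⟩, Subtype.ext x.2.2⟩
        left_inv := fun x => rfl
        right_inv := fun x => rfl }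
  rw [e1, e2] at key
  exact key

namespace Loc

variable {D : Set G} (h : Loc D)

include h

theorem typeI_struct {d a : G} (hd : d ∈ D) (hI : TypeI D d) (ha : a ∈ Dn D d) :
    (∀ x ∈ Dn D d, Dn D x = Dn D a) ∧ (∀ y ∈ Dn D a, Dn D y = Dn D d) ∧
      B D d ⊆ Dn D d ∪ Dn D a := by
  obtain ⟨s, hs, hsd, hsc⟩ := hI
  have hsn : s ∉ Dn D d := by
    intro hsD
    obtain ⟨p, hp, q, hq, hpq⟩ := h.two d hd
    by_cases hsp : s = p
    · exact hpq (hsp ▸ hsc q hq)
    · exact h.nc d hd s hsD p hp hsp (hsc p hp)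
  have hds : d ≠ s := fun e => hsd e.symm
  have hmem : ∀ x ∈ Dn D d, d ∈ Dn D x ∧ s ∈ Dn D x := by
    intro x hx
    refine ⟨Dn_symm hd hx, hs, ?_, (hsc x hx).symm⟩
    rintro rfl
    exact hsn hx
  have hsub : ∀ x ∈ Dn D d, ∀ x' ∈ Dn D d, Dn D x ⊆ Dn D x' := by
    intro x hx x' hx' r hr
    obtain ⟨h1, h2⟩ := hmem x hx
    obtain ⟨h1', h2'⟩ := hmem x' hx'
    rcases h.three x hx.1 d h1 s h2 hds r hr with e | e | e
    · rw [e]; exact h1'
    · rw [e]; exact h2'
    · rw [e]; exact h.third_mem h1' h2'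
  have hi : ∀ x ∈ Dn D d, Dn D x = Dn D a := fun x hx =>
    Set.Subset.antisymm (hsub x hx a ha) (hsub a ha x hx)
  have hii : ∀ y ∈ Dn D a, Dn D y = Dn D d := by
    intro y hy
    refine (h.Dn_eq_of_subset hd hy.1 ?_).symm
    intro x hx
    have hyx : y ∈ Dn D x := by rw [hi x hx]; exact hy
    exact Dn_symm hx.1 hyx
  refine ⟨hi, hii, ?_⟩
  rintro z ⟨hzD, x, hx, hdx, hxz⟩
  by_cases hxd : x = d
  · rw [hxd] at hxz
    by_cases hzd : z = d
    · right; rw [hzd]; exact Dn_symm hd ha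
    · left; exact ⟨hzD, hzd, hxz⟩
  · have hxD : x ∈ Dn D d := ⟨hx, hxd, hdx⟩
    by_cases hzx : z = x
    · left; rw [hzx]; exact hxD
    · right; rw [← hi x hxD]; exact ⟨hzD, hzx, hxz⟩

theorem typeI_conj (g : G) {d : G} (hI : TypeI D d) : TypeI D (g * d * g⁻¹) := by
  obtain ⟨s, hs, hsd, hsc⟩ := hI
  refine ⟨g * s * g⁻¹, h.conj g s hs, ?_, ?_⟩
  · intro he
    apply hsd
    have : s = g⁻¹ * (g * s * g⁻¹) * g := by group
    rw [this, he]; group
  · intro x hx
    have h1 := h.Dn_conj g⁻¹ hx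
    have e : g⁻¹ * (g * d * g⁻¹) * g⁻¹⁻¹ = d := by group
    rw [e] at h1
    have h2 := comm_conj g (hsc _ h1)
    have e2 : g * (g⁻¹ * x * g⁻¹⁻¹) * g⁻¹ = x := by group
    rwa [e2] at h2

theorem exists_ne {d y : G} (hd : d ∈ D) : ∃ s' ∈ Dn D d, s' ≠ y := by
  obtain ⟨a, ha, a', ha', haa'⟩ := h.two d hd
  by_cases e : a = y
  · refine ⟨a', ha', ?_⟩
    intro e'
    apply haa'
    rw [e, e']
  · exact ⟨a, ha, e⟩

theorem typeI_of_mem_B {d y : G} (hd : d ∈ D) (hI : TypeI D d) (hy : y ∈ B D d) :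
    TypeI D y := by
  obtain ⟨a, ha, -⟩ := h.two d hd
  obtain ⟨hi, hii, hiii⟩ := h.typeI_struct hd hI ha
  rcases hiii hy with hyd | hya
  · obtain ⟨s', hs', hs'y⟩ := h.exists_ne (y := y) hd
    refine ⟨s', hs'.1, hs'y, ?_⟩
    intro w hw
    rw [hi y hyd, ← hi s' hs'] at hw
    exact hw.2.2
  · obtain ⟨s', hs', hs'y⟩ := h.exists_ne (y := y) ha.1
    refine ⟨s', hs'.1, hs'y, ?_⟩
    intro w hw
    rw [hii y hya] at hw
    have : s' ∈ Dn D w := by rw [hi w hw]; exact hs'
    exact this.2.2.symm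

theorem typeI_all {d : G} (hd : d ∈ D) (hI : TypeI D d) : ∀ y ∈ D, TypeI D y := by
  intro y hy
  by_cases hyB : y ∈ B D d
  · exact h.typeI_of_mem_B hd hI hyB
  · have hn := h.not_comm_of_not_mem hd (mem_B_self hd) hy hyB
    have := h.typeI_conj (d * y) hI
    rwa [h.conj_eq hd hy hn] at this

/-- Products of pairs of commuting neighbours in one component commute. -/
theorem comm_same (hW : ∀ y ∈ D, TypeI D y) {y y' p q p' q' : G} (hy : y ∈ D)
    (hy' : y' ∈ B D y) (hp : p ∈ Dn D y) (hq : q ∈ Dn D y) (hp' : p' ∈ Dn D y')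
    (hq' : q' ∈ Dn D y') : Commute (p * q) (p' * q') := by
  by_cases hpq : p = q
  · rw [hpq, h.inv q hq.1]; exact Commute.one_left _
  obtain ⟨hi, hii, hiii⟩ := h.typeI_struct hy (hW y hy) hp
  rcases hiii hy' with hyd | hya
  · rw [hi y' hyd] at hp' hq'
    have hq2 := hi q hq
    have hp'q : p' ∈ Dn D q := by rw [hq2]; exact hp'
    have hq'q : q' ∈ Dn D q := by rw [hq2]; exact hq'
    exact (hp'.2.2.mul_right hq'.2.2).mul_left (hp'q.2.2.mul_right hq'q.2.2)
  · rw [hii y' hya] at hp' hq'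
    have key := h.three y hy p hp q hq hpq
    exact triple_comm (h.inv p hp.1) (h.inv q hq.1) (key p' hp') (key q' hq')

/-- `p q` commutes with no commuting neighbour of `d` when `p ≠ q` are two of them. -/
theorem rho_not_comm {d a b w : G} (hd : d ∈ D) (ha : a ∈ Dn D d) (hb : b ∈ Dn D d)
    (hab : a ≠ b) (hw : w ∈ Dn D d) : ¬ Commute (a * b) w := by
  rcases h.three d hd a ha b hb hab w hw with e | e | e
  · rw [e]
    have e' : a * b = b * (b * a * b) := by rw [mul_assoc b a b, h.cl hb.1]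
    rw [e']
    exact h.not_comm_mul hb.1 (h.cm hb.1 ha.1) ha.1 (h.nc d hd b hb a ha (Ne.symm hab))
      (h.nc d hd _ (h.third_mem hb ha) a ha (h.third_ne_right hd hb ha (Ne.symm hab)))
      (h.third_ne_left hb ha (Ne.symm hab)).symm
  · rw [e]
    have e' : a * b = a * b * a * a := by rw [h.cr ha.1]
    rw [e']
    exact h.not_comm_mul (h.cm ha.1 hb.1) ha.1 hb.1
      (h.nc d hd _ (h.third_mem ha hb) b hb (h.third_ne_right hd ha hb hab))
      (h.nc d hd a ha b hb hab) (h.third_ne_left ha hb hab)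
  · rw [e]
    exact h.not_comm_mul ha.1 hb.1 (h.cm ha.1 hb.1)
      (h.nc d hd a ha _ (h.third_mem ha hb) (h.third_ne_left ha hb hab).symm)
      (h.nc d hd b hb _ (h.third_mem ha hb) (h.third_ne_right hd ha hb hab).symm) hab

theorem B_image {d e : G} (hd : d ∈ D) (he : e ∈ D) (hne : e ∉ B D d) :
    B D e = (fun x => (d * e) * x * (d * e)⁻¹) '' B D d := by
  have hn := h.not_comm_of_not_mem hd (mem_B_self hd) he hne
  have hconj := h.conj_eq hd he hn
  ext z
  constructor
  · intro hz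
    refine ⟨(d * e)⁻¹ * z * (d * e), ?_, by group⟩
    have h1 := h.B_conj (d * e)⁻¹ hz
    have e1 : (d * e)⁻¹ * e * (d * e)⁻¹⁻¹ = d := by
      have e0 : e = d * e * d * (d * e)⁻¹ := hconj.symm
      generalize d * e = g at e0 ⊢
      rw [e0]; group
    rw [e1] at h1
    rwa [inv_inv] at h1
  · rintro ⟨x, hx, rfl⟩
    have := h.B_conj (d * e) hx
    rwa [hconj] at this

/-- In a component of the second kind there is nothing outside the component. -/
theorem caseII_all [Finite G] {d : G} (hd : d ∈ D) (hII : ¬ TypeI D d) :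
    ∀ e ∈ D, e ∈ B D d := by
  intro e he
  by_contra hne
  obtain ⟨a, ha, b, hb, hab⟩ := h.two d hd
  have hab' : a ≠ b := by rintro rfl; exact hab (Commute.refl _)
  have hρ3 : (a * b) ^ 3 = 1 := h.pow3 ha.1 hb.1 hab
  have hρd : Commute (a * b) d := ha.2.2.symm.mul_left hb.2.2.symm
  have hρd' : a * b * d * (a * b)⁻¹ = d := by rw [hρd.eq]; group
  have hn1 : ∀ x ∈ B D d, a * b * x * (a * b)⁻¹ ∈ B D d := by
    intro x hx
    have := h.B_conj (a * b) hx
    rwa [hρd'] at this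
  have hn2 : ∀ x ∈ B D e, a * b * x * (a * b)⁻¹ ∈ B D e := fun x hx =>
    h.norm hd (Dn_sub_B hd ha) (Dn_sub_B hd hb) he hne hx
  have k1 := card_mod3 hρ3 hn1
  have k2 := card_mod3 hρ3 hn2
  have hcomm : ∀ x : G, a * b * x * (a * b)⁻¹ = x → Commute (a * b) x := by
    intro x hfix
    show a * b * x = x * (a * b)
    calc a * b * x = (a * b * x * (a * b)⁻¹) * (a * b) := by group
      _ = x * (a * b) := by rw [hfix]
  have f2 : {x | x ∈ B D e ∧ a * b * x * (a * b)⁻¹ = x} = ∅ := by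
    ext x
    simp only [Set.mem_ofPred_eq, Set.mem_empty_iff_false, iff_false]
    rintro ⟨hx, hfix⟩
    have hxd : x ∉ B D d := h.not_mem_of_mem hd he hne hx
    have hax := h.not_comm_of_not_mem hd (Dn_sub_B hd ha) hx.1 hxd
    have hbx := h.not_comm_of_not_mem hd (Dn_sub_B hd hb) hx.1 hxd
    exact h.not_comm_mul ha.1 hb.1 hx.1 hax hbx hab' (hcomm x hfix)
  have f1 : {x | x ∈ B D d ∧ a * b * x * (a * b)⁻¹ = x} = {d} := by
    ext x
    simp only [Set.mem_ofPred_eq, Set.mem_singleton_iff]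
    constructor
    · rintro ⟨hx, hfix⟩
      by_contra hxd
      have hcx := hcomm x hfix
      obtain ⟨hxD, y, hy, hdy, hyx⟩ := hx
      by_cases hyd : y = d
      · rw [hyd] at hyx
        exact h.rho_not_comm hd ha hb hab' ⟨hxD, hxd, hyx⟩ hcx
      have hyDn : y ∈ Dn D d := ⟨hy, hyd, hdy⟩
      by_cases hxy : x = y
      · rw [hxy] at hcx
        exact h.rho_not_comm hd ha hb hab' hyDn hcx
      have hy' : a * b * y * (a * b)⁻¹ ∈ Dn D d := by
        have := h.Dn_conj (a * b) hyDn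
        rwa [hρd'] at this
      have hyy' : a * b * y * (a * b)⁻¹ ≠ y := fun e' =>
        h.rho_not_comm hd ha hb hab' hyDn (hcomm y e')
      have hxy' : Commute x (a * b * y * (a * b)⁻¹) := by
        have := comm_conj (a * b) hyx.symm
        rwa [hfix] at this
      apply hII
      refine ⟨x, hxD, hxd, ?_⟩
      intro w hw
      rcases h.three d hd y hyDn _ hy' (Ne.symm hyy') w hw with e' | e' | e'
      · rw [e']; exact hyx.symm
      · rw [e']; exact hxy'
      · rw [e']; exact (hyx.symm.mul_right hxy').mul_right hyx.symm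
    · intro e'
      rw [e']
      exact ⟨mem_B_self hd, hρd'⟩
  rw [f1, Set.ncard_singleton] at k1
  rw [f2, Set.ncard_empty] at k2
  have hcardeq : (B D e).ncard = (B D d).ncard := by
    rw [h.B_image hd he hne]
    apply Set.ncard_image_of_injective
    intro x y hxy
    simpa using hxy
  rw [hcardeq] at k2
  have := k1.symm.trans k2
  exact absurd this (by decide)

theorem dn_ncard_le {d : G} (hd : d ∈ D) : (Dn D d).ncard ≤ 3 := by
  classical
  obtain ⟨p, hp, q, hq, hpq⟩ := h.two d hd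
  have hne : p ≠ q := by rintro rfl; exact hpq (Commute.refl _)
  have hsub : Dn D d ⊆ ({p, q, p * q * p} : Set G) := by
    intro r hr
    rcases h.three d hd p hp q hq hne r hr with e | e | e <;> simp [e]
  have h3 : ({p, q, p * q * p} : Set G).ncard ≤ 3 := by
    have e : ({p, q, p * q * p} : Set G) = ↑({p, q, p * q * p} : Finset G) := by simp
    rw [e, Set.ncard_coe_finset]
    exact Finset.card_le_three
  exact (Set.ncard_le_ncard hsub (Set.toFinite _)).trans h3

theorem B_ncard_le [Finite G] {d : G} (hd : d ∈ D) (hI : TypeI D d) : (B D d).ncard ≤ 6 := by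
  obtain ⟨a, ha, -⟩ := h.two d hd
  obtain ⟨-, -, hiii⟩ := h.typeI_struct hd hI ha
  calc (B D d).ncard ≤ (Dn D d ∪ Dn D a).ncard := Set.ncard_le_ncard hiii (Set.toFinite _)
    _ ≤ (Dn D d).ncard + (Dn D a).ncard := Set.ncard_union_le _ _
    _ ≤ 3 + 3 := Nat.add_le_add (h.dn_ncard_le hd) (h.dn_ncard_le ha.1)

end Loc

end Cfsg.Agent.Helper58.TT3
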