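import Mathlib
import Cfsg.Agent.Helper40.PresSmall

set_option autoImplicit false

/-!
A conjugation-invariant set `D` of 3-transpositions in which every member commutes with exactly one
other member: if `D` generates `G` and has a member outside a commuting pair, then `G ≅ S₄`.
-/

namespace Cfsg.Agent.Helper58

/-- The hypotheses: involutions, 3-transposition property, conjugation invariance, and every member
has exactly one other member commuting with it. -/
structure PairData (G : Type*) [Group G] (D : Set G) : Prop where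
  hinv : ∀ a ∈ D, a * a = 1
  h3 : ∀ a ∈ D, ∀ b ∈ D, a * b = b * a ∨ (a * b) ^ 3 = 1
  hconj : ∀ g : G, ∀ a ∈ D, g * a * g⁻¹ ∈ D
  hQ : ∀ a ∈ D, ∃ a' ∈ D, a' ≠ a ∧ a * a' = a' * a ∧ ∀ y ∈ D, a * y = y * a → y = a ∨ y = a'

/-- `b` is the other member of `D` commuting with `a`. -/
def IsPartner {G : Type*} [Group G] (D : Set G) (a b : G) : Prop :=
  b ∈ D ∧ b ≠ a ∧ a * b = b * a

namespace PairData

variable {G : Type*} [Group G] {D : Set G} (h : PairData G D)

include h

theorem inv_eq {a : G} (ha : a ∈ D) : a⁻¹ = a := inv_eq_of_mul_eq_one_left (h.hinv a ha)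

theorem conj_mem' {a e : G} (ha : a ∈ D) (he : e ∈ D) : a * e * a ∈ D := by
  have := h.hconj a e he
  rwa [h.inv_eq ha] at this

theorem braid {a b : G} (ha : a ∈ D) (hb : b ∈ D) (hab : (a * b) ^ 3 = 1) :
    a * b * a = b * a * b := by
  have h1 : a * b * a * (b * a * b) = 1 := by
    rw [← hab]; simp [pow_succ, mul_assoc]
  have h2 := eq_inv_of_mul_eq_one_left h1
  rw [h2, mul_inv_rev, mul_inv_rev, h.inv_eq ha, h.inv_eq hb, mul_assoc]

theorem partner_unique {a b c : G} (ha : a ∈ D) (hb : IsPartner D a b) (hc : IsPartner D a c) :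
    b = c := by
  obtain ⟨a', -, -, -, hu⟩ := h.hQ a ha
  have h1 : b = a' := (hu b hb.1 hb.2.2).resolve_left hb.2.1
  have h2 : c = a' := (hu c hc.1 hc.2.2).resolve_left hc.2.1
  rw [h1, h2]

omit h in
theorem partner_symm {a b : G} (ha : a ∈ D) (hb : IsPartner D a b) : IsPartner D b a :=
  ⟨ha, hb.2.1.symm, hb.2.2.symm⟩

theorem partner_conj (g : G) {a b : G} (hb : IsPartner D a b) :
    IsPartner D (g * a * g⁻¹) (g * b * g⁻¹) := by
  refine ⟨h.hconj g b hb.1, ?_, ?_⟩
  · intro he
    apply hb.2.1
    have : b = g⁻¹ * (g * b * g⁻¹) * g := by group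
    rw [this, he]; group
  · have h1 := hb.2.2
    calc g * a * g⁻¹ * (g * b * g⁻¹) = g * (a * b) * g⁻¹ := by group
      _ = g * (b * a) * g⁻¹ := by rw [h1]
      _ = g * b * g⁻¹ * (g * a * g⁻¹) := by group

theorem exists_partner {a : G} (ha : a ∈ D) : ∃ b, IsPartner D a b := by
  obtain ⟨a', h1, h2, h3, -⟩ := h.hQ a ha
  exact ⟨a', h1, h2, h3⟩

theorem not_comm {a b e : G} (ha : a ∈ D) (hab : IsPartner D a b) (he : e ∈ D) (hea : e ≠ a)
    (heb : e ≠ b) : (a * e) ^ 3 = 1 ∧ (b * e) ^ 3 = 1 ∧ (e * a) ^ 3 = 1 ∧ (e * b) ^ 3 = 1 := by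
  have h1 : ¬ a * e = e * a := by
    intro hc
    exact heb (h.partner_unique ha ⟨he, hea, hc⟩ hab)
  have h2 : ¬ b * e = e * b := by
    intro hc
    exact hea (h.partner_unique hab.1 ⟨he, heb, hc⟩ (partner_symm ha hab))
  refine ⟨(h.h3 a ha e he).resolve_left h1, (h.h3 b hab.1 e he).resolve_left h2,
    (h.h3 e he a ha).resolve_left (fun hc => h1 hc.symm),
    (h.h3 e he b hab.1).resolve_left (fun hc => h2 hc.symm)⟩

/-- For a commuting pair `a, b` and a third member `e`, the conjugates `a e a` and `b e b` form a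
commuting pair. -/
theorem key_pair {a b e : G} (ha : a ∈ D) (hab : IsPartner D a b) (he : e ∈ D) (hea : e ≠ a)
    (heb : e ≠ b) : IsPartner D (a * e * a) (b * e * b) := by
  obtain ⟨h1, h2, -, -⟩ := h.not_comm ha hab he hea heb
  have hb := hab.1
  have e1 : a * e * a = e * a * e := h.braid ha he h1
  have e2 : b * e * b = e * b * e := h.braid hb he h2
  have hx : a * e * a ∈ D := h.conj_mem' ha he
  have hy : b * e * b ∈ D := h.conj_mem' hb he
  -- the product `(a e a)(b e b) = e (a b) e`
  have hprod : a * e * a * (b * e * b) = e * (a * b) * e := by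
    rw [e1, e2]
    calc e * a * e * (e * b * e) = e * a * (e * e) * b * e := by group
      _ = e * (a * b) * e := by rw [h.hinv e he]; group
  have hab2 : (a * b) * (a * b) = 1 := by
    calc a * b * (a * b) = a * (b * a) * b := by group
      _ = a * (a * b) * b := by rw [hab.2.2]
      _ = (a * a) * (b * b) := by group
      _ = 1 := by rw [h.hinv a ha, h.hinv b hb, one_mul]
  have hab1 : a * b ≠ 1 := by
    intro h0
    apply hab.2.1
    have : b = a⁻¹ := (eq_inv_of_mul_eq_one_right h0)
    rw [this, h.inv_eq ha]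
  have hsq : (a * e * a * (b * e * b)) * (a * e * a * (b * e * b)) = 1 := by
    rw [hprod]
    calc e * (a * b) * e * (e * (a * b) * e) = e * (a * b) * (e * e) * (a * b) * e := by group
      _ = e * ((a * b) * (a * b)) * e := by rw [h.hinv e he]; group
      _ = 1 := by rw [hab2, mul_one, h.hinv e he]
  have hne1 : a * e * a * (b * e * b) ≠ 1 := by
    rw [hprod]
    intro h0
    apply hab1
    have : a * b = e⁻¹ * (e * (a * b) * e) * e⁻¹ := by group
    rw [this, h0, h.inv_eq he, mul_one, h.hinv e he]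
  refine ⟨hy, ?_, ?_⟩
  · intro heq
    apply hne1
    rw [heq, h.hinv _ hx]
  · -- `x y x y = 1` gives `x y = y x`
    have h3 : a * e * a * (b * e * b) = (a * e * a * (b * e * b))⁻¹ :=
      eq_inv_of_mul_eq_one_left hsq
    rw [mul_inv_rev, h.inv_eq hx, h.inv_eq hy] at h3
    exact h3

/-- Conjugation by `a b` sends every member outside the pair to its partner. -/
theorem conj_t {a b e e' : G} (ha : a ∈ D) (hab : IsPartner D a b) (he : e ∈ D) (hea : e ≠ a)
    (heb : e ≠ b) (hee' : IsPartner D e e') : (a * b) * e * (a * b)⁻¹ = e' := by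
  have h1 := h.partner_conj a hee'
  rw [h.inv_eq ha] at h1
  have h2 := h.key_pair ha hab he hea heb
  have h3 := h.partner_unique (h.conj_mem' ha he) h1 h2
  -- `a e' a = b e b`
  rw [mul_inv_rev, h.inv_eq ha, h.inv_eq hab.1]
  calc a * b * e * (b * a) = a * (b * e * b) * a := by group
    _ = a * (a * e' * a) * a := by rw [h3]
    _ = (a * a) * e' * (a * a) := by group
    _ = e' := by rw [h.hinv a ha, one_mul, mul_one]

theorem third {a b e e' g : G} (ha : a ∈ D) (hab : IsPartner D a b) (he : e ∈ D) (hea : e ≠ a)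
    (heb : e ≠ b) (hee' : IsPartner D e e') (hg : g ∈ D) (hga : g ≠ a) (hgb : g ≠ b)
    (hge : g ≠ e) (hge' : g ≠ e') : e * g * e = a ∨ e * g * e = b := by
  by_contra hcon
  push Not at hcon
  obtain ⟨hka, hkb⟩ := hcon
  obtain ⟨g', hgg'⟩ := h.exists_partner hg
  have hk : e * g * e ∈ D := h.conj_mem' he hg
  have hkk' : IsPartner D (e * g * e) (e' * g * e') := h.key_pair he hee' hg hge hge'
  have c1 := h.conj_t ha hab he hea heb hee'
  have c2 := h.conj_t ha hab hg hga hgb hgg'
  have c3 := h.conj_t ha hab hk hka hkb hkk'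
  have c4 : (a * b) * (e * g * e) * (a * b)⁻¹ = e' * g' * e' := by
    rw [← c1, ← c2]; group
  rw [c4] at c3
  apply hgg'.2.1
  have : g' = e'⁻¹ * (e' * g' * e') * e'⁻¹ := by group
  rw [this, c3]; group

omit h in
theorem mem_range_of_eq {H : Type*} [Group H] (φ : H →* G) {x y : G} (hx : x ∈ φ.range)
    (hxy : y = x) : y ∈ φ.range := hxy ▸ hx

/-- The isomorphism with `S₄`. -/
theorem exists_iso (hgen : Subgroup.closure D = ⊤) {d d' e : G} (hd : d ∈ D)
    (hdd' : IsPartner D d d') (he : e ∈ D) (hed : e ≠ d) (hed' : e ≠ d') :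
    Nonempty (G ≃* Equiv.Perm (Fin 4)) := by
  have hd' := hdd'.1
  obtain ⟨h1, h2, h3, h4⟩ := h.not_comm hd hdd' he hed hed'
  have hkey := h.key_pair hd hdd' he hed hed'
  have hf : d * e * d ∈ D := h.conj_mem' hd he
  have hf' : d' * e * d' ∈ D := h.conj_mem' hd' he
  -- `(d (e d'))² = (d e d)(d' e d')`
  have hsq : (d * (e * d')) ^ 2 = (d * e * d) * (d' * e * d') := by
    rw [pow_two]
    calc d * (e * d') * (d * (e * d')) = d * e * (d' * d) * e * d' := by group
      _ = d * e * (d * d') * e * d' := by rw [hdd'.2.2]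
      _ = d * e * d * (d' * e * d') := by group
  have hsq1 : (d * (e * d')) ^ 2 ≠ 1 := by
    rw [hsq]
    intro h0
    apply hkey.2.1
    have : d' * e * d' = (d * e * d)⁻¹ := eq_inv_of_mul_eq_one_right h0
    rw [this, h.inv_eq hf]
  have hx : d ^ 2 = 1 := by rw [pow_two]; exact h.hinv d hd
  have hxy : (d * (e * d')) ^ 4 = 1 := by
    have : (d * (e * d')) ^ 4 = ((d * (e * d')) ^ 2) ^ 2 := by rw [← pow_mul]
    rw [this, hsq, pow_two]
    calc d * e * d * (d' * e * d') * (d * e * d * (d' * e * d'))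
        = d * e * d * ((d' * e * d') * (d * e * d)) * (d' * e * d') := by group
      _ = d * e * d * ((d * e * d) * (d' * e * d')) * (d' * e * d') := by rw [hkey.2.2]
      _ = ((d * e * d) * (d * e * d)) * ((d' * e * d') * (d' * e * d')) := by group
      _ = 1 := by rw [h.hinv _ hf, h.hinv _ hf', one_mul]
  obtain ⟨φ, hφa, hφb⟩ := Cfsg.Agent.Helper40.PresSmall.s4_hom d (e * d') hx h4 hxy
  have hinj : Function.Injective φ := by
    apply Cfsg.Agent.Helper40.PresSmall.s4_inj φ
    rw [map_pow, map_mul, hφa, hφb]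
    exact hsq1
  -- membership in the range
  have rd : d ∈ φ.range := ⟨_, hφa⟩
  have ry : e * d' ∈ φ.range := ⟨_, hφb⟩
  have rf : e * d * e ∈ φ.range := by
    have h5 := φ.range.mul_mem (φ.range.mul_mem ry rd) (φ.range.inv_mem ry)
    refine mem_range_of_eq φ h5 ?_
    rw [mul_inv_rev, h.inv_eq he, h.inv_eq hd']
    calc e * d * e = e * ((d' * d') * d) * e := by rw [h.hinv d' hd', one_mul]
      _ = e * (d' * (d' * d)) * e := by group
      _ = e * (d' * (d * d')) * e := by rw [hdd'.2.2]
      _ = e * d' * d * (d' * e) := by group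
  have rf' : d' * e * d' ∈ φ.range := by
    have h5 := φ.range.mul_mem rf (φ.range.pow_mem (φ.range.mul_mem rd ry) 2)
    refine mem_range_of_eq φ h5 ?_
    rw [hsq, ← h.braid hd he h1]
    calc d' * e * d' = ((d * e * d) * (d * e * d)) * (d' * e * d') := by
          rw [h.hinv _ hf, one_mul]
      _ = d * e * d * (d * e * d * (d' * e * d')) := by group
  have re : e ∈ φ.range := by
    have h5 := φ.range.mul_mem (φ.range.inv_mem ry) rf'
    refine mem_range_of_eq φ h5 ?_
    rw [mul_inv_rev, h.inv_eq he, h.inv_eq hd']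
    calc e = e * (d' * d') := by rw [h.hinv d' hd', mul_one]
      _ = e * d' * (e * e) * d' := by rw [h.hinv e he]; group
      _ = (e * d' * e) * e * d' := by group
      _ = (d' * e * d') * e * d' := by rw [← h.braid hd' he h2]
      _ = d' * e * (d' * e * d') := by group
  have rd' : d' ∈ φ.range := by
    have h5 := φ.range.mul_mem re ry
    refine mem_range_of_eq φ h5 ?_
    calc d' = (e * e) * d' := by rw [h.hinv e he, one_mul]
      _ = e * (e * d') := by group
  obtain ⟨e', hee'⟩ := h.exists_partner he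
  have re' : e' ∈ φ.range := by
    have p1 := h.partner_conj d hee'
    rw [h.inv_eq hd] at p1
    have p2 := h.partner_unique hf p1 hkey
    have h5 := φ.range.mul_mem (φ.range.mul_mem rd rf') rd
    refine mem_range_of_eq φ h5 ?_
    rw [← p2]
    calc e' = (d * d) * e' * (d * d) := by rw [h.hinv d hd, one_mul, mul_one]
      _ = d * (d * e' * d) * d := by group
  have hsurj : Function.Surjective φ := by
    rw [← MonoidHom.range_eq_top, eq_top_iff, ← hgen, Subgroup.closure_le]
    intro g hg
    by_cases hgd : g = d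
    · rw [hgd]; exact rd
    by_cases hgd' : g = d'
    · rw [hgd']; exact rd'
    by_cases hge : g = e
    · rw [hge]; exact re
    by_cases hge' : g = e'
    · rw [hge']; exact re'
    have h6 := h.third hd hdd' he hed hed' hee' hg hgd hgd' hge hge'
    have h7 : g = e * (e * g * e) * e := by
      calc g = (e * e) * g * (e * e) := by rw [h.hinv e he, one_mul, mul_one]
        _ = e * (e * g * e) * e := by group
    rcases h6 with h6 | h6
    · rw [h7, h6]; exact φ.range.mul_mem (φ.range.mul_mem re rd) re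
    · rw [h7, h6]; exact φ.range.mul_mem (φ.range.mul_mem re rd') re
  exact ⟨(MulEquiv.ofBijective φ ⟨hinj, hsurj⟩).symm⟩

end PairData

end Cfsg.Agent.Helper58
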