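import Mathlib
import Cfsg.Agent.Helper44.UCDefs
import Cfsg.Agent.S2587
import Cfsg.Agent.S2581
import Cfsg.Agent.Helper44.UnitaryOrder
import Cfsg.Agent.Helper58.UCORB

set_option autoImplicit false

/-!
Piece HERMC of CALL S2646 (helper44): the number of invertible hermitian matrices.
-/

namespace Cfsg.Agent.Helper58.UCHERMC

open Matrix Cfsg.Agent.Helper21.JCent Cfsg.Agent.Helper44.UC

theorem uc_hermc {K : Type*} [Field K] [Fintype K] {q : ℕ} (hK : Fintype.card K = q ^ 2) (a : ℕ) :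
    Nat.card (GL (Fin a) K) = Nat.card ↥(Cfsg.GU a K q) * hermCount K q a := by
  have h := Cfsg.Agent.Helper58.UCORB.uc_orb hK (1 : ↥(Cfsg.GU a K q))
  have h1 : Nat.card {g : GL (Fin a) K // g * ((1 : ↥(Cfsg.GU a K q)) : GL (Fin a) K) =
      ((1 : ↥(Cfsg.GU a K q)) : GL (Fin a) K) * g} = Nat.card (GL (Fin a) K) :=
    Nat.card_congr (Equiv.subtypeUnivEquiv (fun g => by rw [Subgroup.coe_one, mul_one, one_mul]))
  have h2 : Nat.card ↥(Subgroup.centralizer ({1} : Set ↥(Cfsg.GU a K q))) =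
      Nat.card ↥(Cfsg.GU a K q) := by
    have : Subgroup.centralizer ({1} : Set ↥(Cfsg.GU a K q)) = ⊤ := by
      rw [Subgroup.centralizer_eq_top_iff_subset]
      intro x hx
      rw [Set.mem_singleton_iff] at hx
      rw [hx]
      exact Subgroup.one_mem _
    rw [this, Subgroup.card_top]
  have h3 : Nat.card ↥(invForms q
      (((1 : ↥(Cfsg.GU a K q)) : GL (Fin a) K) : Matrix (Fin a) (Fin a) K)) =
      hermCount K q a := by
    unfold hermCount
    apply Nat.card_congr
    apply Equiv.subtypeEquivRight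
    intro H
    show H ∈ invForms q _ ↔ _
    rw [Subgroup.coe_one, Units.val_one]
    unfold invForms
    rw [Set.mem_setOf_eq, hT_one hK, one_mul, mul_one]
    constructor
    · rintro ⟨h1, h2, -⟩
      exact ⟨h1, h2⟩
    · rintro ⟨h1, h2⟩
      exact ⟨h1, h2, rfl⟩
  rw [h1, h2, h3] at h
  exact h

end Cfsg.Agent.Helper58.UCHERMC
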