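import Mathlib
import Cfsg.Agent.Helper44.UCDefs
import Cfsg.Agent.S2587
import Cfsg.Agent.S2581
import Cfsg.Agent.Helper44.UnitaryOrder

set_option autoImplicit false

/-!
Piece SIM of CALL S2646 (helper44): `N (1 + c N)⁻¹` is similar to the shift `N = nilp K d`.
The conjugating matrix is the matrix of the substitution `x ↦ x / (1 + c x)` on truncated
polynomials: `P (l,i) (k,j) = [l = k] (-c)^(i-j) * choose (i-1) (i-j)` for `j ≤ i`.
-/

namespace Cfsg.Agent.Helper58.UCSIM

open Matrix Cfsg.Agent.Helper21.JCent Cfsg.Agent.Helper44.UC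

section aux

variable {K : Type*} [Field K]

/-- coefficient of `x^i` in `(x / (1 + c x))^j`. -/
def pc (c : K) (i j : ℕ) : K :=
  if j ≤ i then (-c) ^ (i - j) * (((i - 1).choose (i - j) : ℕ) : K) else 0

theorem pc_self (c : K) (i : ℕ) : pc c i i = 1 := by
  unfold pc
  rw [if_pos le_rfl, Nat.sub_self, pow_zero, Nat.choose_zero_right, Nat.cast_one, one_mul]

theorem pc_of_lt (c : K) {i j : ℕ} (h : i < j) : pc c i j = 0 := by
  unfold pc
  rw [if_neg (by omega)]

theorem pc_rec (c : K) (i j : ℕ) (hi : 1 ≤ i) :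
    pc c i (j + 1) + c * pc c (i - 1) (j + 1) = pc c (i - 1) j := by
  rcases lt_trichotomy (j + 1) i with h | h | h
  · obtain ⟨e, rfl⟩ : ∃ e, i = j + e + 2 := ⟨i - j - 2, by omega⟩
    unfold pc
    rw [if_pos (by omega), if_pos (by omega), if_pos (by omega)]
    have h1 : j + e + 2 - (j + 1) = e + 1 := by omega
    have h2 : j + e + 2 - 1 = j + e + 1 := by omega
    have h3 : j + e + 1 - (j + 1) = e := by omega
    have h4 : j + e + 1 - 1 = j + e := by omega
    have h5 : j + e + 1 - j = e + 1 := by omega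
    rw [h2, h1, h3, h4, h5, Nat.choose_succ_succ, Nat.cast_add, pow_succ]
    ring
  · subst h
    rw [pc_self, pc_of_lt c (by omega : j + 1 - 1 < j + 1), mul_zero, add_zero]
    have : j + 1 - 1 = j := by omega
    rw [this, pc_self]
  · rw [pc_of_lt c (by omega : i < j + 1), pc_of_lt c (by omega : i - 1 < j + 1),
      pc_of_lt c (by omega : i - 1 < j), mul_zero, add_zero]

variable {t : ℕ} (d : Fin t → ℕ)

/-- a copy of the index type (no inherited order). -/
def TIdx (d : Fin t → ℕ) : Type := (k : Fin t) × Fin (d k)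

instance : Fintype (TIdx d) := inferInstanceAs (Fintype ((k : Fin t) × Fin (d k)))

instance : DecidableEq (TIdx d) := inferInstanceAs (DecidableEq ((k : Fin t) × Fin (d k)))

/-- the key for the linear order: level first, block second. -/
def ordKey (p : TIdx d) : ℕ ×ₗ ℕ :=
  toLex (((p : (k : Fin t) × Fin (d k)).2 : ℕ), ((p : (k : Fin t) × Fin (d k)).1 : ℕ))

theorem ordKey_injective : Function.Injective (ordKey d) := by
  rintro ⟨k, i⟩ ⟨l, j⟩ h
  have h' : ((i : ℕ), (k : ℕ)) = ((j : ℕ), (l : ℕ)) := toLex.injective h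
  have h1 : (i : ℕ) = (j : ℕ) := congrArg Prod.fst h'
  have h2 : (k : ℕ) = (l : ℕ) := congrArg Prod.snd h'
  have hk : k = l := Fin.ext h2
  subst hk
  have hi : i = j := Fin.ext h1
  subst hi
  rfl

noncomputable instance : LinearOrder (TIdx d) := LinearOrder.lift' (ordKey d) (ordKey_injective d)

theorem tidx_lt (p r : TIdx d) (h : p < r) : ordKey d p < ordKey d r := h

/-- block lower unitriangular matrices have determinant one (on the copy). -/
theorem det_eq_one_of_tri' (M : Matrix (TIdx d) (TIdx d) K)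
    (h0 : ∀ p r : (k : Fin t) × Fin (d k), M p r ≠ 0 → p.1 = r.1 ∧ (r.2 : ℕ) ≤ (p.2 : ℕ))
    (h1 : ∀ p, M p p = 1) :
    M.det = 1 := by
  have htri : M.IsLowerTriangular := by
    intro p r hpr
    have hpr' : p < r := hpr
    by_contra hne
    obtain ⟨ha, hb⟩ := h0 p r hne
    have := tidx_lt d p r hpr'
    unfold ordKey at this
    rw [Prod.Lex.toLex_lt_toLex] at this
    rcases this with h | ⟨h, h'⟩
    · simp only at h
      omega
    · simp only at h h'
      rw [ha] at h'
      exact lt_irrefl _ h'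
  rw [Matrix.det_of_isLowerTriangular M htri]
  exact Finset.prod_eq_one (fun p _ => h1 p)

/-- block lower unitriangular matrices have determinant one. -/
theorem det_eq_one_of_tri (M : Matrix ((k : Fin t) × Fin (d k)) ((k : Fin t) × Fin (d k)) K)
    (h0 : ∀ p r, M p r ≠ 0 → p.1 = r.1 ∧ (r.2 : ℕ) ≤ (p.2 : ℕ)) (h1 : ∀ p, M p p = 1) :
    M.det = 1 :=
  det_eq_one_of_tri' d M h0 h1

/-- the conjugating matrix. -/
def simP (c : K) : Matrix ((k : Fin t) × Fin (d k)) ((k : Fin t) × Fin (d k)) K :=
  Matrix.of fun p r => if p.1 = r.1 then pc c (p.2 : ℕ) (r.2 : ℕ) else 0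

theorem simP_det (c : K) : (simP d c).det = 1 := by
  apply det_eq_one_of_tri
  · intro p r hne
    unfold simP at hne
    rw [Matrix.of_apply] at hne
    by_cases h : p.1 = r.1
    · rw [if_pos h] at hne
      refine ⟨h, ?_⟩
      by_contra hlt
      exact hne (pc_of_lt c (by omega))
    · rw [if_neg h] at hne
      exact absurd rfl hne
  · intro p
    unfold simP
    rw [Matrix.of_apply, if_pos rfl, pc_self]

theorem one_add_det (c : K) :
    ((1 : Matrix ((k : Fin t) × Fin (d k)) ((k : Fin t) × Fin (d k)) K) + c • nilp K d).det = 1 := by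
  apply det_eq_one_of_tri
  · intro p r hne
    by_cases hpr : p = r
    · subst hpr
      exact ⟨rfl, le_rfl⟩
    · rw [Matrix.add_apply, Matrix.one_apply_ne hpr, zero_add, Matrix.smul_apply] at hne
      unfold nilp at hne
      rw [Matrix.of_apply] at hne
      by_cases h : p.1 = r.1 ∧ (p.2 : ℕ) = (r.2 : ℕ) + 1
      · exact ⟨h.1, by omega⟩
      · rw [if_neg h, smul_zero] at hne
        exact absurd rfl hne
  · intro p
    rw [Matrix.add_apply, Matrix.one_apply_eq, Matrix.smul_apply]
    unfold nilp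
    rw [Matrix.of_apply, if_neg (by rintro ⟨-, h⟩; omega), smul_zero, add_zero]

theorem simP_rel (c : K) :
    (1 + c • nilp K d) * simP d c * nilp K d = nilp K d * simP d c := by
  ext ⟨l, i⟩ ⟨k, j⟩
  have e1 : (1 + c • nilp K d) * simP d c * nilp K d =
      simP d c * nilp K d + c • ((nilp K d * simP d c) * nilp K d) := by
    rw [add_mul, one_mul, add_mul, smul_mul_assoc, smul_mul_assoc]
  rw [e1, Matrix.add_apply, Matrix.smul_apply, mul_nilp_apply, mul_nilp_apply, nilp_mul_apply]
  by_cases hj : (j : ℕ) + 1 < d k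
  · rw [dif_pos hj, dif_pos hj, nilp_mul_apply]
    by_cases hi : 1 ≤ (i : ℕ)
    · rw [dif_pos hi, dif_pos hi]
      unfold simP
      simp only [Matrix.of_apply]
      by_cases hlk : l = k
      · subst hlk
        rw [if_pos rfl, if_pos rfl, if_pos rfl, smul_eq_mul]
        exact pc_rec c (i : ℕ) (j : ℕ) hi
      · rw [if_neg hlk, if_neg hlk, if_neg hlk, smul_zero, add_zero]
    · rw [dif_neg hi, dif_neg hi, smul_zero, add_zero]
      unfold simP
      simp only [Matrix.of_apply]
      by_cases hlk : l = k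
      · rw [if_pos hlk]
        exact pc_of_lt c (by omega)
      · rw [if_neg hlk]
  · rw [dif_neg hj, dif_neg hj, smul_zero, add_zero]
    by_cases hi : 1 ≤ (i : ℕ)
    · rw [dif_pos hi]
      unfold simP
      simp only [Matrix.of_apply]
      by_cases hlk : l = k
      · subst hlk
        rw [if_pos rfl]
        have h1 := i.2
        have h2 := j.2
        exact (pc_of_lt c (by omega)).symm
      · rw [if_neg hlk]
    · rw [dif_neg hi]

end aux

theorem uc_sim {K : Type*} [Field K] {t : ℕ} (d : Fin t → ℕ) (hd : ∀ k, 1 ≤ d k) (c : K) :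
    IsUnit ((1 : Matrix ((k : Fin t) × Fin (d k)) ((k : Fin t) × Fin (d k)) K)
        + c • nilp K d).det ∧
    ∃ P : Matrix ((k : Fin t) × Fin (d k)) ((k : Fin t) × Fin (d k)) K, IsUnit P.det ∧
      P * nilp K d = (nilp K d * (1 + c • nilp K d)⁻¹) * P := by
  have hA : IsUnit ((1 : Matrix ((k : Fin t) × Fin (d k)) ((k : Fin t) × Fin (d k)) K)
      + c • nilp K d).det := by
    rw [one_add_det]
    exact isUnit_one
  refine ⟨hA, simP d c, by rw [simP_det]; exact isUnit_one, ?_⟩
  have hrel := simP_rel d c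
  have hcomm : nilp K d * (1 + c • nilp K d) = (1 + c • nilp K d) * nilp K d := by
    rw [mul_add, add_mul, mul_one, one_mul, mul_smul_comm, smul_mul_assoc]
  have h1 : (1 + c • nilp K d)⁻¹ * nilp K d = nilp K d * (1 + c • nilp K d)⁻¹ := by
    calc (1 + c • nilp K d)⁻¹ * nilp K d
        = (1 + c • nilp K d)⁻¹ * nilp K d * ((1 + c • nilp K d) * (1 + c • nilp K d)⁻¹) := by
          rw [Matrix.mul_nonsing_inv _ hA, mul_one]
      _ = (1 + c • nilp K d)⁻¹ * (nilp K d * (1 + c • nilp K d)) * (1 + c • nilp K d)⁻¹ := by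
          simp only [mul_assoc]
      _ = (1 + c • nilp K d)⁻¹ * ((1 + c • nilp K d) * nilp K d) * (1 + c • nilp K d)⁻¹ := by
          rw [hcomm]
      _ = ((1 + c • nilp K d)⁻¹ * (1 + c • nilp K d)) * nilp K d * (1 + c • nilp K d)⁻¹ := by
          simp only [mul_assoc]
      _ = nilp K d * (1 + c • nilp K d)⁻¹ := by
          rw [Matrix.nonsing_inv_mul _ hA, one_mul]
  calc simP d c * nilp K d
      = ((1 + c • nilp K d)⁻¹ * (1 + c • nilp K d)) * (simP d c * nilp K d) := by
        rw [Matrix.nonsing_inv_mul _ hA, one_mul]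
    _ = (1 + c • nilp K d)⁻¹ * ((1 + c • nilp K d) * simP d c * nilp K d) := by
        simp only [mul_assoc]
    _ = (1 + c • nilp K d)⁻¹ * (nilp K d * simP d c) := by rw [hrel]
    _ = ((1 + c • nilp K d)⁻¹ * nilp K d) * simP d c := by simp only [mul_assoc]
    _ = (nilp K d * (1 + c • nilp K d)⁻¹) * simP d c := by rw [h1]

end Cfsg.Agent.Helper58.UCSIM
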